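import Cfsg.Agent.Lib.LMS.B5
import Cfsg.Agent.Lib.U4S.H9
import Cfsg.Agent.Lib.Inv2.Basic

set_option autoImplicit false
set_option linter.unusedSectionVars false

namespace LMS

open Subgroup H69 Cfsg Matrix U4S
open scoped MatrixGroups commutatorElement

universe u
variable {G : Type*} [Group G] [Finite G] {F : Type u} [Field F] [CharP F 2] [Fintype F] {n : ℕ} [Ok n F]
  {ι ψ χ : XX n F →* G} {t : G} {E : Subgroup G}

local notation "X" => XX n F
local notation "I" => Fin (n + 3)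
local notation "Mx" => Matrix (Fin (n + 3)) (Fin (n + 3)) F

namespace NFb

/-- the transpose of an invertible matrix -/
def tr {m : ℕ} (C : GL (Fin m) F) : GL (Fin m) F :=
  ⟨C.1ᵀ, (C⁻¹).1ᵀ, by rw [← transpose_mul, Units.inv_mul, transpose_one],
    by rw [← transpose_mul, Units.mul_inv, transpose_one]⟩

theorem it_gc (C : GX n F) (M : X) : it (gc C M) = gc (tr C)⁻¹ (it M) := Subtype.ext (by
  rw [it_val, ← map_inv, gc_val, gc_val, inv_inv, transpose_mul, transpose_mul, ← mul_assoc]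
  rfl)

theorem sy {m : ℕ} {g : Matrix (Fin m) (Fin m) F} (h : gᵀ = g) (x y : Fin m → F) :
    toBilin' g x y = toBilin' g y x := by
  rw [toBilin'_apply', toBilin'_apply', dotProduct_mulVec, ← mulVec_transpose, h, dotProduct_comm]

theorem alt {m : ℕ} {g : Matrix (Fin m) (Fin m) F} (h : gᵀ = g) :
    (∀ x, toBilin' g x x = 0) ↔ ∀ i, g i i = 0 := by
  refine ⟨fun k i => by simpa using k (Pi.single i 1), fun k x => ?_⟩
  rw [← Finset.univ_sum_single x]
  refine Finset.sum_induction _ (fun y => toBilin' g y y = 0) (fun a b ha hb => ?_) (by simp) fun i _ => ?_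
  · simp only [map_add, LinearMap.add_apply, ha, hb, sy h b a, zero_add, add_zero, CharTwo.add_self_eq_zero]
  · simp [toBilin'_apply', k]

theorem ndg {m : ℕ} (g : GL (Fin m) F) : (toBilin' g.1).Nondegenerate :=
  LinearMap.BilinForm.nondegenerate_toBilin'_of_det_ne_zero' _ g.det_ne_zero

theorem cong {m : ℕ} (g h : GL (Fin m) F) (sg : g.1ᵀ = g.1) (sh : h.1ᵀ = h.1)
    (ha : (∀ i, g.1 i i = 0) ↔ ∀ i, h.1 i i = 0) : ∃ C : GL (Fin m) F, g.1 = C.1 * h.1 * C.1ᵀ := by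
  obtain ⟨c, hc⟩ := H66.exists_equiv_symm_char_two (toBilin' g.1) (toBilin' h.1) (sy sg) (sy sh)
    (ndg g).1 (ndg h).1 rfl (by rw [alt sg, alt sh, ha])
  have e : g.1 = (LinearMap.toMatrix' c.toLinearMap)ᵀ * h.1 * LinearMap.toMatrix' c.toLinearMap := by
    apply toBilin'.injective
    rw [← toBilin'_comp, toLin'_toMatrix']
    ext u v
    exact (hc _ _).symm
  have d : ((LinearMap.toMatrix' c.toLinearMap)ᵀ).det ≠ 0 := fun d =>
    g.det_ne_zero (by rw [e, det_mul, det_mul, d, zero_mul, zero_mul])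
  exact ⟨Matrix.GeneralLinearGroup.mkOfDetNeZero _ d, e⟩

theorem cj {g C : GX n F} {u : X} (e : g.1 = C.1 * u.1 * C.1ᵀ) (M : X) :
    au g 1 true (gc C M) = gc C (u * it M * u⁻¹) := by
  have e' : g = C * Matrix.SpecialLinearGroup.toGL u * tr C := Units.ext e
  rw [au_true, fr_one, it_gc, ← gc_mul, e', mul_inv_cancel_right, gc_mul, gc_sl]

theorem cj' {g : GX n F} (u : X) (sg : g.1ᵀ = g.1) (su : u.1ᵀ = u.1)
    (ha : (∀ i, g.1 i i = 0) ↔ ∀ i, u.1 i i = 0) :
    ∃ C : GX n F, ∀ M, au g 1 true (gc C M) = gc C (u * it M * u⁻¹) := by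
  obtain ⟨C, hC⟩ := cong g (Matrix.SpecialLinearGroup.toGL u) sg su ha
  exact ⟨C, cj hC⟩

theorem w_sym : (pmL Fin.revPerm : X).1ᵀ = (pmL Fin.revPerm : X).1 := by
  ext i j
  simp only [transpose_apply, pmL_apply, Fin.revPerm_apply]
  exact if_congr ⟨fun e => by rw [e, Fin.rev_rev], fun e => by rw [e, Fin.rev_rev]⟩ rfl rfl

theorem zw : ((xe 0 iL 1 : X) * pmL Fin.revPerm).1 = (pmL Fin.revPerm : X).1 + single 0 0 1 := by
  rw [Matrix.SpecialLinearGroup.coe_mul, xe_val (Fin.last_pos.ne), add_mul, one_mul, add_right_inj]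
  ext i j
  by_cases hi : i = 0
  · subst hi
    rw [single_mul_apply_same, one_mul, pmL_apply, single_apply]
    refine if_congr ?_ rfl rfl
    have := j.2
    simp only [Fin.ext_iff, Fin.revPerm_apply, Fin.val_rev, Fin.val_last, Fin.val_zero, true_and]
    omega
  · rw [single_mul_apply_of_ne _ _ _ _ _ hi, single_apply_of_row_ne (Ne.symm hi)]

end NFb

theorem lg_sym {g : GX n F} (o : Ou g 1 true) : g.1ᵀ = g.1 := by
  have hn : 2 ≤ n + 3 := by omega
  obtain ⟨-, c, hc⟩ := gc_fr_eq hn (g := g * (NFb.tr g)⁻¹) (φ := 1) fun M => by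
    conv_rhs => rw [← o.inv M, au_true, au_true, fr_one, fr_one, NFb.it_gc, it_it, ← gc_mul]
    rw [fr_one]
  have e2 : g.1 = c • g.1ᵀ := by
    have := congrArg (· * (NFb.tr g).1) hc
    simp only [smul_mul_assoc, one_mul] at this
    rwa [← Units.val_mul, inv_mul_cancel_right] at this
  have e3 : g.1ᵀ = c • g.1 := by
    conv_lhs => rw [e2]
    rw [transpose_smul, transpose_transpose]
  have hcc : c * c = 1 := h9_ne hn (g := g) (by rw [mul_smul, ← e3, ← e2, one_smul])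
  have c1 : c = 1 := (mul_self_eq_one_iff.1 hcc).elim id fun e => by rw [e, CharTwo.neg_eq]
  rwa [c1, one_smul] at e3

theorem sym_one {m : ℕ} (g : GL (Fin m) F) (h : g.1ᵀ = g.1) (k : ∃ i, g.1 i i ≠ 0) : ∃ C : GL (Fin m) F, g.1 = C.1 * C.1ᵀ := by
  obtain ⟨i, hi⟩ := k
  obtain ⟨C, hC⟩ := NFb.cong g 1 h transpose_one
    ⟨fun k => absurd (k i) hi, fun k => absurd (k i) (by simp)⟩
  exact ⟨C, by rwa [Units.val_one, mul_one] at hC⟩

theorem sym_odd {m : ℕ} (hm : Odd m) (g : GL (Fin m) F) (h : g.1ᵀ = g.1) : ∃ i, g.1 i i ≠ 0 := by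
  by_contra! k
  have := H66.even_finrank_of_alt _ (NFb.ndg g) ((NFb.alt h).2 k)
  rw [Module.finrank_fin_fun] at this
  exact Nat.not_even_iff_odd.2 hm this

theorem sym_alt (g : GX n F) (h : g.1ᵀ = g.1) (k : ∀ i, g.1 i i = 0) :
    ∃ C : GX n F, g.1 = C.1 * (pmL Fin.revPerm : X).1 * C.1ᵀ := by
  refine NFb.cong g (Matrix.SpecialLinearGroup.toGL (pmL Fin.revPerm : X)) h NFb.w_sym
    ⟨fun _ i => ?_, fun _ => k⟩
  refine (pmL_apply _ i i).trans (if_neg fun e => ?_)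
  have e1 := congrArg Fin.val e
  rw [Fin.revPerm_apply, Fin.val_rev] at e1
  obtain ⟨j, hj⟩ := sym_odd (m := n + 3) ⟨i, by have := i.2; omega⟩ g h
  exact hj (k j)

theorem nfC {g : GX n F} (o : Ou g 1 true) :
    Cj (au g 1 true) tw ∨ (Odd n ∧ Cj (au g 1 true) ((cn (xe 0 iL 1)).comp tw)) := by
  have h := lg_sym o
  by_cases k : ∀ i, g.1 i i = 0
  · obtain ⟨C, hC⟩ := sym_alt g h k
    exact Or.inl ⟨C, NFb.cj hC⟩
  rcases Nat.even_or_odd n with hn | hn
  · obtain ⟨i, hi⟩ := sym_odd (hn.add_odd (by decide : Odd 3))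
      (Matrix.SpecialLinearGroup.toGL (pmL Fin.revPerm : X)) NFb.w_sym
    obtain ⟨C, hC⟩ := NFb.cong g (Matrix.SpecialLinearGroup.toGL (pmL Fin.revPerm : X)) h NFb.w_sym
      ⟨fun e => absurd e k, fun e => absurd (e i) hi⟩
    exact Or.inl ⟨C, NFb.cj hC⟩
  · obtain ⟨C, hC⟩ := NFb.cj' ((xe 0 iL 1 : X) * pmL Fin.revPerm) h
      (by rw [NFb.zw, transpose_add, NFb.w_sym, transpose_single])
      ⟨fun e => absurd e k, fun e => absurd (e 0) (by
        rw [NFb.zw, Matrix.add_apply, pmL_apply, if_neg (by simp [Fin.ext_iff])]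
        simp)⟩
    refine Or.inr ⟨hn, C, fun M => ?_⟩
    have e : ((cn (xe 0 iL 1)).comp tw) M =
        (xe 0 iL 1 : X) * pmL Fin.revPerm * it M * ((xe 0 iL 1 : X) * pmL Fin.revPerm)⁻¹ := by
      rw [MonoidHom.comp_apply, cn_apply, tw, MonoidHom.comp_apply, cn_apply]
      group
    rw [e, hC]

end LMS
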