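import Cfsg.Agent.Lib.LMS.NFa
import Cfsg.Agent.Lib.LMS.NFb

set_option autoImplicit false
set_option linter.unusedSectionVars false

namespace LMS

open Subgroup H69 Cfsg Matrix U4S
open scoped MatrixGroups commutatorElement

universe u
variable {G : Type*} [Group G] [Finite G] {F : Type u} [Field F] [CharP F 2] [Fintype F] {n : ℕ} [Ok n F]
  {ι ψ χ : XX n F →* G} {t : G} {E : Subgroup G}

local notation "X" => XX n F
local notation "I" => Fin (n + 3)
local notation "Mx" => Matrix (Fin (n + 3)) (Fin (n + 3)) F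

namespace AL

theorem al_cj {α β : X →* X} (h : Cj α β) (k : Al β) : Al α := by
  obtain ⟨C, hC⟩ := h
  intro y hy
  obtain ⟨M, rfl⟩ := (gc C).surjective y
  rw [hC, ← map_mul, EmbeddingLike.map_eq_one_iff] at hy
  obtain ⟨x, hx⟩ := k M hy
  exact ⟨gc C x, by rw [hC, ← map_inv, ← map_mul, ← hx]⟩

theorem it_inv (x : X) : (it x⁻¹).1 = x.1ᵀ := by rw [it_val, inv_inv]

theorem tw_of {α : X →* X} {y : X} (A : Mx) (hA : A.det = 1)
    (h : ∀ x : X, x.1 = A → y.1 = A * (α x⁻¹).1) : Tw α y := by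
  obtain ⟨x, rfl⟩ : ∃ x : X, x.1 = A := ⟨⟨A, hA⟩, rfl⟩
  have := h x rfl
  rw [map_inv] at this
  exact ⟨x, Subtype.ext this⟩

theorem det_d (δ : F) : (diagonal (Function.update (1 : I → F) 0 δ)).det = δ := by
  rw [det_diagonal, Finset.prod_update_of_mem (Finset.mem_univ _)]
  simp

theorem det_map (σ : RingAut F) (A : Mx) : (A.map σ).det = σ A.det :=
  ((σ : F →+* F).map_det A).symm

theorem map_mul' (σ : RingAut F) (A B : Mx) : (A * B).map σ = A.map σ * B.map σ :=
  Matrix.map_mul (f := (σ : F →+* F))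

theorem map_d (σ : RingAut F) (δ : F) : (diagonal (Function.update (1 : I → F) 0 δ)).map σ =
    diagonal (Function.update (1 : I → F) 0 (σ δ)) := by
  rw [diagonal_map (map_zero σ)]
  congr 1
  funext i
  by_cases h : i = 0
  · subst h; simp
  · simp [Function.update_of_ne h]

theorem alA {σ : RingAut F} (h : Sg σ) : Al (fr σ : X →* X) := by
  intro y hy
  obtain ⟨C, hC⟩ := hil h (SpecialLinearGroup.toGL y) (congrArg Subtype.val hy)
  change y.1 * C.1.map σ = C.1 at hC
  have d0 : C.1.det ≠ 0 := (Matrix.isUnits_det_units C).ne_zero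
  have d1 : σ C.1.det = C.1.det := by
    have := congrArg det hC
    rwa [det_mul, y.2, one_mul, det_map] at this
  refine ⟨⟨C.1 * diagonal (Function.update (1 : I → F) 0 C.1.det⁻¹), by
    rw [det_mul, det_d, mul_inv_cancel₀ d0]⟩, eq_mul_inv_of_mul_eq (Subtype.ext ?_)⟩
  change y.1 * (C.1 * diagonal (Function.update (1 : I → F) 0 C.1.det⁻¹)).map σ = _
  rw [map_mul', map_d, map_inv₀, d1, ← mul_assoc, hC]

theorem alB {σ : RingAut F} (h : Sg σ) : Al ((fr σ).comp it : X →* X) := by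
  intro y hy
  have e : ((fr σ).comp it : X →* X) y⁻¹ = y := by rw [map_inv, inv_eq_of_mul_eq_one_left hy]
  have e1 : y.1ᵀ.map σ = y.1 := by
    rw [← it_inv]; exact congrArg Subtype.val e
  obtain ⟨C, hC⟩ := her h (SpecialLinearGroup.toGL y) e1
  change y.1 = C.1 * C.1ᵀ.map σ at hC
  have d0 : C.1.det ≠ 0 := (Matrix.isUnits_det_units C).ne_zero
  have d1 : C.1.det * σ C.1.det = 1 := by
    have := congrArg det hC
    rw [det_mul, y.2, det_map, det_transpose] at this
    exact this.symm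
  refine tw_of (C.1 * diagonal (Function.update (1 : I → F) 0 C.1.det⁻¹)) (by
    rw [det_mul, det_d, mul_inv_cancel₀ d0]) fun x hx => ?_
  change y.1 = C.1 * diagonal (Function.update (1 : I → F) 0 C.1.det⁻¹) * (it _).1.map σ
  rw [it_inv, hx]
  have e2 : diagonal (Function.update (1 : I → F) 0 C.1.det⁻¹) *
      diagonal (Function.update (1 : I → F) 0 (σ C.1.det⁻¹)) = 1 := by
    rw [diagonal_mul_diagonal, ← diagonal_one]
    congr 1
    funext i
    by_cases hi : i = 0
    · subst hi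
      simp only [Function.update_self]
      rw [map_inv₀, ← mul_inv, d1, inv_one]
    · simp [Function.update_of_ne hi]
  rw [transpose_mul, diagonal_transpose, map_mul', map_d, mul_assoc, ← mul_assoc (diagonal _), e2, one_mul, ← hC]

theorem val_inv (g : GX n F) (x : X) : (au g 1 true x⁻¹).1 = g.1 * x.1ᵀ * (g⁻¹).1 := by
  rw [au_true, fr_one, gc_val, it_inv]

theorem alC {g : GX n F} (o : Ou g 1 true) (h : Even n) : Al (au g 1 true) := by
  intro y hy
  have e : au g 1 true y⁻¹ = y := by rw [map_inv, inv_eq_of_mul_eq_one_left hy]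
  have e1 : g.1 * y.1ᵀ * (g⁻¹).1 = y.1 := by rw [← val_inv, e]
  have sg := lg_sym o
  have hm : Odd (n + 3) := h.add_odd (by decide)
  have s2 : (SpecialLinearGroup.toGL y * g).1ᵀ = (SpecialLinearGroup.toGL y * g).1 := by
    change (y.1 * g.1)ᵀ = y.1 * g.1
    rw [transpose_mul, sg]
    conv_rhs => rw [← e1, mul_assoc, Units.inv_mul, mul_one]
  obtain ⟨A, hA⟩ := sym_one _ s2 (sym_odd hm _ s2)
  obtain ⟨B, hB⟩ := sym_one _ sg (sym_odd hm _ sg)
  change y.1 * g.1 = _ at hA
  have e2 : (A * B⁻¹).1 * g.1 * (A * B⁻¹).1ᵀ = y.1 * g.1 := by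
    have b1 : B.1ᵀ * (B⁻¹).1ᵀ = 1 := by rw [← transpose_mul, Units.inv_mul, transpose_one]
    rw [hA, Units.val_mul, transpose_mul]
    conv_lhs => rw [hB]
    calc A.1 * (B⁻¹).1 * (B.1 * B.1ᵀ) * ((B⁻¹).1ᵀ * A.1ᵀ)
        = A.1 * ((B⁻¹).1 * B.1) * (B.1ᵀ * (B⁻¹).1ᵀ) * A.1ᵀ := by simp only [mul_assoc]
      _ = _ := by rw [b1, Units.inv_mul, mul_one, mul_one]
  have d0 : g.1.det ≠ 0 := (Matrix.isUnits_det_units g).ne_zero
  have d1 : (A * B⁻¹).1.det = 1 := by
    have := congrArg det e2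
    rw [det_mul, det_mul, det_mul, det_transpose, y.2] at this
    have h2 : ((A * B⁻¹).1.det - 1) ^ 2 = 0 := by
      have two := CharTwo.two_eq_zero (R := F)
      refine mul_left_cancel₀ d0 ?_
      linear_combination this + g.1.det * (1 - (A * B⁻¹).1.det) * two
    exact sub_eq_zero.1 (pow_eq_zero_iff two_ne_zero |>.1 h2)
  refine tw_of _ d1 fun x hx => ?_
  rw [val_inv, hx, ← mul_assoc, ← mul_assoc, e2, mul_assoc, Units.mul_inv, mul_one]

end AL

theorem al_out {g : GX n F} {φ : RingAut F} {ε : Bool} (o : Ou g φ ε) (h : φ ≠ 1 ∨ Even n) : Al (au g φ ε) := by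
  cases ε
  · exact AL.al_cj (nfA o) (AL.alA ⟨o.out.resolve_right (by simp), o.sq⟩)
  · by_cases c : φ = 1
    · subst c
      exact AL.alC o (h.resolve_left (by simp))
    · exact AL.al_cj (nfB0 o c) (AL.alB ⟨c, o.sq⟩)

end LMS
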