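import Cfsg.Agent.Lib.LMS.Defs

set_option autoImplicit false
set_option linter.unusedSectionVars false

namespace LMS

open Subgroup H69 Cfsg Matrix U4S
open scoped MatrixGroups commutatorElement

universe u
variable {G : Type*} [Group G] [Finite G] {F : Type u} [Field F] [CharP F 2] [Fintype F] {n : ℕ} [Ok n F]
  {ι ψ χ : XX n F →* G} {t : G} {E : Subgroup G}

local notation "X" => XX n F
local notation "I" => Fin (n + 3)
local notation "Mx" => Matrix (Fin (n + 3)) (Fin (n + 3)) F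

theorem xe_val {i j : I} (h : i ≠ j) (c : F) : (xe i j c : X).1 = 1 + single i j c := by
  exact U4S.xe_val h c

theorem xe_self (i : I) (c : F) : (xe i i c : X) = 1 := by
  exact dif_neg (not_not.2 rfl)

theorem xe_mul (i j : I) (a b : F) : (xe i j a : X) * xe i j b = xe i j (a + b) := by
  by_cases h : i = j
  · subst h; simp [xe_self]
  · exact U4S.xe_mul h a b

theorem xe_zero (i j : I) : (xe i j (0 : F) : X) = 1 := by
  by_cases h : i = j
  · subst h; exact xe_self _ _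
  · exact U4S.xe_zero h

theorem xe_sq (i j : I) (a : F) : (xe i j a : X) * xe i j a = 1 := by
  rw [xe_mul, CharTwo.add_self_eq_zero, xe_zero]

theorem xe_inv (i j : I) (a : F) : (xe i j a : X)⁻¹ = xe i j a := by
  exact inv_eq_of_mul_eq_one_right (xe_sq i j a)

theorem xe_c0 {i j k l : I} (h1 : i ≠ l) (h2 : j ≠ k) (a b : F) : (xe i j a : X) * xe k l b = xe k l b * xe i j a := by
  by_cases h : i = j
  · subst h; simp [xe_self]
  by_cases h' : k = l
  · subst h'; simp [xe_self]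
  exact (H63.St.SL.st I F).c0 h h' h1 h2 a b

theorem xe_c1 {i j l : I} (h1 : i ≠ j) (h2 : j ≠ l) (h3 : i ≠ l) (a b : F) :
    (xe i j a : X) * xe j l b * xe i j a * xe j l b = xe i l (a * b) := by
  have := (H63.St.SL.st I F).c1 h1 h2 h3 a b
  rw [commutatorElement_def] at this
  change (xe i j a : X) * xe j l b * (xe i j a)⁻¹ * (xe j l b)⁻¹ = xe i l (a * b) at this
  rwa [xe_inv, xe_inv] at this

theorem xe_cen {i j : I} (h : i ≠ j) {a : F} (k : (xe i j a : X) ∈ center _) : a = 0 := by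
  obtain ⟨r, -, e⟩ := Matrix.SpecialLinearGroup.mem_center_iff.1 k
  have := congrFun (congrFun e i) j
  rw [xe_val h] at this
  simpa [h] using this.symm

theorem xe2_cen {i j k l : I} (h : i ≠ j) (h' : k ≠ l) (e : i ≠ k ∨ j ≠ l) {a b : F}
    (c : (xe i j a : X) * xe k l b ∈ center _) : a = 0 ∧ b = 0 := by
  have ha : a = 0 := by
    obtain ⟨r, -, e'⟩ := Matrix.SpecialLinearGroup.mem_center_iff.1 c
    have := congrFun (congrFun e' i) j
    rw [Matrix.SpecialLinearGroup.coe_mul, xe_val h, xe_val h'] at this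
    have e1 : ¬ (k = i ∧ l = j) := fun z => e.elim (fun w => w z.1.symm) fun w => w z.2.symm
    have e2 : (single i j a * single k l b : Mx) i j = 0 := by
      by_cases e3 : j = k
      · subst e3; simp [h'.symm]
      · rw [single_mul_single_of_ne _ _ _ _ e3]; rfl
    simpa [mul_add, add_mul, h, e1, e2] using this.symm
  rw [ha, xe_zero, one_mul] at c
  exact ⟨ha, xe_cen h' c⟩

theorem mem_RR {i j : I} {x : X} : x ∈ RR F i j ↔ ∃ c, x = xe i j c := by
  refine ⟨fun hx => ?_, fun hx => subset_closure hx⟩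
  induction hx using closure_induction'' with
  | mem x hx => exact hx
  | inv_mem x hx => obtain ⟨c, rfl⟩ := hx; exact ⟨c, xe_inv _ _ _⟩
  | one => exact ⟨0, (xe_zero _ _).symm⟩
  | mul x y _ _ hx hy =>
    obtain ⟨c, rfl⟩ := hx; obtain ⟨d, rfl⟩ := hy
    exact ⟨c + d, xe_mul _ _ _ _⟩

namespace B1

/-- the matrices with off-diagonal support in `S` -/
def Pat (S : I → I → Prop) (M : Mx) : Prop := ∀ a b, ¬ S a b → M a b = (1 : Mx) a b

/-- the pattern group -/
def PG (F : Type u) [Field F] (S : I → I → Prop) : Subgroup (XX n F) :=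
  closure {y | ∃ i j c, S i j ∧ y = xe i j c}

variable {S : Fin (n + 3) → Fin (n + 3) → Prop}

theorem mul_sub (M N : Mx) (a b : I) :
    (M * N) a b = M a b + N a b - (1 : Mx) a b + ∑ l, (M - 1) a l * (N - 1) l b := by
  rw [← Matrix.mul_apply]
  have : (M - 1) * (N - 1) = M * N - M - N + 1 := by noncomm_ring
  rw [this]
  simp only [Matrix.add_apply, Matrix.sub_apply]; ring

theorem Pat.mul (htr : ∀ a l b, S a l → S l b → S a b) {M N : Mx} (hM : Pat S M) (hN : Pat S N) :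
    Pat S (M * N) := by
  intro a b h
  rw [mul_sub, hM a b h, hN a b h, Finset.sum_eq_zero, add_zero, add_sub_cancel_right]
  intro l _
  by_cases h1 : S a l
  · rw [Matrix.sub_apply N, hN l b fun h2 => h (htr _ _ _ h1 h2), sub_self, mul_zero]
  · rw [Matrix.sub_apply M, hM a l h1, sub_self, zero_mul]

theorem pat_xe (hir : ∀ a, ¬ S a a) {i j : I} (h : S i j) (c : F) : Pat S (xe i j c : X).1 := by
  intro a b hab
  have : ¬ (i = a ∧ j = b) := by rintro ⟨rfl, rfl⟩; exact hab h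
  rw [xe_val (by rintro rfl; exact hir _ h)]
  simp [this]

theorem pat_of (htr : ∀ a l b, S a l → S l b → S a b) (hir : ∀ a, ¬ S a a) {x : X} (hx : x ∈ PG F S) :
    Pat S x.1 := by
  induction hx using closure_induction'' with
  | mem x hx => obtain ⟨i, j, c, h, rfl⟩ := hx; exact pat_xe hir h c
  | inv_mem x hx => obtain ⟨i, j, c, h, rfl⟩ := hx; rw [xe_inv]; exact pat_xe hir h c
  | one => exact fun _ _ _ => rfl
  | mul x y _ _ hx hy => exact hx.mul htr hy

theorem col_single {M : Mx} {i : I} (h : ∀ a, M a i = (1 : Mx) a i) (j : I) (c : F) :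
    M * single i j c = single i j c := by
  ext a b
  by_cases e : b = j
  · subst e
    rw [mul_single_apply_same, h]
    by_cases e' : a = i
    · subst e'; simp
    · simp [e', Ne.symm e']
  · rw [mul_single_apply_of_ne _ _ _ _ _ e, single_apply_of_col_ne _ _ (Ne.symm e)]

theorem pat_ex (htr : ∀ a l b, S a l → S l b → S a b) (hir : ∀ a, ¬ S a a) {M : Mx} (hM : Pat S M) :
    ∃ x ∈ PG F S, x.1 = M := by
  classical
  have : IsTrans I S := ⟨htr⟩
  have : Std.Irrefl S := ⟨hir⟩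
  generalize hk : (Finset.univ.filter fun p : I × I => M p.1 p.2 ≠ (1 : Mx) p.1 p.2).card = k
  induction k using Nat.strong_induction_on generalizing M with
  | _ k ih =>
    by_cases h0 : ∃ a, ∃ b, M a b ≠ (1 : Mx) a b
    · obtain ⟨i, ⟨j, hij⟩, hmin⟩ := (Finite.wellFounded_of_trans_of_irrefl S).has_min
        {a | ∃ b, M a b ≠ (1 : Mx) a b} h0
      have hS : S i j := by by_contra e; exact hij (hM i j e)
      have hne : i ≠ j := by rintro rfl; exact hir _ hS
      have hcol : ∀ a, M a i = (1 : Mx) a i := fun a => by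
        by_contra e
        exact hmin a ⟨i, e⟩ (by by_contra e'; exact e (hM a i e'))
      have key : ∀ a b, (M + single i j (M i j)) a b = if i = a ∧ j = b then (1 : Mx) a b else M a b := by
        intro a b
        split_ifs with e
        · obtain ⟨rfl, rfl⟩ := e
          simp [CharTwo.add_self_eq_zero, hne]
        · simp [e]
      obtain ⟨x, hx, e⟩ := ih _ (by
        rw [← hk]
        refine Finset.card_lt_card ⟨fun p hp => ?_, fun h => ?_⟩
        · rw [Finset.mem_filter, key] at hp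
          refine Finset.mem_filter.2 ⟨Finset.mem_univ _, fun e => hp.2 ?_⟩
          split_ifs
          · rfl
          · exact e
        · have := h (Finset.mem_filter.2 ⟨Finset.mem_univ (i, j), hij⟩)
          rw [Finset.mem_filter, key] at this
          simp at this) (M := M + single i j (M i j)) (fun a b h => by
        rw [key]
        split_ifs
        · rfl
        · exact hM a b h) rfl
      refine ⟨x * xe i j (M i j), mul_mem hx (subset_closure ⟨i, j, _, hS, rfl⟩), ?_⟩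
      rw [Matrix.SpecialLinearGroup.coe_mul, e, xe_val hne, mul_add, mul_one, col_single fun a => by
        rw [key, if_neg fun z => hne z.2.symm, hcol], add_assoc, CharTwo.add_self_eq_zero, add_zero]
    · push Not at h0
      exact ⟨1, one_mem _, (Matrix.ext h0).symm⟩

theorem mem_PG (htr : ∀ a l b, S a l → S l b → S a b) (hir : ∀ a, ¬ S a a) {x : X} :
    x ∈ PG F S ↔ Pat S x.1 :=
  ⟨pat_of htr hir, fun h => by
    obtain ⟨y, hy, e⟩ := pat_ex htr hir h
    rwa [← Subtype.ext e]⟩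

theorem sq_one (h0 : ∀ a l b, S a l → ¬ S l b) {x : X} (hx : Pat S x.1) : x * x = 1 := by
  refine Subtype.ext (Matrix.ext fun a b => ?_)
  rw [Matrix.SpecialLinearGroup.coe_mul, mul_sub, CharTwo.add_self_eq_zero, Finset.sum_eq_zero, add_zero,
    zero_sub, CharTwo.neg_eq]
  · rfl
  intro l _
  by_cases h1 : S a l
  · rw [Matrix.sub_apply, Matrix.sub_apply, hx l b (h0 _ _ _ h1), sub_self, mul_zero]
  · rw [Matrix.sub_apply, hx a l h1, sub_self, zero_mul]

theorem cl_eq {s : Set X} (h1 : ∀ i j c, S i j → xe i j c ∈ s)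
    (h2 : ∀ y ∈ s, ∃ i j c, (S i j ∨ i = j) ∧ y = xe i j c) : closure s = PG F S := by
  refine le_antisymm ((closure_le _).2 fun y hy => ?_) (closure_mono ?_)
  · obtain ⟨i, j, c, h | rfl, rfl⟩ := h2 y hy
    · exact subset_closure ⟨i, j, c, h, rfl⟩
    · rw [xe_self]; exact one_mem _
  · rintro _ ⟨i, j, c, h, rfl⟩
    exact h1 i j c h

/-- row pattern -/
def SA (i a b : I) : Prop := a = i ∧ b ≠ i
/-- column pattern -/
def SB (j a b : I) : Prop := b = j ∧ a ≠ j
/-- hook pattern -/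
def SQ (i j a b : I) : Prop := SA i a b ∨ SB j a b

theorem sa0 {i a l b : I} (h : SA i a l) : ¬ SA i l b := fun h' => h.2 h'.1
theorem sb0 {i a l b : I} (h : SB i a l) : ¬ SB i l b := fun h' => h'.2 h.1
theorem sa1 (i a : I) : ¬ SA i a a := fun h => h.2 h.1
theorem sb1 (i a : I) : ¬ SB i a a := fun h => h.2 h.1
theorem sq0 {i j a l b : I} (h : i ≠ j) (h1 : SQ i j a l) (h2 : SQ i j l b) :
    a = i ∧ b = j ∧ l ≠ i ∧ l ≠ j := by
  rcases h1 with h1 | h1 <;> rcases h2 with h2 | h2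
  · exact absurd h2 (sa0 h1)
  · exact ⟨h1.1, h2.1, h1.2, h2.2⟩
  · exact absurd (h2.1.symm.trans h1.1) h
  · exact absurd h2 (sb0 h1)
theorem sq_tr {i j : I} (h : i ≠ j) (a l b : I) (h1 : SQ i j a l) (h2 : SQ i j l b) : SQ i j a b := by
  obtain ⟨rfl, rfl, -⟩ := sq0 h h1 h2
  exact Or.inl ⟨rfl, h.symm⟩
theorem sq1 (i j a : I) : ¬ SQ i j a a := fun h => h.elim (sa1 _ _) (sb1 _ _)

theorem AA_eq (i : I) : AA F i = PG F (SA i) :=
  cl_eq (by rintro a b c ⟨rfl, -⟩; exact ⟨b, c, rfl⟩) (by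
    rintro _ ⟨l, c, rfl⟩
    exact ⟨i, l, c, (em (i = l)).symm.imp_left fun e => ⟨rfl, Ne.symm e⟩, rfl⟩)
theorem BB_eq (i : I) : BB F i = PG F (SB i) :=
  cl_eq (by rintro a b c ⟨rfl, -⟩; exact ⟨a, c, rfl⟩) (by
    rintro _ ⟨l, c, rfl⟩
    exact ⟨l, i, c, (em (l = i)).symm.imp_left fun e => ⟨rfl, e⟩, rfl⟩)
theorem QQ_eq (i j : I) : QQ F i j = PG F (SQ i j) :=
  cl_eq (by
    rintro a b c (⟨rfl, -⟩ | ⟨rfl, -⟩)
    exacts [⟨b, c, Or.inl rfl⟩, ⟨a, c, Or.inr rfl⟩]) (by
    rintro _ ⟨l, c, rfl | rfl⟩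
    · exact ⟨i, l, c, (em (i = l)).symm.imp_left fun e => Or.inl ⟨rfl, Ne.symm e⟩, rfl⟩
    · exact ⟨l, j, c, (em (l = j)).symm.imp_left fun e => Or.inr ⟨rfl, e⟩, rfl⟩)

theorem pat_AA {i : I} {x : X} : x ∈ AA F i ↔ Pat (SA i) x.1 := by
  rw [AA_eq, mem_PG (S := SA i) (fun _ _ _ h h' => absurd h' (sa0 h)) (sa1 i)]
theorem pat_BB {i : I} {x : X} : x ∈ BB F i ↔ Pat (SB i) x.1 := by
  rw [BB_eq, mem_PG (S := SB i) (fun _ _ _ h h' => absurd h' (sb0 h)) (sb1 i)]
theorem pat_QQ {i j : I} (h : i ≠ j) {x : X} : x ∈ QQ F i j ↔ Pat (SQ i j) x.1 := by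
  rw [QQ_eq, mem_PG (sq_tr h) (sq1 i j)]

theorem mul_QQ {i j : I} (h : i ≠ j) {M N : Mx} (hM : Pat (SQ i j) M) (hN : Pat (SQ i j) N) :
    M * N = M + N - 1 + single i j (∑ l ∈ (Finset.univ.erase i).erase j, M i l * N l j) := by
  ext a b
  rw [mul_sub, Matrix.add_apply, Matrix.sub_apply, Matrix.add_apply, add_right_inj]
  have key : ∀ a b l, ¬ (a = i ∧ b = j ∧ l ≠ i ∧ l ≠ j) → (M - 1) a l * (N - 1) l b = 0 := by
    intro a b l e
    by_cases h1 : SQ i j a l
    · rw [Matrix.sub_apply N, hN l b fun h2 => e (sq0 h h1 h2), sub_self, mul_zero]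
    · rw [Matrix.sub_apply M, hM a l h1, sub_self, zero_mul]
  by_cases e : i = a ∧ j = b
  · obtain ⟨rfl, rfl⟩ := e
    rw [single_apply_same]
    symm
    refine Finset.sum_subset_zero_on_sdiff (Finset.subset_univ _) (fun l hl => key _ _ _ fun z => ?_)
      fun l hl => ?_
    · simp [z.2.2.1, z.2.2.2] at hl
    · simp only [Finset.mem_erase] at hl
      simp [hl.1, hl.2.1.symm]
  · rw [single_apply_of_ne _ _ _ _ _ e]
    exact Finset.sum_eq_zero fun l _ => key _ _ _ fun z => e ⟨z.1.symm, z.2.1.symm⟩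

theorem it_pm (π : Equiv.Perm I) : it (pmL π : X) = pmL π := by
  refine Subtype.ext (Matrix.ext fun a b => ?_)
  rw [it_val, ← map_inv, transpose_apply, pmL_apply, pmL_apply]
  simp only [Equiv.Perm.eq_inv_iff_eq, eq_comm]

end B1

open B1

theorem mem_JJ {d : ℕ} {x : X} : x ∈ JJ n F d ↔ ∀ i j : I, ¬ (i.1 < d ∧ d ≤ j.1) → x.1 i j = (1 : Mx) i j := by
  have e : JJ n F d = PG F fun i j => i.1 < d ∧ d ≤ j.1 := by simp only [JJ, PG, and_assoc]
  rw [e]
  exact mem_PG (S := fun i j => i.1 < d ∧ d ≤ j.1) (fun _ _ _ h h' => ⟨h.1, h'.2⟩) fun a h => by omega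

theorem mem_UU {x : X} : x ∈ UU n F ↔ ∀ i j : I, j ≤ i → x.1 i j = (1 : Mx) i j := by
  refine (mem_PG (S := fun i j => i < j) (fun _ _ _ => lt_trans) lt_irrefl).trans ?_
  simp only [Pat, not_lt]

theorem mem_AA {i : I} {x : X} : x ∈ AA F i ↔ ∀ a b : I, a ≠ i → x.1 a b = (1 : Mx) a b := by
  rw [pat_AA]
  refine ⟨fun h a b ha => h a b fun z => ha z.1, fun h a b hab => ?_⟩
  by_cases ha : a = i
  · obtain rfl : b = i := by by_contra e; exact hab ⟨ha, e⟩
    subst ha
    have e : x.1 = (1 : Mx).updateRow a (x.1 a) := by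
      ext c d
      by_cases e : c = a
      · rw [e, updateRow_self]
      · rw [updateRow_ne e, h c d e]
    have := x.2
    rw [e, ← cramer_transpose_apply, transpose_one, cramer_one] at this
    rw [one_apply_eq]; exact this
  · exact h a b ha

theorem mem_BB {j : I} {x : X} : x ∈ BB F j ↔ ∀ a b : I, b ≠ j → x.1 a b = (1 : Mx) a b := by
  rw [pat_BB]
  refine ⟨fun h a b ha => h a b fun z => ha z.1, fun h a b hab => ?_⟩
  by_cases hb : b = j
  · obtain rfl : a = j := by by_contra e; exact hab ⟨hb, e⟩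
    subst hb
    have e : x.1 = (1 : Mx).updateCol b (fun c => x.1 c b) := by
      ext c d
      by_cases e : d = b
      · rw [e, updateCol_self]
      · rw [updateCol_ne e, h c d e]
    have := x.2
    rw [e, ← cramer_apply, cramer_one] at this
    rw [one_apply_eq]; exact this
  · exact h a b hb

theorem el_AA (i : I) : El (AA F i) := by
  exact fun x hx => sq_one (S := SA i) (fun _ _ _ => sa0) (pat_AA.1 hx)

theorem el_BB (i : I) : El (BB F i) := by
  exact fun x hx => sq_one (S := SB i) (fun _ _ _ => sb0) (pat_BB.1 hx)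

theorem mem_QQ {i j : I} (h : i ≠ j) {x : X} : x ∈ QQ F i j ↔ ∃ a ∈ AA F i, ∃ b ∈ BB F j, x = a * b := by
  constructor
  · intro hx
    rw [pat_QQ h] at hx
    obtain ⟨y, hy, e⟩ := pat_ex (S := SB j) (fun _ _ _ h h' => absurd h' (sb0 h)) (sb1 j)
      (M := x.1.updateRow i ((1 : Mx) i)) fun a b hab => by
        by_cases e : a = i
        · rw [e, updateRow_self]
        · rw [updateRow_ne e, hx a b fun z => z.elim (fun w => e w.1) hab]
    rw [← BB_eq] at hy
    have h2 := el_BB j y hy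
    refine ⟨x * y, mem_AA.2 fun a b ha => ?_, y, hy, by rw [mul_assoc, h2, mul_one]⟩
    have : (y * y).1 a b = (1 : Mx) a b := by rw [h2]; rfl
    rw [← this, Matrix.SpecialLinearGroup.coe_mul, Matrix.SpecialLinearGroup.coe_mul, Matrix.mul_apply, Matrix.mul_apply]
    refine Finset.sum_congr rfl fun l _ => ?_
    congr 1
    rw [e, updateRow_ne ha]
  · rintro ⟨a, ha, b, hb, rfl⟩
    refine mul_mem (closure_mono ?_ ha) (closure_mono ?_ hb)
    · rintro _ ⟨l, c, rfl⟩; exact ⟨l, c, Or.inl rfl⟩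
    · rintro _ ⟨l, c, rfl⟩; exact ⟨l, c, Or.inr rfl⟩

theorem mem_QQ' {i j : I} (h : i ≠ j) {x : X} : x ∈ QQ F i j ↔
    ∀ a b : I, (a ≠ i ∧ b ≠ j) ∨ a = b → x.1 a b = (1 : Mx) a b := by
  rw [pat_QQ h]
  refine forall₂_congr fun a b => imp_congr_left ?_
  simp only [SQ, SA, SB]
  constructor
  · intro e
    by_cases e1 : a = i <;> by_cases e2 : b = j <;> by_cases e3 : a = j <;> by_cases e4 : b = i <;>
      simp_all
  · rintro (e | rfl) (z | z)
    exacts [e.1 z.1, e.2 z.1, z.2 z.1, z.2 z.1]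

theorem comm_QQ {i j : I} (h : i ≠ j) {x y : X} (hx : x ∈ QQ F i j) (hy : y ∈ QQ F i j) :
    x * y = y * x * xe i j (∑ l ∈ (Finset.univ.erase i).erase j, (x.1 i l * y.1 l j + y.1 i l * x.1 l j)) := by
  rw [pat_QQ h] at hx hy
  refine Subtype.ext ?_
  rw [Matrix.SpecialLinearGroup.coe_mul, Matrix.SpecialLinearGroup.coe_mul, Matrix.SpecialLinearGroup.coe_mul,
    xe_val h, mul_add, mul_one, col_single fun a => hy.mul (sq_tr h) hx a i fun z =>
      z.elim (fun w => w.2 rfl) fun w => h w.1, mul_QQ h hx hy, mul_QQ h hy hx, Finset.sum_add_distrib,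
    add_assoc (_ - 1), ← single_add, add_left_comm, CharTwo.add_self_eq_zero, add_zero, add_comm x.1]

theorem it_xe (i j : I) (c : F) : it (xe i j c : X) = xe j i c := by
  by_cases h : i = j
  · subst h; simp [xe_self]
  refine Subtype.ext ?_
  rw [it_val, xe_inv, xe_val h, xe_val (Ne.symm h), transpose_add, transpose_one, transpose_single]

theorem it_it (x : X) : it (it x) = x := by
  refine Subtype.ext ?_
  rw [it_val, ← map_inv, it_val, inv_inv, transpose_transpose]

theorem fr_xe (φ : RingAut F) (i j : I) (c : F) : fr φ (xe i j c : X) = xe i j (φ c) := by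
  by_cases h : i = j
  · subst h; simp [xe_self]
  · exact U4S.fr_xe φ h c

theorem pm_xe (π : Equiv.Perm I) (i j : I) (c : F) : (pmL π : X) * xe i j c * (pmL π)⁻¹ = xe (π i) (π j) c := by
  by_cases h : i = j
  · subst h; simp [xe_self]
  · exact pmL_xe π h c

theorem tw_xe (i j : I) (c : F) : tw (xe i j c : X) = xe j.rev i.rev c := by
  change cn (pmL Fin.revPerm) (it (xe i j c : X)) = _
  rw [cn_apply, it_xe, pm_xe]; rfl

theorem tw_tw (x : X) : tw (tw x) = x := by
  change cn (pmL Fin.revPerm) (it (cn (pmL Fin.revPerm) (it x))) = _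
  have e : (pmL Fin.revPerm : X) * pmL Fin.revPerm = 1 := by
    rw [← map_mul, ← map_one (pmL (F := F) (n := n + 3))]
    congr 1
    ext a; simp
  rw [cn_apply, cn_apply, map_mul, map_mul, map_inv, it_pm, it_it, ← mul_assoc, ← mul_assoc, e, one_mul,
    mul_assoc, ← _root_.mul_inv_rev, e, inv_one, mul_one]

theorem pm_swap {j l : I} (h : j ≠ l) : (pmL (Equiv.swap j l) : X) = xe j l 1 * xe l j 1 * xe j l 1 := by
  refine Subtype.ext ?_
  have e : (1 + single j l (1 : F)) * (1 + single l j 1) * (1 + single j l 1) =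
      (1 + single j j 1 + single l l 1 + single l j 1 + single j l 1 : Mx) := by
    simp only [mul_add, add_mul, mul_one, one_mul, single_mul_single_same,
      single_mul_single_of_ne _ _ _ _ h.symm, add_zero]
    refine Eq.trans ?_ (add_zero _)
    rw [← CharTwo.add_self_eq_zero (single j l (1 : F) : Mx)]
    abel
  rw [Matrix.SpecialLinearGroup.coe_mul, Matrix.SpecialLinearGroup.coe_mul, xe_val h, xe_val h.symm, e]
  ext a b
  rw [pmL_apply]
  simp only [Matrix.add_apply, one_apply, single_apply]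
  by_cases b1 : j = b
  · subst b1
    by_cases a1 : j = a
    · subst a1; simp [h, h.symm, CharTwo.add_self_eq_zero]
    · simp [h.symm, a1, Ne.symm a1, eq_comm]
  by_cases b2 : l = b
  · subst b2
    by_cases a1 : l = a
    · subst a1; simp [h, h.symm, CharTwo.add_self_eq_zero]
    · simp [h, a1, Ne.symm a1, eq_comm]
  · simp [b1, b2, Equiv.swap_apply_of_ne_of_ne (Ne.symm b1) (Ne.symm b2)]

theorem ex_perm3 {i j l i' j' l' : I} (h1 : i ≠ j) (h2 : j ≠ l) (h3 : i ≠ l) (k1 : i' ≠ j') (k2 : j' ≠ l')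
    (k3 : i' ≠ l') : ∃ π : Equiv.Perm I, π i = i' ∧ π j = j' ∧ π l = l' := by
  have k : ∀ {a b c : I}, a ≠ b → b ≠ c → a ≠ c → Function.Injective ![a, b, c] := by
    intro a b c e1 e2 e3 x y e
    fin_cases x <;> fin_cases y <;> simp_all [eq_comm]
  obtain ⟨π, hπ⟩ := Equiv.Perm.exists_extending_pair _ _ (k h1 h2 h3) (k k1 k2 k3)
  exact ⟨π, hπ 0, hπ 1, hπ 2⟩

theorem ex_third (i j : I) : ∃ l : I, l ≠ i ∧ l ≠ j := by
  obtain ⟨l, -, hl⟩ := Finset.exists_mem_notMem_of_card_lt_card (s := {i, j}) (t := Finset.univ)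
    (lt_of_le_of_lt Finset.card_le_two (by simp))
  exact ⟨l, by simpa using hl⟩

theorem ex_fourth (hn : 1 ≤ n) (i j k : I) : ∃ l : I, l ≠ i ∧ l ≠ j ∧ l ≠ k := by
  obtain ⟨l, -, hl⟩ := Finset.exists_mem_notMem_of_card_lt_card (s := {i, j, k}) (t := Finset.univ)
    (lt_of_le_of_lt Finset.card_le_three (by simp; omega))
  exact ⟨l, by simpa using hl⟩

theorem ex_dg {i j : I} (h : i ≠ j) {μ : F} (hμ : μ ≠ 0) : ∃ (d : I → F) (_ : ∏ a, d a = 1), d i * (d j)⁻¹ = μ := by
  obtain ⟨l, h1, h2⟩ := ex_third i j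
  exact ⟨H63.St.SL.d2 i l μ, H63.St.SL.prod_d2 h1.symm hμ, by simp [H63.St.SL.d2, h.symm, h2.symm]⟩

theorem QQ_pm (π : Equiv.Perm I) (i j : I) : QQ F i j ^ᶜ (pmL π : X) = QQ F (π i) (π j) := by
  rw [QQ, QQ, MonoidHom.map_closure]
  congr 1
  ext y
  constructor
  · rintro ⟨_, ⟨l, c, rfl | rfl⟩, rfl⟩
    exacts [⟨π l, c, Or.inl (pm_xe _ _ _ _)⟩, ⟨π l, c, Or.inr (pm_xe _ _ _ _)⟩]
  · rintro ⟨l, c, h⟩
    obtain ⟨l, rfl⟩ := π.surjective l
    rcases h with rfl | rfl
    exacts [⟨_, ⟨l, c, Or.inl rfl⟩, pm_xe _ _ _ _⟩, ⟨_, ⟨l, c, Or.inr rfl⟩, pm_xe _ _ _ _⟩]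

theorem QQ_it (i j : I) : (QQ F i j).map it = QQ F j i := by
  rw [QQ, QQ, MonoidHom.map_closure]
  congr 1
  ext y
  constructor
  · rintro ⟨_, ⟨l, c, rfl | rfl⟩, rfl⟩
    exacts [⟨l, c, Or.inr (it_xe _ _ _)⟩, ⟨l, c, Or.inl (it_xe _ _ _)⟩]
  · rintro ⟨l, c, rfl | rfl⟩
    exacts [⟨_, ⟨l, c, Or.inr rfl⟩, it_xe _ _ _⟩, ⟨_, ⟨l, c, Or.inl rfl⟩, it_xe _ _ _⟩]

theorem sq_surj (a : F) : ∃ b : F, b * b = a := by
  obtain ⟨b, hb⟩ := (Finite.injective_iff_surjective.1 (frobenius F 2).injective) a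
  exact ⟨b, by rw [← hb, frobenius_def, sq]⟩

end LMS
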