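import Cfsg.Agent.Lib.LMS.B1
import Cfsg.Agent.Lib.GL.Unitri
import Cfsg.Agent.Lib.GL.Simple

set_option autoImplicit false
set_option linter.unusedSectionVars false

namespace LMS

open Subgroup H69 Cfsg Matrix U4S
open scoped MatrixGroups commutatorElement

universe u
variable {G : Type*} [Group G] [Finite G] {F : Type u} [Field F] [CharP F 2] [Fintype F] {n : ℕ} [Ok n F]
  {ι ψ χ : XX n F →* G} {t : G} {E : Subgroup G}

local notation "X" => XX n F
local notation "I" => Fin (n + 3)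
local notation "Mx" => Matrix (Fin (n + 3)) (Fin (n + 3)) F

namespace B2

theorem cen2 {x : X} (h : x ∈ center _) (p : P2 x) : x = 1 := by
  obtain ⟨r, -, hr⟩ := Matrix.SpecialLinearGroup.mem_center_iff.1 h
  obtain ⟨j, hj⟩ := p
  have h1 : scalar I (r ^ 2 ^ j) = scalar I 1 := by
    rw [map_pow, hr, map_one, ← Matrix.SpecialLinearGroup.coe_pow, hj, Matrix.SpecialLinearGroup.coe_one]
  have h2 : (r - 1) ^ 2 ^ j = 0 := by
    rw [sub_pow_char_pow, scalar_inj.1 h1, one_pow, sub_self]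
  refine Subtype.ext ?_
  rw [← hr, sub_eq_zero.1 (pow_eq_zero_iff (by positivity) |>.1 h2), map_one,
    Matrix.SpecialLinearGroup.coe_one]

theorem el_clo {Γ : Type*} [Group Γ] {s : Set Γ} (h1 : ∀ a ∈ s, a * a = 1)
    (h2 : ∀ a ∈ s, ∀ b ∈ s, a * b = b * a) : El (closure s) := fun x hx => by
  have hc := isMulCommutative_closure (k := s) fun a ha b hb => h2 a ha b hb
  induction hx using closure_induction with
  | mem x hx => exact h1 x hx
  | one => simp
  | mul x y hx hy hx' hy' =>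
    have e : x * y = y * x := congrArg Subtype.val (hc.is_comm.comm ⟨x, hx⟩ ⟨y, hy⟩)
    calc x * y * (x * y) = x * (y * x) * y := by group
      _ = x * x * (y * y) := by rw [← e]; group
      _ = 1 := by rw [hx', hy', mul_one]
  | inv x _ hx => rw [← _root_.mul_inv_rev, hx, inv_one]

theorem xe_JJ {d : ℕ} {i j : I} (h : i.1 < d) (k : d ≤ j.1) (c : F) : (xe i j c : X) ∈ JJ n F d :=
  subset_closure ⟨i, j, c, h, k, rfl⟩

theorem xe_UU {i j : I} (h : i < j) (c : F) : (xe i j c : X) ∈ UU n F :=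
  subset_closure ⟨i, j, c, h, rfl⟩

theorem map_JJ {d : ℕ} {f : X →* X} {B : Subgroup X}
    (h : ∀ (i j : I) (c : F), i.1 < d → d ≤ j.1 → f (xe i j c) ∈ B) : (JJ n F d).map f ≤ B := by
  rw [map_le_iff_le_comap]
  refine (closure_le _).2 ?_
  rintro _ ⟨i, j, c, h1, h2, rfl⟩
  exact h i j c h1 h2

theorem nJ {d : ℕ} {u : X}
    (h : ∀ (i j : I) (c : F), i.1 < d → d ≤ j.1 → u * xe i j c * u⁻¹ ∈ JJ n F d) : u ∈ 𝐍(JJ n F d) :=
  mem_normalizer_of_cj_le (map_JJ (f := (MulAut.conj u).toMonoidHom) h)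

theorem map_eq {f : X →* X} (hf : Function.Injective f) {A B : Subgroup X} (h : A.map f ≤ B)
    (c : Nat.card B ≤ Nat.card A) : A.map f = B :=
  eq_of_le_of_card_ge h (by rwa [card_map_of_injective hf])

theorem pm_nJ {d : ℕ} {π : Equiv.Perm I} (h : ∀ i : I, (π i).1 < d ↔ i.1 < d) :
    (pmL π : X) ∈ 𝐍(JJ n F d) := nJ fun i j c h1 h2 => by
  rw [pm_xe]
  exact xe_JJ ((h i).2 h1) (not_lt.1 fun e => not_lt.2 h2 ((h j).1 e)) c

theorem RR_le {d : ℕ} (σ : Equiv.Perm I) {a b : I} (h1 : (σ a).1 < d) (h2 : d ≤ (σ b).1) :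
    RR F a b ≤ JJ n F d ^ᶜ (pmL σ⁻¹ : X) := fun x hx => by
  obtain ⟨c, rfl⟩ := mem_RR.1 hx
  have := cj_mem (pmL σ⁻¹ : X) (xe_JJ h1 h2 c)
  rw [pm_xe] at this
  simpa using this

theorem kk1 : 1 ≤ kk n := by unfold kk; omega
theorem kk2 : kk n ≤ n + 1 := by unfold kk; omega

end B2

open B2

theorem cen_odd : Odd (Nat.card (center X)) := by
  refine Nat.not_even_iff_odd.1 fun h => ?_
  obtain ⟨x, hx⟩ := exists_prime_orderOf_dvd_card' (G := center X) 2 h.two_dvd
  have h1 : x = 1 := Subtype.ext (cen2 x.2 ⟨1, by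
    rw [pow_one, ← hx, ← Subgroup.coe_pow, pow_orderOf_eq_one, Subgroup.coe_one]⟩)
  rw [h1, orderOf_one] at hx
  omega

theorem cen_two {x : X} (h : x ∈ center _) (p : P2 x) : x = 1 := cen2 h p

theorem top_xe : closure {y : X | ∃ i j c, y = xe i j c} = ⊤ :=
  top_of_xe fun i j _ c => subset_closure ⟨i, j, c, rfl⟩

theorem ext_xe {Γ : Type*} [Group Γ] {f g : X →* Γ} (h : ∀ i j c, f (xe i j c) = g (xe i j c)) : f = g :=
  hom_ext_xe fun i j _ c => h i j c

theorem pf_X : commutator X = ⊤ :=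
  H10.commutator_SL_eq_top_of_three_le (by simp)

theorem normal_X (N : Subgroup X) [N.Normal] : N ≤ center _ ∨ N = ⊤ := by
  have hs : IsSimpleGroup (X ⧸ center X) := H10.isSimpleGroup_PSL_of_three_le (ι := I) (F := F) (by simp)
  have hn := Subgroup.Normal.map ‹N.Normal› (QuotientGroup.mk' (center X)) (QuotientGroup.mk'_surjective _)
  refine hn.eq_bot_or_eq_top.imp (fun e => ?_) fun e => ?_
  · rwa [Subgroup.map_eq_bot_iff, QuotientGroup.ker_mk'] at e
  · have h1 := congrArg (comap (QuotientGroup.mk' (center X))) e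
    rw [comap_map_eq, QuotientGroup.ker_mk', comap_top] at h1
    rw [eq_top_iff, ← pf_X, commutator_def]
    nth_rewrite 1 [← h1]
    refine commutator_sup_le_left le_normalizer_of_normal le_normalizer_of_normal (commutator_le_left _ _) ?_
    rw [commutator_eq_bot_of_le_centralizer H69.centralizer_top.ge]
    exact bot_le

theorem el_JJ (d : ℕ) : El (JJ n F d) := by
  refine el_clo ?_ ?_
  · rintro _ ⟨i, j, c, -, -, rfl⟩
    exact xe_sq i j c
  · rintro _ ⟨i, j, c, h1, h2, rfl⟩ _ ⟨k, l, e, h3, h4, rfl⟩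
    exact xe_c0 (fun e => by subst e; omega) (fun e => by subst e; omega) c e

theorem card_JJ {d : ℕ} (h : d ≤ n + 3) : Nat.card (JJ n F d) = Nat.card F ^ (d * (n + 3 - d)) := by
  have h1 : Nat.card (JJ n F d) = Nat.card ({p : I × I // p.1.1 < d ∧ ¬ p.2.1 < d} → F) := by
    refine Nat.card_eq_of_bijective (fun x p => x.1.1 p.1.1 p.1.2) ⟨fun x y e => ?_, fun f => ?_⟩
    · refine Subtype.ext (Subtype.ext (Matrix.ext fun i j => ?_))
      by_cases k : i.1 < d ∧ d ≤ j.1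
      · exact congrFun e ⟨(i, j), k.1, not_lt.2 k.2⟩
      · rw [mem_JJ.1 x.2 i j k, mem_JJ.1 y.2 i j k]
    · refine ⟨⟨⟨Matrix.of fun i j => if k : i.1 < d ∧ ¬ j.1 < d then f ⟨(i, j), k⟩ else (1 : Mx) i j, ?_⟩,
        mem_JJ.2 fun i j k => ?_⟩, funext fun p => ?_⟩
      · rw [det_of_isUpperTriangular]
        · exact Finset.prod_eq_one fun i _ => by rw [of_apply, dif_neg (by omega), one_apply_eq]
        · intro i j k
          have k' : j < i := k
          have k'' : j.1 < i.1 := k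
          rw [of_apply, dif_neg (by omega), one_apply_ne k'.ne']
      · exact dif_neg (by omega)
      · exact dif_pos p.2
  rw [h1, Nat.card_fun, Nat.card_congr (Equiv.subtypeProdEquivProd (p := fun i : I => i.1 < d)
    (q := fun i : I => ¬ i.1 < d)), Nat.card_prod, Nat.card_eq_fintype_card (α := {i : I // i.1 < d}),
    Nat.card_eq_fintype_card (α := {i : I // ¬ i.1 < d}), Fintype.card_subtype_compl,
    Fintype.card_fin_lt_of_le h, Fintype.card_fin]

theorem JJ_le (d : ℕ) : JJ n F d ≤ UU n F := by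
  refine closure_mono ?_
  rintro _ ⟨i, j, c, h1, h2, rfl⟩
  exact ⟨i, j, c, Nat.lt_of_lt_of_le h1 h2, rfl⟩

theorem UU_nJ (d : ℕ) : UU n F ≤ 𝐍(JJ n F d) := by
  refine (closure_le _).2 ?_
  rintro _ ⟨a, b, c, hab, rfl⟩
  have hab' : a.1 < b.1 := hab
  refine nJ fun i j e h1 h2 => ?_
  have hij : i ≠ j := fun e => by subst e; omega
  rw [xe_inv]
  by_cases k1 : b = i
  · subst k1
    have h3 := xe_c1 (F := F) hab.ne hij (fun e => by subst e; omega) c e
    rw [eq_mul_inv_of_mul_eq h3]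
    exact mul_mem (xe_JJ (by omega) h2 _) (inv_mem (xe_JJ h1 h2 _))
  by_cases k2 : a = j
  · subst k2
    have h3 := xe_c1 (F := F) hij hab.ne (Ne.symm k1) e c
    rw [mul_assoc, mul_assoc, ← mul_assoc (xe a b c)] at h3
    rw [eq_inv_mul_of_mul_eq h3]
    exact mul_mem (inv_mem (xe_JJ h1 h2 _)) (xe_JJ h1 (by omega) _)
  · rw [xe_c0 k2 k1, mul_assoc, xe_sq, mul_one]
    exact xe_JJ h1 h2 e

theorem RR_le_JJ {d : ℕ} (h : 0 < d) (k : d < n + 3) : RR F 0 iL ≤ JJ n F d := fun x hx => by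
  obtain ⟨c, rfl⟩ := mem_RR.1 hx
  exact xe_JJ h (Nat.lt_succ_iff.1 k) c

theorem sylU : IsSylowIn 2 (UU n F) ⊤ := by
  have h := isSylowIn_top (H10.unitriSylowSL I F 2)
  rw [H10.coe_unitriSylowSL] at h
  convert h
  ext x
  rw [mem_UU, H10.mem_unitriSL]
  refine ⟨fun k => ⟨fun i j e => by rw [k i j e.le, one_apply_ne e.ne'], fun i => by
    rw [k i i le_rfl, one_apply_eq]⟩, fun k i j e => ?_⟩
  rcases e.lt_or_eq with e | rfl
  · rw [k.1 i j e, one_apply_ne e.ne']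
  · rw [k.2, one_apply_eq]

theorem cen_U {x : X} (h : x ∈ UU n F) (c : ∀ u ∈ UU n F, u * x = x * u) : x ∈ RR F 0 iL := by
  have key : ∀ i j : I, i < j → single i j (1 : F) * x.1 = x.1 * single i j 1 := fun i j e => by
    have h1 := congrArg Subtype.val (c _ (xe_UU e 1))
    rwa [Matrix.SpecialLinearGroup.coe_mul, Matrix.SpecialLinearGroup.coe_mul, xe_val e.ne, add_mul, mul_add,
      one_mul, mul_one, add_right_inj] at h1
  have h0 : (0 : I) ≠ iL := Fin.last_pos.ne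
  refine mem_RR.2 ⟨x.1 0 iL, Subtype.ext (Matrix.ext fun a b => ?_)⟩
  rw [xe_val h0, Matrix.add_apply]
  by_cases k : 0 = a ∧ iL = b
  · obtain ⟨rfl, rfl⟩ := k
    rw [one_apply_ne h0, single_apply_same, zero_add]
  rw [single_apply_of_ne _ _ _ _ _ k, add_zero]
  by_cases e : b ≤ a
  · exact mem_UU.1 h a b e
  have e' : a ≠ b := (not_le.1 e).ne
  rw [one_apply_ne e']
  by_cases ka : a = 0
  · have kb : b < iL := lt_of_le_of_ne (Fin.le_last b) fun e => k ⟨ka.symm, e.symm⟩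
    have h1 := congrFun (congrFun (key b iL kb) a) iL
    rwa [single_mul_apply_of_ne _ _ _ _ _ e', mul_single_apply_same, mul_one, eq_comm] at h1
  · have h1 := congrFun (congrFun (key 0 a (Fin.pos_iff_ne_zero.2 ka)) 0) b
    rwa [single_mul_apply_same, one_mul, mul_single_apply_of_ne _ _ _ _ _ e'.symm] at h1

theorem RR_cen {x u : X} (h : x ∈ RR F 0 iL) (k : u ∈ UU n F) : u * x = x * u := by
  obtain ⟨c, rfl⟩ := mem_RR.1 h
  refine mem_centralizer_singleton_iff.1 ((closure_le (centralizer {(xe 0 iL c : X)})).2 ?_ k)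
  rintro _ ⟨i, j, e, hij, rfl⟩
  exact mem_centralizer_singleton_iff.2 (xe_c0 (hij.trans_le (Fin.le_last j)).ne
    ((Fin.zero_le i).trans_lt hij).ne' e c)

theorem isJ_kk : IsJ (JJ n F (kk n)) := ⟨_, .inl rfl, 1, (cj_one _).symm⟩

theorem isJ_kk' : IsJ (JJ n F (n + 3 - kk n)) := ⟨_, .inr rfl, 1, (cj_one _).symm⟩

theorem IsJ.el {J : Subgroup X} (h : IsJ J) : El J := by
  obtain ⟨d, -, x, rfl⟩ := h
  rintro _ ⟨b, hb, rfl⟩
  rw [← map_mul, el_JJ d b hb, map_one]

theorem IsJ.card {J : Subgroup X} (h : IsJ J) : Nat.card J = Nat.card F ^ MM n := by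
  have := @kk2 n
  obtain ⟨d, hd, x, rfl⟩ := h
  rw [card_cj, card_JJ (by omega), MM]
  rcases hd with rfl | rfl
  · rfl
  · rw [mul_comm, Nat.sub_sub_self (by omega)]

theorem IsJ.cj {J : Subgroup X} (h : IsJ J) (x : X) : IsJ (J ^ᶜ x) := by
  obtain ⟨d, hd, y, rfl⟩ := h
  exact ⟨d, hd, x * y, cj_cj _ _ _⟩

namespace B2

theorem isJ_map {J : Subgroup X} (h : IsJ J) {f : X →* X}
    (k : ∀ d, (d = kk n ∨ d = n + 3 - kk n) → IsJ ((JJ n F d).map f)) : IsJ (J.map f) := by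
  obtain ⟨d, hd, x, rfl⟩ := h
  rw [H69.map_cj]
  exact (k d hd).cj _

theorem isJ_fr {J : Subgroup X} (h : IsJ J) (φ : RingAut F) : IsJ (J.map (fr φ)) :=
  isJ_map h fun d hd => ⟨d, hd, 1, by
    rw [cj_one]
    refine map_eq (Function.LeftInverse.injective (g := fr φ⁻¹) fun x => by
      rw [fr_fr, inv_mul_cancel, fr_one]) (map_JJ fun i j c h1 h2 => ?_) le_rfl
    rw [fr_xe]
    exact xe_JJ h1 h2 _⟩

theorem isJ_it {J : Subgroup X} (h : IsJ J) : IsJ (J.map it) :=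
  isJ_map h fun d hd => by
    have := @kk2 n
    refine ⟨n + 3 - d, by omega, (pmL Fin.revPerm)⁻¹, map_eq (Function.LeftInverse.injective it_it)
      (map_JJ fun i j c h1 h2 => ?_) ?_⟩
    · rw [mem_cj, inv_inv]
      change tw (xe i j c : X) ∈ _
      rw [tw_xe]
      exact xe_JJ (by rw [Fin.val_rev]; omega) (by rw [Fin.val_rev]; omega) c
    · rw [card_cj, card_JJ (by omega), card_JJ (by omega), Nat.sub_sub_self (by omega), mul_comm]

theorem isJ_gc {J : Subgroup X} (h : IsJ J) (g : GX n F) : IsJ (J.map (gc g).toMonoidHom) :=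
  isJ_map h fun d hd => by
    let a := Matrix.GeneralLinearGroup.det g
    let D : GX n F := H10.diagAt 0 a
    have h1 : (g * D⁻¹).1.det = 1 := by
      have : Matrix.GeneralLinearGroup.det (g * D⁻¹) = 1 := by
        rw [map_mul, map_inv, H10.det_diagAt, mul_inv_cancel]
      exact congrArg Units.val this
    let x : X := ⟨_, h1⟩
    have h2 : g = Matrix.SpecialLinearGroup.toGL x * D := by
      rw [show Matrix.SpecialLinearGroup.toGL x = g * D⁻¹ from Units.ext rfl, inv_mul_cancel_right]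
    refine ⟨d, hd, x, map_eq (gc g).injective ?_ (card_cj _ _).le⟩
    rintro _ ⟨y, hy, rfl⟩
    change gc g y ∈ _
    rw [h2, gc_mul, gc_sl]
    refine cj_mem x (mem_JJ.2 fun i j k => ?_)
    rw [gc_val]
    change ((diagonal (fun k : I => if k = 0 then (a : F) else 1) * y.1 *
      diagonal (fun k : I => if k = 0 then ((a⁻¹ : Fˣ) : F) else 1) : Mx)) i j = _
    rw [mul_diagonal, diagonal_mul, mem_JJ.1 hy i j k, one_apply]
    split_ifs <;> simp_all

end B2

theorem IsJ.au {J : Subgroup X} (h : IsJ J) (g : GX n F) (φ : RingAut F) (ε : Bool) : IsJ (J.map (au g φ ε)) := by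
  rw [LMS.au, ← Subgroup.map_map, ← Subgroup.map_map]
  refine isJ_gc (isJ_fr ?_ φ) g
  cases ε
  · simpa using h
  · simpa using isJ_it h

theorem IsJ.nofix {J : Subgroup X} (h : IsJ J) {x : X} (hx : x ∈ J) (c : ∀ y ∈ 𝐍(J), y * x = x * y) : x = 1 := by
  obtain ⟨d, -, g, rfl⟩ := h
  obtain ⟨x, hx', rfl⟩ := hx
  have key : ∀ y ∈ 𝐍(JJ n F d), y * x = x * y := fun y hy => by
    have h1 := c _ (cj_normalizer _ g ▸ cj_mem g hy)
    refine (MulAut.conj g).injective ?_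
    rw [map_mul, map_mul]
    exact h1
  obtain ⟨e, rfl⟩ := mem_RR.1 (cen_U (JJ_le d hx') fun u hu => key u (UU_nJ d hu))
  have h0 : (0 : I) ≠ iL := Fin.last_pos.ne
  obtain ⟨π, h1, h2⟩ : ∃ π : Equiv.Perm I, (∀ i : I, (π i).1 < d ↔ i.1 < d) ∧ (π 0 ≠ 0 ∨ π iL ≠ iL) := by
    by_cases k : 2 ≤ d
    · refine ⟨Equiv.swap 0 1, fun i => ?_, .inl (by simp)⟩
      rw [Equiv.swap_apply_def]
      split_ifs with a b
      · subst a; simp; omega
      · subst b; simp; omega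
      · rfl
    · refine ⟨Equiv.swap iL ⟨n + 1, by omega⟩, fun i => ?_, .inr (by simp [Fin.ext_iff])⟩
      rw [Equiv.swap_apply_def]
      split_ifs with a b
      · subst a; simp; omega
      · subst b; simp; omega
      · rfl
  have h3 := pm_xe π 0 iL e
  rw [key _ (pm_nJ h1), mul_inv_cancel_right] at h3
  have h4 := (xe2_cen (F := F) (π.injective.ne h0) h0 h2 (a := e) (b := e) (by
    rw [← h3, xe_sq]; exact one_mem _)).1
  rw [h4, xe_zero, map_one]

theorem root_J {a b : I} (h1 : a ≠ iL) (h2 : b ≠ 0) (h : a ≠ b) :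
    ∃ J : Subgroup X, IsJ J ∧ RR F a b ≤ J ∧ RR F 0 iL ≤ J := by
  have k1 := @kk1 n
  have k2 := @kk2 n
  have h0 : (0 : I) ≠ iL := Fin.last_pos.ne
  suffices k : ∃ d, (d = kk n ∨ d = n + 3 - kk n) ∧ ∃ σ : Equiv.Perm I, σ 0 = 0 ∧ σ iL = iL ∧
      (σ a).1 < d ∧ d ≤ (σ b).1 by
    obtain ⟨d, hd, σ, s0, sL, sa, sb⟩ := k
    exact ⟨_, ⟨d, hd, _, rfl⟩, RR_le σ sa sb, RR_le σ (by rw [s0, Fin.val_zero]; omega)
      (by rw [sL, Fin.val_last]; omega)⟩
  have e1 : (⟨n + 1, by omega⟩ : I) ≠ 0 := by simp [Fin.ext_iff]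
  have e2 : (⟨n + 1, by omega⟩ : I) ≠ iL := by simp [Fin.ext_iff]
  have e3 : (1 : I) ≠ 0 := by simp
  have e4 : (1 : I) ≠ iL := by simp [Fin.ext_iff]
  by_cases ha : a = 0
  · subst ha
    by_cases hb : b = iL
    · subst hb
      exact ⟨_, .inl rfl, 1, rfl, rfl, k1, by simp; omega⟩
    · obtain ⟨σ, s0, sb, sL⟩ := ex_perm3 h hb h0 e1.symm e2 h0
      exact ⟨_, .inl rfl, σ, s0, sL, by rw [s0]; exact k1, by rw [sb]; exact k2⟩
  by_cases hb : b = iL
  · subst hb
    obtain ⟨σ, s0, sa, sL⟩ := ex_perm3 (Ne.symm ha) h h0 e3.symm e4 h0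
    exact ⟨_, .inr rfl, σ, s0, sL, by rw [sa, Fin.val_one]; omega, by rw [sL, Fin.val_last]; omega⟩
  have hn : 1 ≤ n := by
    have := a.2; have := b.2
    simp only [Ne, Fin.ext_iff, Fin.val_zero, Fin.val_last] at ha hb h h1 h2
    omega
  have e5 : (1 : I) ≠ ⟨n + 1, by omega⟩ := by simp [Fin.ext_iff]; omega
  obtain ⟨σ, hσ⟩ := Equiv.Perm.exists_extending_pair (f := ![0, a, b, iL])
    (g := ![0, 1, ⟨n + 1, by omega⟩, iL])
    (fun i j e => by fin_cases i <;> fin_cases j <;> simp_all [eq_comm])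
    (fun i j e => by fin_cases i <;> fin_cases j <;> simp_all [eq_comm])
  refine ⟨_, .inl rfl, σ, hσ 0, hσ 3, ?_, ?_⟩
  · rw [show σ a = 1 from hσ 1, Fin.val_one]
    unfold kk; omega
  · rw [show σ b = ⟨n + 1, by omega⟩ from hσ 2]
    exact k2

theorem four_le_MM : 4 ≤ Nat.card F ^ MM n := by
  have k1 := @kk1 n
  have k2 := @kk2 n
  have h1 : 1 * 2 ≤ MM n := Nat.mul_le_mul k1 (by omega)
  calc 4 = 2 ^ 2 := rfl
    _ ≤ Nat.card F ^ 2 := Nat.pow_le_pow_left Finite.one_lt_card 2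
    _ ≤ _ := Nat.pow_le_pow_right Nat.card_pos h1

theorem kk_le_MM : 2 * kk n ≤ MM n := by
  have k2 := @kk2 n
  rw [mul_comm]
  exact Nat.mul_le_mul_left _ (by omega)

end LMS
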