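import Cfsg.Agent.Lib.LMS.B2
import Cfsg.Agent.Lib.Cls63.Embed

set_option autoImplicit false
set_option linter.unusedSectionVars false

namespace LMS

open Subgroup H69 Cfsg Matrix U4S
open scoped MatrixGroups commutatorElement

universe u
variable {G : Type*} [Group G] [Finite G] {F : Type u} [Field F] [CharP F 2] [Fintype F] {n : ℕ} [Ok n F]
  {ι ψ χ : XX n F →* G} {t : G} {E : Subgroup G}

local notation "X" => XX n F
local notation "I" => Fin (n + 3)
local notation "Mx" => Matrix (Fin (n + 3)) (Fin (n + 3)) F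

namespace B3

theorem blk {p : I → Prop} [DecidablePred p] {H : Subgroup X} (hH : ∀ a b, p a → p b → ∀ c, xe a b c ∈ H)
    {g : X} (hg : ∀ a b, ¬ p a ∨ ¬ p b → g.1 a b = (1 : Mx) a b) : g ∈ H := by
  let e := Equiv.sumCompl p
  have h1 : H.comap (H63.Emb.slBlock e) = ⊤ := H10.SL_eq_top_of_transvection_mem _ fun a b h c => by
    have k : a.1 ≠ b.1 := fun k => h (Subtype.ext k)
    have : H63.Emb.slBlock e (Matrix.SpecialLinearGroup.transvection h c) = xe a.1 b.1 c := by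
      refine Subtype.ext ?_
      rw [H63.Emb.coe_slBlock, LMS.xe_val k, Matrix.SpecialLinearGroup.transvection_coe]
      ext a' b'
      obtain ⟨a' | a', rfl⟩ := e.surjective a' <;> obtain ⟨b' | b', rfl⟩ := e.surjective b'
      · simp [e, H63.Emb.blockHom_apply, one_apply, single_apply, Subtype.ext_iff]
      · have k1 : a'.1 ≠ b'.1 := fun k => b'.2 (k ▸ a'.2)
        have k2 : b.1 ≠ b'.1 := fun k => b'.2 (k ▸ b.2)
        simp only [H63.Emb.blockHom_apply, reindex_apply, submatrix_apply, Equiv.symm_apply_apply,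
          fromBlocks_apply₁₂]
        simp [e, k1, k2]
      · have k1 : a'.1 ≠ b'.1 := fun k => a'.2 (k ▸ b'.2)
        have k2 : a.1 ≠ a'.1 := fun k => a'.2 (k ▸ a.2)
        simp only [H63.Emb.blockHom_apply, reindex_apply, submatrix_apply, Equiv.symm_apply_apply,
          fromBlocks_apply₂₁]
        simp [e, k1, k2]
      · have k2 : a.1 ≠ a'.1 := fun k => a'.2 (k ▸ a.2)
        simp only [H63.Emb.blockHom_apply, reindex_apply, submatrix_apply, Equiv.symm_apply_apply,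
          fromBlocks_apply₂₂]
        simp [e, k2, one_apply, Subtype.ext_iff]
    rw [mem_comap, this]
    exact hH _ _ a.2 b.2 c
  have h3 : H63.Emb.blockHom e (g.1.submatrix (fun i => e (.inl i)) fun i => e (.inl i)) = g.1 := by
    ext a b
    obtain ⟨a | a, rfl⟩ := e.surjective a <;> obtain ⟨b | b, rfl⟩ := e.surjective b
    · simp [H63.Emb.blockHom_apply]
    · rw [hg (e (.inl a)) (e (.inr b)) (Or.inr b.2)]; simp [H63.Emb.blockHom_apply, one_apply]
    · rw [hg (e (.inr a)) (e (.inl b)) (Or.inl a.2)]; simp [H63.Emb.blockHom_apply, one_apply]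
    · rw [hg (e (.inr a)) (e (.inr b)) (Or.inr b.2)]; simp [H63.Emb.blockHom_apply, one_apply]
  have h4 : H63.Emb.slBlock e ⟨_, (H63.Emb.det_blockHom e _).symm.trans (h3.symm ▸ g.2)⟩ = g := Subtype.ext h3
  exact h4 ▸ mem_comap.1 (h1.ge (mem_top _))

theorem row_congr {A B C : Mx} {a : I} (h : ∀ k, A a k = B a k) (b : I) : (A * C) a b = (B * C) a b := by
  simp only [mul_apply, h]

theorem col_congr {A B C : Mx} {b : I} (h : ∀ k, A k b = B k b) (a : I) : (C * A) a b = (C * B) a b := by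
  simp only [mul_apply, h]

theorem mul_AA {M : Mx} {i a : I} {y : X} (hy : y ∈ AA F i) (h : M a i = 0) (b : I) : (M * y.1) a b = M a b := by
  conv_rhs => rw [← Matrix.mul_one M]
  simp only [mul_apply]
  refine Finset.sum_congr rfl fun k _ => ?_
  by_cases e : k = i
  · rw [e, h, zero_mul, zero_mul]
  · rw [mem_AA.1 hy k b e]

theorem BB_mul {M : Mx} {j b : I} {y : X} (hy : y ∈ BB F j) (h : M j b = 0) (a : I) : (y.1 * M) a b = M a b := by
  conv_rhs => rw [← Matrix.one_mul M]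
  simp only [mul_apply]
  refine Finset.sum_congr rfl fun k _ => ?_
  by_cases e : k = j
  · rw [e, h, mul_zero, mul_zero]
  · rw [mem_BB.1 hy a k e]

theorem val_mul_inv (x : X) : x.1 * (x⁻¹).1 = 1 := by
  rw [← Matrix.SpecialLinearGroup.coe_mul, mul_inv_cancel, Matrix.SpecialLinearGroup.coe_one]

theorem val_inv_mul (x : X) : (x⁻¹).1 * x.1 = 1 := by
  rw [← Matrix.SpecialLinearGroup.coe_mul, inv_mul_cancel, Matrix.SpecialLinearGroup.coe_one]

/-- fixing a vector and a covector -/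
def SP (i j : I) : Subgroup X where
  carrier := {x | (∀ a : I, x.1 a i = (1 : Mx) a i) ∧ ∀ b : I, x.1 j b = (1 : Mx) j b}
  one_mem' := ⟨fun _ => rfl, fun _ => rfl⟩
  mul_mem' := fun {x y} hx hy => ⟨fun a => by
    rw [Matrix.SpecialLinearGroup.coe_mul, col_congr hy.1, Matrix.mul_one, hx.1], fun b => by
    rw [Matrix.SpecialLinearGroup.coe_mul, row_congr hx.2, Matrix.one_mul, hy.2]⟩
  inv_mem' := fun {x} hx => ⟨fun a => by
    have := col_congr (C := (x⁻¹).1) hx.1 a
    rw [val_inv_mul, Matrix.mul_one] at this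
    exact this.symm, fun b => by
    have := row_congr (C := (x⁻¹).1) hx.2 b
    rw [val_mul_inv, Matrix.one_mul] at this
    exact this.symm⟩

theorem xe_PP {i j a b : I} (h1 : a ≠ j) (h2 : b ≠ i) (c : F) : (xe a b c : X) ∈ PP F i j :=
  subset_closure ⟨a, b, c, h1, h2, rfl⟩

theorem AA_le {i j : I} (h : i ≠ j) : AA F i ≤ PP F i j := (closure_le _).2 (by
  rintro _ ⟨l, c, rfl⟩
  by_cases e : l = i
  · rw [e, xe_self]; exact one_mem (PP F i j)
  · exact xe_PP h e c)

theorem BB_le {i j : I} (h : i ≠ j) : BB F j ≤ PP F i j := (closure_le _).2 (by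
  rintro _ ⟨l, c, rfl⟩
  by_cases e : l = j
  · rw [e, xe_self]; exact one_mem (PP F i j)
  · exact xe_PP e h.symm c)

theorem cz {i j : I} (h : i ≠ j) {x : X} {c : F} (hc : c ≠ 0) (k : x * xe i j c = xe i j c * x) :
    (∀ a, a ≠ i → x.1 a i = 0) ∧ (∀ b, b ≠ j → x.1 j b = 0) ∧ x.1 i i = x.1 j j := by
  have k1 := congrArg Subtype.val k
  rw [Matrix.SpecialLinearGroup.coe_mul, Matrix.SpecialLinearGroup.coe_mul, LMS.xe_val h, mul_add, add_mul,
    Matrix.mul_one, Matrix.one_mul, add_right_inj] at k1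
  refine ⟨fun a ha => ?_, fun b hb => ?_, ?_⟩
  · simpa [ha, hc] using congrFun (congrFun k1 a) j
  · simpa [hb, hc] using (congrFun (congrFun k1 i) b).symm
  · simpa [hc, mul_comm c] using congrFun (congrFun k1 i) j

theorem nQ {i j : I} (h : i ≠ j) {x : X} (h1 : ∀ a, a ≠ i → x.1 a i = 0) (h2 : ∀ b, b ≠ j → (x⁻¹).1 j b = 0) :
    x ∈ 𝐍(QQ F i j) := by
  refine mem_normalizer_of_cj_le fun y hy => ?_
  obtain ⟨q, hq, rfl⟩ := mem_cj'.1 hy
  obtain ⟨a, ha, b, hb, rfl⟩ := (mem_QQ h).1 hq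
  refine (mem_QQ h).2 ⟨x * a * x⁻¹, mem_AA.2 fun r s hr => ?_, x * b * x⁻¹, mem_BB.2 fun r s hs => ?_, by group⟩
  · rw [Matrix.SpecialLinearGroup.coe_mul, Matrix.SpecialLinearGroup.coe_mul, row_congr (mul_AA ha (h1 r hr)),
      val_mul_inv]
  · rw [mul_assoc, Matrix.SpecialLinearGroup.coe_mul, Matrix.SpecialLinearGroup.coe_mul,
      col_congr (BB_mul hb (h2 s hs)), val_mul_inv]

theorem pm_apply (π : Equiv.Perm I) (i j : I) : (pmL π : X).1 i j = if i = π j then 1 else 0 := by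
  simp [pmL_val, PEquiv.toMatrix_apply, Equiv.symm_apply_eq]

theorem pm_conj (π : Equiv.Perm I) (x : X) (a b : I) :
    (pmL π * x * (pmL π)⁻¹ : X).1 (π a) (π b) = x.1 a b := by
  have e : (pmL π * x * (pmL π)⁻¹ : X).1 * (pmL π : X).1 = (pmL π : X).1 * x.1 := by
    rw [← Matrix.SpecialLinearGroup.coe_mul, inv_mul_cancel_right, Matrix.SpecialLinearGroup.coe_mul]
  have := congrFun (congrFun e (π a)) b
  generalize (pmL π * x * (pmL π)⁻¹ : X).1 = M at this ⊢
  simpa [mul_apply, pm_apply] using this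

theorem ex_fifth (hn : 2 ≤ n) (i j k m : I) : ∃ l : I, l ≠ i ∧ l ≠ j ∧ l ≠ k ∧ l ≠ m := by
  by_contra hc
  push Not at hc
  have h : (Finset.univ : Finset I) ⊆ {i, j, k, m} := fun l _ => by
    have := hc l
    simp only [Finset.mem_insert, Finset.mem_singleton]
    tauto
  have := (Finset.card_le_card h).trans Finset.card_le_four
  rw [Finset.card_univ, Fintype.card_fin] at this
  omega

theorem ex_mu (h : 4 ≤ Nat.card F) : ∃ μ : F, μ ≠ 0 ∧ μ * μ - 1 ≠ 0 := by
  classical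
  by_contra hc
  push Not at hc
  have k : (Finset.univ : Finset F) ⊆ {0, 1} := fun l _ => by
    simp only [Finset.mem_insert, Finset.mem_singleton]
    refine or_iff_not_imp_left.2 fun h0 => ?_
    rcases mul_self_eq_one_iff.1 (sub_eq_zero.1 (hc l h0)) with e | e
    · exact e
    · rw [e, CharTwo.neg_eq]
  have := (Finset.card_le_card k).trans Finset.card_le_two
  rw [Finset.card_univ, ← Nat.card_eq_fintype_card] at this
  omega

end B3

open B3

theorem mem_PP {i j : I} (h : i ≠ j) {x : X} : x ∈ PP F i j ↔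
    (∀ a : I, x.1 a i = (1 : Mx) a i) ∧ ∀ b : I, x.1 j b = (1 : Mx) j b := by
  constructor
  · intro hx
    refine ((closure_le (SP i j)).2 ?_ hx :)
    rintro _ ⟨a, b, c, h1, h2, rfl⟩
    by_cases e : a = b
    · rw [e, xe_self]; exact one_mem (SP i j)
    · exact ⟨fun r => by simp [LMS.xe_val e, h2], fun r => by simp [LMS.xe_val e, h1]⟩
  · rintro ⟨hc, hr⟩
    let y : X := ⟨updateRow 1 i (x.1 i), by
      rw [← cramer_transpose_apply, transpose_one, cramer_one, Module.End.one_apply, hc, one_apply_eq]⟩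
    have hy : y ∈ AA F i := mem_AA.2 fun a b ha => by simp [y, updateRow_ne ha]
    have y1 : ∀ a, a ≠ i → ∀ b, (x * y⁻¹).1 a b = x.1 a b := fun a ha b =>
      mul_AA (inv_mem hy) (by rw [hc, one_apply_ne ha]) b
    have y2 : ∀ b, (x * y⁻¹).1 i b = (1 : Mx) i b := fun b => by
      rw [Matrix.SpecialLinearGroup.coe_mul, row_congr (B := y.1) (fun k => by simp [y]), val_mul_inv]
    have hx : x = x * y⁻¹ * y := by group
    generalize x * y⁻¹ = w at y1 y2 hx
    let z : X := ⟨updateCol 1 j fun a => w.1 a j, by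
      rw [← cramer_apply, cramer_one, Module.End.one_apply, y1 j h.symm, hr, one_apply_eq]⟩
    have hz : z ∈ BB F j := mem_BB.2 fun a b hb => by simp [z, updateCol_ne hb]
    have z1 : ∀ b, b ≠ j → ∀ a, (z⁻¹ * w).1 a b = w.1 a b := fun b hb a =>
      BB_mul (inv_mem hz) (by rw [y1 j h.symm, hr, one_apply_ne hb.symm]) a
    have z2 : ∀ a, (z⁻¹ * w).1 a j = (1 : Mx) a j := fun a => by
      rw [Matrix.SpecialLinearGroup.coe_mul, col_congr (B := z.1) (fun k => by simp [z]), val_inv_mul]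
    have hm : z⁻¹ * w ∈ PP F i j := by
      refine blk (p := fun a => a ≠ i ∧ a ≠ j) (fun a b ha hb c => xe_PP ha.2 hb.1 c) fun a b k => ?_
      by_cases e1 : b = j
      · rw [e1, z2]
      rw [z1 b e1]
      by_cases e2 : a = i
      · rw [e2, y2]
      rw [y1 a e2]
      by_cases e3 : a = j
      · rw [e3, hr]
      · have e4 : b = i := by tauto
        rw [e4, hc]
    have := mul_mem (mul_mem (BB_le h hz) hm) (AA_le h hy)
    rwa [mul_inv_cancel_left, ← hx] at this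

theorem PP_pf (hn : 1 ≤ n) {i j : I} (h : i ≠ j) : ⁅PP F i j, PP F i j⁆ = PP F i j := by
  refine le_antisymm (commutator_le.2 fun a ha b hb =>
    mul_mem (mul_mem (mul_mem ha hb) (inv_mem ha)) (inv_mem hb)) ((closure_le _).2 ?_)
  rintro _ ⟨a, b, c, h1, h2, rfl⟩
  by_cases e : a = b
  · rw [e, xe_self]; exact one_mem ⁅PP F i j, PP F i j⁆
  have key : ∀ l : I, l ≠ i → l ≠ j → l ≠ a → l ≠ b → (xe a b c : X) ∈ ⁅PP F i j, PP F i j⁆ :=
    fun l k1 k2 k3 k4 => by
    have := commutator_mem_commutator (xe_PP (i := i) h1 k1 c) (xe_PP (j := j) k2 h2 (1 : F))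
    rwa [commutatorElement_def, LMS.xe_inv, LMS.xe_inv, xe_c1 k3.symm k4 e, mul_one] at this
  by_cases e1 : a = i
  · obtain ⟨l, k1, k2, k3⟩ := ex_fourth hn i j b
    exact key l k1 k2 (e1 ▸ k1) k3
  by_cases e2 : b = j
  · obtain ⟨l, k1, k2, k3⟩ := ex_fourth hn i j a
    exact key l k1 k2 k3 (e2 ▸ k2)
  by_cases e3 : 2 ≤ n
  · obtain ⟨l, k1, k2, k3, k4⟩ := ex_fifth e3 i j a b
    exact key l k1 k2 k3 k4
  obtain ⟨μ, m0, m1⟩ := ex_mu (F := F) (Ok.h (n := n) (by omega))
  have hd : H63.St.SL.dg _ (H63.St.SL.prod_d2 e m0) ∈ PP F i j := (mem_PP h).2 ⟨fun r => by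
    by_cases k : r = i
    · rw [k, one_apply_eq]; simp [H63.St.SL.dg, H63.St.SL.d2, Ne.symm e1, Ne.symm h2]
    · simp [H63.St.SL.dg, k], fun r => by
    by_cases k : j = r
    · rw [← k, one_apply_eq]; simp [H63.St.SL.dg, H63.St.SL.d2, Ne.symm e2, Ne.symm h1]
    · simp [H63.St.SL.dg, k]⟩
  have := commutator_mem_commutator hd (xe_PP (i := i) (j := j) h1 h2 ((μ * μ - 1)⁻¹ * c))
  rw [H63.St.SL.dg_comm _ e] at this
  simpa [H63.St.SL.d2, Ne.symm e, m1] using this

theorem QQ_le {i j : I} (h : i ≠ j) : QQ F i j ≤ PP F i j := fun x hx => by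
  obtain ⟨a, ha, b, hb, rfl⟩ := (mem_QQ h).1 hx
  exact mul_mem (AA_le h ha) (BB_le h hb)

theorem PP_zero (hn : n = 0) {i j : I} (h : i ≠ j) : PP F i j = QQ F i j := by
  refine le_antisymm ((closure_le _).2 ?_) (QQ_le h)
  rintro _ ⟨a, b, c, h1, h2, rfl⟩
  by_cases e1 : a = i
  · exact subset_closure ⟨b, c, Or.inl (by rw [e1])⟩
  by_cases e2 : b = j
  · exact subset_closure ⟨a, c, Or.inr (by rw [e2])⟩
  have e : a = b := by
    have := a.2; have := b.2; have := i.2; have := j.2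
    have := Fin.val_ne_of_ne h; have := Fin.val_ne_of_ne h1; have := Fin.val_ne_of_ne h2
    have := Fin.val_ne_of_ne e1; have := Fin.val_ne_of_ne e2
    exact Fin.ext (by omega)
  rw [e, xe_self]
  exact one_mem (QQ F i j)

theorem inv_PP {i j : I} (h : i ≠ j) {x : X} (x2 : x * x = 1) (c : x * xe i j 1 = xe i j 1 * x) : x ∈ PP F i j := by
  obtain ⟨h1, h2, h3⟩ := cz h one_ne_zero c
  have k : x.1 i i = 1 := by
    have := congrFun (congrFun (congrArg Subtype.val x2) i) i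
    rw [Matrix.SpecialLinearGroup.coe_mul, mul_apply, Finset.sum_eq_single i
      (fun b _ hb => by rw [h1 b hb, mul_zero]) (by simp), Matrix.SpecialLinearGroup.coe_one,
      one_apply_eq] at this
    rcases mul_self_eq_one_iff.1 this with e | e
    · exact e
    · rw [e, CharTwo.neg_eq]
  refine (mem_PP h).2 ⟨fun a => ?_, fun b => ?_⟩
  · by_cases e : a = i
    · rw [e, k, one_apply_eq]
    · rw [h1 a e, one_apply_ne e]
  · by_cases e : b = j
    · rw [e, ← h3, k, one_apply_eq]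
    · rw [h2 b e, one_apply_ne (Ne.symm e)]

theorem PP_nQ {i j : I} (h : i ≠ j) : PP F i j ≤ 𝐍(QQ F i j) := fun x hx =>
  nQ h (fun a ha => by rw [((mem_PP h).1 hx).1, one_apply_ne ha])
    fun b hb => by rw [((mem_PP h).1 (inv_mem hx)).2, one_apply_ne hb.symm]

theorem PP_cen {i j : I} (h : i ≠ j) {x : X} (hx : x ∈ PP F i j) (c : F) : x * xe i j c = xe i j c * x := by
  refine mem_centralizer_singleton_iff.1 ((closure_le (centralizer {xe i j c})).2 ?_ hx)
  rintro _ ⟨a, b, d, h1, h2, rfl⟩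
  exact mem_centralizer_singleton_iff.2 (xe_c0 h1 h2 d c)

theorem UU_le : UU n F ≤ PP F 0 iL := (closure_le _).2 (by
  rintro _ ⟨a, b, c, h, rfl⟩
  exact xe_PP (h.trans_le (Fin.le_last b)).ne ((Fin.zero_le a).trans_lt h).ne' c)

theorem QQ_le_UU : QQ F 0 iL ≤ UU n F := (closure_le _).2 (by
  rintro _ ⟨l, c, rfl | rfl⟩
  · by_cases e : l = 0
    · rw [e, xe_self]; exact one_mem (UU n F)
    · exact subset_closure ⟨0, l, c, Fin.pos_iff_ne_zero.2 e, rfl⟩
  · by_cases e : l = iL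
    · rw [e, xe_self]; exact one_mem (UU n F)
    · exact subset_closure ⟨l, iL, c, Fin.lt_last_iff_ne_last.2 e, rfl⟩)

theorem isP_QQ {i j : I} (h : i ≠ j) : IsPGroup 2 (QQ F i j) := by
  obtain ⟨l, l1, l2⟩ := ex_third (0 : I) iL
  obtain ⟨l', k1, k2⟩ := ex_third i j
  obtain ⟨π, p1, p2, -⟩ := ex_perm3 (Fin.last_pos.ne : (0 : I) ≠ iL) l2.symm l1.symm h k2.symm k1.symm
  rw [← p1, ← p2, ← QQ_pm]
  exact isPGroup_cj (sylU.isP.to_le QQ_le_UU) _

theorem pm_PP {i j : I} (h : i ≠ j) {π : Equiv.Perm I} (h1 : π i = i) (h2 : π j = j) : (pmL π : X) ∈ PP F i j := by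
  refine (mem_PP h).2 ⟨fun a => by rw [pm_apply, h1, one_apply], fun b => ?_⟩
  rw [pm_apply, one_apply]
  exact if_congr (by rw [← π.injective.eq_iff (a := j) (b := b), h2]) rfl rfl

theorem core_PP {N : Subgroup X} (hN : IsPGroup 2 N) (h : N ≤ PP F 0 iL) (k : PP F 0 iL ≤ 𝐍(N)) : N ≤ QQ F 0 iL := by
  have h0 : (0 : I) ≠ iL := Fin.last_pos.ne
  have hU : N ≤ UU n F := (sylU.mono UU_le le_top).le_of_le_normalizer hN h (UU_le.trans k)
  intro x hx
  refine (mem_QQ' h0).2 fun a b hab => ?_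
  rcases le_or_gt b a with e | e
  · exact mem_UU.1 (hU hx) a b e
  obtain ⟨a0, bL⟩ := hab.resolve_right e.ne
  have b0 : b ≠ 0 := ((Fin.zero_le a).trans_lt e).ne'
  have aL : a ≠ iL := (e.trans_le (Fin.le_last b)).ne
  have hw := k (pm_PP h0 (π := Equiv.swap a b) (Equiv.swap_apply_of_ne_of_ne a0.symm b0.symm)
    (Equiv.swap_apply_of_ne_of_ne aL.symm bL.symm))
  have := mem_UU.1 (hU (conj_mem_of_mem_normalizer hw hx)) b a e.le
  rw [← pm_conj (Equiv.swap a b), Equiv.swap_apply_left, Equiv.swap_apply_right, this, one_apply_ne e.ne',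
    one_apply_ne e.ne]

theorem cz_nQ {x : X} {c : F} (hc : c ≠ 0) (h : x * xe 0 iL c = xe 0 iL c * x) : x ∈ 𝐍(QQ F (0 : I) iL) := by
  have h0 : (0 : I) ≠ iL := Fin.last_pos.ne
  exact nQ h0 (cz h0 hc h).1 (cz h0 hc (Commute.inv_left h).eq).2.1

theorem PP_cc {i j : I} (h : i ≠ j) {x : X} (hx : x ∈ PP F i j) (c : x ∈ center _) : x = 1 := by
  obtain ⟨r, -, e⟩ := Matrix.SpecialLinearGroup.mem_center_iff.1 c
  have k := ((mem_PP h).1 hx).1 i
  rw [← e] at k
  have r1 : r = 1 := by simpa using k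
  exact Subtype.ext (by rw [← e, r1, map_one]; rfl)

theorem eqns_B3 : True := by
  have := @B3.SP.eq_1.{0}
  trivial

end LMS
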