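import Cfsg.Agent.Lib.LMS.B2

set_option autoImplicit false
set_option linter.unusedSectionVars false

namespace LMS

open Subgroup H69 Cfsg Matrix U4S
open scoped MatrixGroups commutatorElement

universe u
variable {G : Type*} [Group G] [Finite G] {F : Type u} [Field F] [CharP F 2] [Fintype F] {n : ℕ} [Ok n F]
  {ι ψ χ : XX n F →* G} {t : G} {E : Subgroup G}

local notation "X" => XX n F
local notation "I" => Fin (n + 3)
local notation "Mx" => Matrix (Fin (n + 3)) (Fin (n + 3)) F

namespace B4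

theorem ext_inj {K A B W : Type*} [Field K] [AddCommGroup A] [Module K A] [AddCommGroup B] [Module K B]
    [AddCommGroup W] [Module K W] [FiniteDimensional K A] [FiniteDimensional K B]
    (h : Module.finrank K A = Module.finrank K B) (a : W →ₗ[K] A) (b : W →ₗ[K] B)
    (ha : Function.Injective a) (hb : Function.Injective b) : ∃ e : A ≃ₗ[K] B, ∀ w, e (a w) = b w := by
  let e0 : A ≃ₗ[K] B := LinearEquiv.ofFinrankEq A B h
  have hc : Function.Injective (e0.toLinearMap ∘ₗ a) := e0.injective.comp ha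
  obtain ⟨g, hg⟩ := Submodule.exists_linearEquiv_restrict_eq
    ((LinearEquiv.ofInjective _ hc).symm ≪≫ₗ LinearEquiv.ofInjective _ hb)
  refine ⟨e0 ≪≫ₗ g, fun w => ?_⟩
  have := hg (LinearEquiv.ofInjective _ hc w)
  simp only [LinearEquiv.trans_apply, LinearEquiv.symm_apply_apply, LinearEquiv.ofInjective_apply] at this
  exact this.symm

theorem cj_sq0 {K V : Type*} [Field K] [AddCommGroup V] [Module K V] [FiniteDimensional K V]
    (f g : V →ₗ[K] V) (hf : ∀ v, f (f v) = 0) (hg : ∀ v, g (g v) = 0)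
    (h : Module.finrank K (LinearMap.range f) = Module.finrank K (LinearMap.range g)) :
    ∃ e : V ≃ₗ[K] V, ∀ v, e (f v) = g (e v) := by
  obtain ⟨W, hW⟩ := (LinearMap.ker f).exists_isCompl
  obtain ⟨W', hW'⟩ := (LinearMap.ker g).exists_isCompl
  have k1 := LinearMap.finrank_range_add_finrank_ker f
  have k2 := LinearMap.finrank_range_add_finrank_ker g
  have k3 := Submodule.finrank_add_eq_of_isCompl hW
  have k4 := Submodule.finrank_add_eq_of_isCompl hW'
  let e1 : W ≃ₗ[K] W' := LinearEquiv.ofFinrankEq W W' (by omega)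
  let a : W →ₗ[K] LinearMap.ker f := (f ∘ₗ W.subtype).codRestrict _ (fun w => hf w)
  let b : W →ₗ[K] LinearMap.ker g := (g ∘ₗ W'.subtype ∘ₗ e1.toLinearMap).codRestrict _ (fun w => hg (e1 w))
  have ha : Function.Injective a := by
    rw [injective_iff_map_eq_zero]
    intro w hw
    have : f w = 0 := congrArg Subtype.val hw
    exact Subtype.ext ((Submodule.disjoint_def.1 hW.disjoint) w this w.2)
  have hb : Function.Injective b := by
    rw [injective_iff_map_eq_zero]
    intro w hw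
    have : g (e1 w) = 0 := congrArg Subtype.val hw
    have h2 : e1 w = 0 := Subtype.ext ((Submodule.disjoint_def.1 hW'.disjoint) _ this (e1 w).2)
    exact e1.injective (by rw [h2, map_zero])
  obtain ⟨e3, he⟩ := ext_inj (by omega) a b ha hb
  let e : V ≃ₗ[K] V := (Submodule.prodEquivOfIsCompl _ _ hW).symm ≪≫ₗ e3.prodCongr e1 ≪≫ₗ
    Submodule.prodEquivOfIsCompl _ _ hW'
  have el : ∀ x : LinearMap.ker f, e x = e3 x := fun x => by
    simp [e]
  have er : ∀ x : W, e x = e1 x := fun x => by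
    simp [e]
  refine ⟨e, fun v => ?_⟩
  obtain ⟨⟨x, w⟩, rfl⟩ := (Submodule.prodEquivOfIsCompl _ _ hW).surjective v
  have hx : f x = 0 := x.2
  have hx' : g (e3 x) = 0 := (e3 x).2
  rw [Submodule.coe_prodEquivOfIsCompl', map_add, map_add, map_add, map_add, hx, map_zero, el, er, hx']
  congr 1
  exact (el (a w)).trans (congrArg Subtype.val (he w))

theorem mx_cj {K m : Type*} [Field K] [Fintype m] [DecidableEq m] (A B : Matrix m m K) (hA : A * A = 0)
    (hB : B * B = 0) (h : A.rank = B.rank) : ∃ C : Matrix m m K, C.det ≠ 0 ∧ C * A = B * C := by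
  obtain ⟨e, he⟩ := cj_sq0 A.mulVecLin B.mulVecLin (fun v => by simp [hA]) (fun v => by simp [hB]) h
  refine ⟨LinearMap.toMatrix' e.toLinearMap, ?_, ?_⟩
  · have : LinearMap.toMatrix' e.toLinearMap * LinearMap.toMatrix' e.symm.toLinearMap = 1 := by
      rw [← LinearMap.toMatrix'_comp]; simp
    intro h0
    have := congrArg det this
    rw [det_mul, h0, zero_mul, det_one] at this
    exact zero_ne_one this
  · apply Matrix.toLin'.injective
    refine LinearMap.ext fun v => ?_
    rw [Matrix.toLin'_mul, Matrix.toLin'_mul, Matrix.toLin'_toMatrix']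
    exact he v

theorem rank_map {K m : Type*} [Field K] [Fintype m] [DecidableEq m] (φ : K →+* K) (M : Matrix m m K) :
    (M.map φ).rank = M.rank := by
  obtain ⟨V, U, e, hV, hU, h⟩ := exists_rank_normal_form M
  have h2 : V.map φ * M.map φ * U.map φ = V * M * U := by
    rw [← Matrix.map_mul, ← Matrix.map_mul, h]
    ext i j
    simp only [map_apply, submatrix_apply]
    rcases e i with a | a <;> rcases e j with b | b <;> simp [one_apply, apply_ite φ]
  have hV' := (hV.map φ.mapMatrix)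
  have hU' := (hU.map φ.mapMatrix)
  rw [isUnit_iff_isUnit_det] at hV hU hV' hU'
  rw [← rank_mul_eq_right_of_isUnit_det V M hV, ← rank_mul_eq_left_of_isUnit_det U (V * M) hU, ← h2]
  exact ((rank_mul_eq_left_of_isUnit_det _ _ hU').trans (rank_mul_eq_right_of_isUnit_det _ _ hV')).symm

theorem le_one {K m : Type*} [Field K] [Fintype m] [DecidableEq m] {M : Matrix m m K} (h : M.rank ≤ 1) :
    ∃ u v, M = vecMulVec u v := by
  obtain ⟨u, hu⟩ := finrank_le_one_iff.1 h
  choose c hc using hu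
  refine ⟨u, fun j => c ⟨M.mulVec (Pi.single j 1), _, rfl⟩, ?_⟩
  ext i j
  have := congrFun (congrArg Subtype.val (hc ⟨M.mulVec (Pi.single j 1), _, rfl⟩)) i
  rw [vecMulVec_apply, mul_comm]
  refine Eq.trans ?_ this.symm
  simp

theorem two_mx : (1 : Mx) + 1 = 0 := by
  ext i j
  exact CharTwo.add_self_eq_zero _

theorem sq_iff {x : X} : x * x = 1 ↔ (x.1 - 1) * (x.1 - 1) = 0 := by
  have h : (x.1 - 1) * (x.1 - 1) = x.1 * x.1 - 1 := by
    have h2 : (x.1 - 1) * (x.1 - 1) = x.1 * x.1 - 1 + ((1 : Mx) + 1) * (1 - x.1) := by noncomm_ring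
    rw [h2, two_mx, zero_mul, add_zero]
  rw [h, sub_eq_zero]
  exact ⟨fun k => congrArg Subtype.val k, fun k => Subtype.ext k⟩

/-- the standard square-zero matrices -/
def NN (n : ℕ) (F : Type u) [Field F] (r : ℕ) : Matrix (Fin (n + 3)) (Fin (n + 3)) F :=
  (diagonal fun i : Fin (n + 3) => if i.1 < r then (1 : F) else 0).submatrix id Fin.rev

theorem NN_apply (r : ℕ) (i j : I) : NN n F r i j = if i = j.rev ∧ i.1 < r then 1 else 0 := by
  simp only [NN, submatrix_apply, diagonal_apply, id, ite_and]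

theorem NN_ne {r : ℕ} {i j : I} (h : NN n F r i j ≠ 0) : i.1 + j.1 = n + 2 ∧ i.1 < r := by
  rw [NN_apply] at h
  split_ifs at h with k
  · have := congrArg Fin.val k.1
    rw [Fin.val_rev] at this
    omega
  · exact (h rfl).elim

theorem NN_sq {r : ℕ} (h : r ≤ kk n) : NN n F r * NN n F r = 0 := by
  ext i j
  rw [mul_apply]
  refine Finset.sum_eq_zero fun k _ => ?_
  by_contra h0
  have h1 := NN_ne (left_ne_zero_of_mul h0)
  have h2 := NN_ne (right_ne_zero_of_mul h0)
  unfold kk at h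
  omega

theorem NN_rank {r : ℕ} (h : r ≤ kk n) : (NN n F r).rank = r := by
  classical
  have : NN n F r = (diagonal fun i : I => if i.1 < r then (1 : F) else 0).submatrix (Equiv.refl _) Fin.revPerm := rfl
  rw [this, rank_submatrix, rank_diagonal]
  have h3 : r ≤ n + 3 := by unfold kk at h; omega
  have : ∀ i : I, ((if i.1 < r then (1 : F) else 0) ≠ 0) ↔ i.1 < r := fun i => by simp
  rw [Fintype.card_congr (Equiv.subtypeEquivRight this), Fintype.card_subtype, Fin.card_filter_val_lt]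
  omega

theorem NN_det {r : ℕ} (h : r ≤ kk n) : (1 + NN n F r).det = 1 := by
  have h1 : (1 + NN n F r) * (1 + NN n F r) = 1 := by
    have h2 : (1 + NN n F r) * (1 + NN n F r) = 1 + NN n F r * NN n F r + ((1 : Mx) + 1) * NN n F r := by
      noncomm_ring
    rw [h2, two_mx, NN_sq h, zero_mul, add_zero, add_zero]
  have h3 := congrArg det h1
  rw [det_mul, det_one, mul_self_eq_one_iff, CharTwo.neg_eq, or_self] at h3
  exact h3

/-- the standard involutions -/
def xr {r : ℕ} (h : r ≤ kk n) : X := ⟨1 + NN n F r, NN_det h⟩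

theorem xr_sub {r : ℕ} (h : r ≤ kk n) : (xr h : X).1 - 1 = NN n F r := add_sub_cancel_left _ _

theorem xr_rk {r : ℕ} (h : r ≤ kk n) : rk (xr h : X) = r := by
  unfold rk
  rw [xr_sub, NN_rank h]

theorem xr_J {r : ℕ} (h : r ≤ kk n) : (xr h : X) ∈ JJ n F (kk n) := by
  refine mem_JJ.2 fun i j hij => ?_
  change (1 : Mx) i j + NN n F r i j = _
  rw [add_eq_left]
  by_contra h0
  have := NN_ne h0
  unfold kk at h hij
  omega

theorem ex_D (c : F) : ∃ D : Mx, D.det = c ∧ ∀ r, D * NN n F r = NN n F r * D := by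
  obtain ⟨a, ha⟩ := sq_surj c
  have h0 : (0 : I) ≠ iL := by simp [Fin.ext_iff]
  refine ⟨diagonal (Pi.mulSingle 0 a * Pi.mulSingle iL a), ?_, fun r => ?_⟩
  · rw [det_diagonal]
    simp only [Pi.mul_apply, Finset.prod_mul_distrib, Finset.prod_pi_mulSingle', Finset.mem_univ, if_true]
    exact ha
  · ext i j
    rw [diagonal_mul, mul_diagonal]
    by_cases h : NN n F r i j = 0
    · rw [h, mul_zero, zero_mul]
    · have := NN_ne h
      rw [mul_comm]
      congr 1
      have e1 : i = 0 ↔ j = iL := by simp only [Fin.ext_iff, Fin.val_zero, Fin.val_last]; omega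
      have e2 : i = iL ↔ j = 0 := by simp only [Fin.ext_iff, Fin.val_zero, Fin.val_last]; omega
      simp only [Pi.mul_apply, Pi.mulSingle_apply, e1, e2]
      rw [mul_comm]

theorem le_kk {x : X} (h : x * x = 1) : rk x ≤ kk n := by
  have := rank_add_rank_le_card_of_mul_eq_zero (sq_iff.1 h)
  rw [Fintype.card_fin] at this
  unfold rk kk
  omega

theorem cj_xr {x : X} (h : x * x = 1) : ∃ z, z * x * z⁻¹ = xr (le_kk h) := by
  obtain ⟨C, hC, k⟩ := mx_cj _ _ (sq_iff.1 h) (NN_sq (F := F) (le_kk h)) (NN_rank (le_kk h)).symm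
  obtain ⟨D, hD, kD⟩ := ex_D (n := n) C.det⁻¹
  let z : X := ⟨D * C, by rw [det_mul, hD, inv_mul_cancel₀ hC]⟩
  refine ⟨z, mul_inv_eq_iff_eq_mul.2 (Subtype.ext ?_)⟩
  change D * C * x.1 = (1 + NN n F (rk x)) * (D * C)
  rw [add_mul, ← mul_assoc, ← mul_assoc, ← kD, mul_assoc D _ C, ← k]
  noncomm_ring

theorem rk_gc (g : GX n F) (x : X) : rk (gc g x) = rk x := by
  unfold rk
  have : (gc g x).1 - 1 = g.1 * (x.1 - 1) * (g⁻¹).1 := by
    rw [gc_val, mul_sub, sub_mul, mul_one, Units.mul_inv]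
  rw [this, rank_mul_eq_left_of_isUnit_det _ _ (isUnits_det_units _),
    rank_mul_eq_right_of_isUnit_det _ _ (isUnits_det_units _)]

theorem rk_fr (φ : RingAut F) (x : X) : rk (fr φ x) = rk x := by
  unfold rk
  rw [← rank_map (φ : F →+* F) (x.1 - 1)]
  congr 1
  ext i j
  simp [fr_val, one_apply, apply_ite φ]

theorem rk_it (x : X) : rk (it x) = rk x := by
  unfold rk
  have h1 : (x⁻¹).1 * x.1 = 1 := congrArg Subtype.val (inv_mul_cancel x)
  have : (it x).1 - 1 = (-(x⁻¹).1 * (x.1 - 1))ᵀ := by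
    rw [it_val, mul_sub, neg_mul, h1, mul_one, transpose_sub, transpose_neg, transpose_neg, transpose_one]
    abel
  rw [this, rank_transpose, rank_mul_eq_right_of_det_ne_zero]
  rw [det_neg, (x⁻¹).2, mul_one]
  exact pow_ne_zero _ (neg_ne_zero.2 one_ne_zero)

theorem zero_iff {x : X} : rk x = 0 ↔ x = 1 := by
  unfold rk
  constructor
  · intro h
    have h1 : LinearMap.range (x.1 - 1).mulVecLin = ⊥ := Submodule.finrank_eq_zero.1 h
    rw [LinearMap.range_eq_bot] at h1
    refine Subtype.ext (sub_eq_zero.1 (Matrix.toLin'.injective ?_))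
    rw [map_zero]
    exact h1
  · rintro rfl
    have : (1 : X).1 - 1 = 0 := sub_self _
    rw [this, rank_zero]

end B4

theorem rk_au (g : GX n F) (φ : RingAut F) (ε : Bool) (x : X) : rk (au g φ ε x) = rk x := by
  cases ε
  · rw [au_false, B4.rk_gc, B4.rk_fr]
  · rw [au_true, B4.rk_gc, B4.rk_fr, B4.rk_it]

theorem rk_cj (y x : X) : rk (y * x * y⁻¹) = rk x := by
  rw [← gc_sl, B4.rk_gc]

theorem rk_xe {i j : I} (h : i ≠ j) {c : F} (hc : c ≠ 0) : rk (xe i j c : X) = 1 := by
  have h1 : (xe i j c : X).1 - 1 = single i j c := by rw [xe_val h, add_sub_cancel_left]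
  have h2 : rk (xe i j c : X) ≤ 1 := by
    unfold rk
    have : (single i j c : Mx) = vecMulVec (Pi.single i c) (Pi.single j 1) := by
      ext a b
      simp only [single_apply, vecMulVec_apply, Pi.single_apply]
      simp only [@eq_comm _ i a, @eq_comm _ j b]
      by_cases e1 : a = i <;> by_cases e2 : b = j <;> simp [e1, e2]
    rw [h1, this]
    exact rank_vecMulVec_le _ _
  have h3 : rk (xe i j c : X) ≠ 0 := fun k =>
    hc (xe_cen h (by rw [B4.zero_iff.1 k]; exact one_mem _))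
  omega

theorem rk_zero {x : X} : rk x = 0 ↔ x = 1 := by
  exact B4.zero_iff

theorem rk_sq {x : X} (h : rk x ≤ 1) : x * x = 1 := by
  obtain ⟨u, v, k⟩ := B4.le_one h
  have h1 : x.1 = 1 + vecMulVec u v := by rw [← k, add_sub_cancel]
  have h2 := x.2
  rw [h1, vecMulVec_eq Unit, det_one_add_replicateCol_mul_replicateRow, add_eq_left] at h2
  rw [B4.sq_iff, k, vecMulVec_mul_vecMulVec, h2, zero_smul, vecMulVec_zero]

theorem rk_le {x : X} (h : x * x = 1) : rk x ≤ kk n := by
  exact B4.le_kk h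

theorem inv_cj {x y : X} (hx : x * x = 1) (hy : y * y = 1) (h : rk x = rk y) : ∃ z, z * x * z⁻¹ = y := by
  obtain ⟨a, ha⟩ := B4.cj_xr hx
  obtain ⟨b, hb⟩ := B4.cj_xr hy
  have e : (B4.xr (B4.le_kk hx) : X) = B4.xr (B4.le_kk hy) := by congr 1
  refine ⟨b⁻¹ * a, ?_⟩
  have : b⁻¹ * a * x * (b⁻¹ * a)⁻¹ = b⁻¹ * (a * x * a⁻¹) * b := by group
  rw [this, ha, e, ← hb]
  group

theorem ex_rk {r : ℕ} (h : r ≤ kk n) : ∃ x ∈ JJ n F (kk n), rk x = r := by
  exact ⟨B4.xr h, B4.xr_J h, B4.xr_rk h⟩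

theorem inv_J {x : X} (h : x * x = 1) : ∃ z, z * x * z⁻¹ ∈ JJ n F (kk n) := by
  obtain ⟨a, ha⟩ := B4.cj_xr h
  exact ⟨a, ha ▸ B4.xr_J _⟩

end LMS
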