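import Cfsg.Agent.Lib.LMS.B4
import Cfsg.Agent.Lib.LMS.B3

set_option autoImplicit false
set_option linter.unusedSectionVars false

namespace LMS

open Subgroup H69 Cfsg Matrix U4S
open scoped MatrixGroups commutatorElement

universe u
variable {G : Type*} [Group G] [Finite G] {F : Type u} [Field F] [CharP F 2] [Fintype F] {n : ℕ} [Ok n F]
  {ι ψ χ : XX n F →* G} {t : G} {E : Subgroup G}

local notation "X" => XX n F
local notation "I" => Fin (n + 3)
local notation "Mx" => Matrix (Fin (n + 3)) (Fin (n + 3)) F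

namespace B4b

theorem memU {i j : I} (h : i < j) (c : F) : (xe i j c : X) ∈ UU n F :=
  subset_closure ⟨i, j, c, h, rfl⟩

theorem cm_xe {i j l : I} (h1 : i ≠ j) (h2 : j ≠ l) (h3 : i ≠ l) (a b : F) :
    ⁅(xe i j a : X), xe j l b⁆ = xe i l (a * b) := by
  rw [commutatorElement_def, xe_inv, xe_inv, xe_c1 h1 h2 h3]

theorem cmU {i j : I} (h : i.1 + 2 ≤ j.1) (c : F) : (xe i j c : X) ∈ ⁅UU n F, UU n F⁆ := by
  let l : I := ⟨i.1 + 1, by omega⟩
  have h1 : i < l := Fin.lt_def.2 (by simp [l])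
  have h2 : l < j := Fin.lt_def.2 (by simp only [l]; omega)
  rw [← mul_one c, ← cm_xe h1.ne h2.ne (h1.trans h2).ne]
  exact commutator_mem_commutator (memU h1 c) (memU h2 1)

theorem xe_ne {i j : I} (h : i ≠ j) {c : F} (hc : c ≠ 0) : (xe i j c : X) ≠ 1 :=
  fun e => hc (xe_cen h (e ▸ one_mem _))

theorem zL : (0 : I) ≠ iL := (Fin.last_pos' (n := n + 2)).ne

theorem ex_c (hn : n ≤ 1) : ∃ c : F, c ≠ 0 ∧ c ≠ 1 := by
  classical
  have h : 4 ≤ Nat.card F := Ok.h hn
  by_contra! k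
  have : (Finset.univ : Finset F) ⊆ {0, 1} := fun c _ => by
    by_cases e : c = 0
    · simp [e]
    · simp [k c e]
  have := (Finset.card_le_card this).trans Finset.card_le_two
  rw [Finset.card_univ, ← Nat.card_eq_fintype_card] at this
  omega

theorem gd_cj {u w : X} (h : Gd (cn (w * u * w⁻¹))) : Gd (cn u) := by
  obtain ⟨P, p1, p2, y, hy, y2, y1, x, hx⟩ := h
  refine ⟨P ^ᶜ w⁻¹, isPGroup_cj p1 _, fun p hp => ?_, w⁻¹ * y * w⁻¹⁻¹, ?_, ?_, ?_, w⁻¹ * x * w, ?_⟩
  · have := p2 _ (mem_cj.1 hp)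
    rw [cn_apply] at this ⊢
    calc u * p * u⁻¹ = w⁻¹ * (w * u * w⁻¹ * (w⁻¹⁻¹ * p * w⁻¹) * (w * u * w⁻¹)⁻¹) * w := by group
      _ = p := by rw [this]; group
  · rw [← cj_commutator]
    exact cj_mem _ hy
  · calc _ = w⁻¹ * (y * y) * w := by group
      _ = 1 := by rw [y2]; group
  · intro e
    apply y1
    calc y = w * (w⁻¹ * y * w⁻¹⁻¹) * w⁻¹ := by group
      _ = 1 := by rw [e]; group
  · rw [hx, cn_apply, cn_apply]; group

theorem gd_z : Gd (cn (xe 0 iL 1 : X)) := by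
  have k : ∀ p ∈ UU n F, cn (xe 0 iL 1 : X) p = p := fun p hp => by
    rw [cn_apply, ← RR_cen (mem_RR.2 ⟨1, rfl⟩) hp]; group
  rcases Nat.eq_zero_or_pos n with hn | hn
  · obtain ⟨c, c0, c1⟩ := ex_c (F := F) (n := n) (by omega)
    obtain ⟨x, hx⟩ := inv_cj (xe_sq (0 : I) iL (1 : F)) (xe_sq (0 : I) iL c)
      (by rw [rk_xe zL one_ne_zero, rk_xe zL c0])
    refine ⟨UU n F, sylU.isP, k, xe 0 iL (c + 1), cmU (by simp) _, xe_sq _ _ _,
      xe_ne zL fun e => c1 (by rw [← sub_eq_zero, CharTwo.sub_eq_add, e]), x, ?_⟩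
    rw [← xe_mul, ← hx, cn_apply]
    nth_rewrite 2 [← xe_inv (0 : I) iL (1 : F)]
    group
  · let r : I := ⟨n + 1, by omega⟩
    have h1 : (0 : I) ≠ r := by simp [r, Fin.ext_iff]
    have h2 : (iL : I) ≠ r := by simp [r, Fin.ext_iff]
    refine ⟨UU n F, sylU.isP, k, xe 0 r 1, cmU (by simp only [r, Fin.val_zero]; omega) _, xe_sq _ _ _,
      xe_ne h1 one_ne_zero, xe iL r 1, ?_⟩
    rw [← xe_inv (0 : I) r (1 : F), ← mul_one (1 : F), ← cm_xe zL h2 h1, mul_one, cn_apply,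
      commutatorElement_def]
    group

section std
variable (σ : Equiv.Perm (Fin (n + 3))) (w : Fin (n + 3) → F)

/-- a weighted permutation matrix -/
def NN : Mx := Matrix.of fun i j => if j = σ i then w i else 0

theorem NN_mul (M : Mx) (i k : I) : (NN σ w * M) i k = w i * M (σ i) k := by
  simp [NN, mul_apply]

theorem nE (a b : I) : NN σ w * single (σ a) b 1 = single a b (w a) := by
  ext i k
  rw [NN_mul, single_apply, single_apply]
  by_cases h : a = i
  · subst h; simp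
  · simp [h]

theorem eN (a b : I) : single a b 1 * NN σ w = single a (σ b) (w b) := by
  ext i k
  by_cases h : a = i
  · subst h
    rw [single_mul_apply_same, single_apply]
    simp [NN, eq_comm]
  · rw [single_mul_apply_of_ne _ _ _ _ _ (Ne.symm h), single_apply]
    simp [h]

theorem rk_NN [DecidableEq F] : (NN σ w).rank = Fintype.card {i // w i ≠ 0} := by
  rw [← rank_diagonal, ← rank_submatrix (diagonal w) (Equiv.refl _) σ.symm]
  congr 1
  ext i j
  simp [NN, diagonal_apply, Equiv.eq_symm_apply, eq_comm]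

theorem NN_sq (h : ∀ i, w i * w (σ i) = 0) : (1 + NN σ w) * (1 + NN σ w) = 1 := by
  have : NN σ w * NN σ w = 0 := by
    ext i k
    rw [NN_mul]
    simp only [NN, of_apply, Matrix.zero_apply]
    split_ifs
    · exact h i
    · exact mul_zero _
  rw [mul_add, add_mul, add_mul, this, mul_one, one_mul, mul_one, add_zero, add_assoc,
    CharTwo.add_self_eq_zero, add_zero]

end std

theorem gd_std {ρ : ℕ} (h2 : 2 ≤ ρ) (hk : ρ ≤ kk n) : ∃ u : X, u * u = 1 ∧ rk u = ρ ∧ Gd (cn u) := by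
  classical
  have hρ : 2 * ρ ≤ n + 3 := by unfold kk at hk; omega
  let σ : Equiv.Perm I := (Equiv.swap 0 1).trans Fin.revPerm
  let w : I → F := fun i => if i.1 < ρ then 1 else 0
  let r : I := Fin.rev 1
  have rv : r.1 = n + 1 := by simp [r, Fin.val_rev]
  have hw : ∀ i, w i * w (σ i) = 0 := fun i => by
    by_cases h : i.1 < ρ
    · have : (Equiv.swap (0 : I) 1 i).1 < ρ := by
        rw [Equiv.swap_apply_def]
        split_ifs
        · simp only [Fin.val_one]; omega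
        · simp only [Fin.val_zero]; omega
        · exact h
      have : ¬ (σ i).1 < ρ := by
        simp only [σ, Equiv.trans_apply, Fin.revPerm_apply, Fin.val_rev]; omega
      simp [w, this]
    · simp [w, h]
  have sq := NN_sq σ w hw
  have hd : (1 + NN σ w).det = 1 := by
    have := congrArg det sq
    rw [det_mul, det_one, mul_self_eq_one_iff, CharTwo.neg_eq, or_self] at this
    exact this
  let u : X := ⟨1 + NN σ w, hd⟩
  have uv : u.1 = 1 + NN σ w := rfl
  have n01 : (0 : I) ≠ 1 := by simp [Fin.ext_iff]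
  have n1L : (1 : I) ≠ iL := by simp [Fin.ext_iff]
  have nrL : r ≠ iL := by simp [Fin.ext_iff, rv]
  have nr0 : r ≠ 0 := by simp [Fin.ext_iff, rv]
  have nr1 : r ≠ 1 := by simp only [Ne, Fin.ext_iff, rv, Fin.val_one]; omega
  have s0 : σ 0 = r := by simp [σ, r]
  have s1 : σ 1 = iL := by simp [σ]
  have sL : σ iL = 0 := by simp [σ, Equiv.swap_apply_of_ne_of_ne zL.symm n1L.symm]
  have sr : σ r = 1 := by
    simp only [σ, Equiv.trans_apply, Equiv.swap_apply_of_ne_of_ne nr0 nr1]; simp [r]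
  have w0 : w 0 = 1 := if_pos (by simp only [Fin.val_zero]; omega)
  have w1 : w 1 = 1 := if_pos (by simp only [Fin.val_one]; omega)
  have wL : w iL = 0 := if_neg (by simp only [Fin.val_last]; omega)
  have wr : w r = 0 := if_neg (by rw [rv]; omega)
  have f1 : single 0 1 1 * NN σ w = single 0 iL 1 := by rw [eN, s1, w1]
  have f2 : ∀ b, NN σ w * single 0 b 1 = 0 := fun b => by rw [← sL, nE, wL, single_zero]
  have f3 : ∀ a, single a iL 1 * NN σ w = 0 := fun a => by rw [eN, wL, single_zero]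
  have f4 : NN σ w * single r iL 1 = single 0 iL 1 := by rw [← s0, nE, w0]
  have f6 : NN σ w * single 1 iL 1 = 0 := by rw [← sr, nE, wr, single_zero]
  have cA : xe 0 1 1 * u = u * xe 0 1 1 * xe 0 iL 1 := Subtype.ext (by
    simp only [Matrix.SpecialLinearGroup.coe_mul, xe_val n01, xe_val zL, uv, mul_add, add_mul, one_mul,
      mul_one, f1, f2, zero_mul, single_mul_single_of_ne _ _ _ _ n01.symm]
    abel)
  have cB : u * xe r iL 1 = xe r iL 1 * u * xe 0 iL 1 := Subtype.ext (by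
    simp only [Matrix.SpecialLinearGroup.coe_mul, xe_val nrL, xe_val zL, uv, mul_add, add_mul, one_mul,
      mul_one, f2, f3, f4, zero_mul, single_mul_single_of_ne _ _ _ _ zL.symm]
    abel)
  have cC : u * xe 1 iL 1 = xe 1 iL 1 * u := Subtype.ext (by
    simp only [Matrix.SpecialLinearGroup.coe_mul, xe_val n1L, uv, mul_add, add_mul, one_mul,
      mul_one, f3, f6]
    abel)
  have cZ : u * xe 0 iL 1 = xe 0 iL 1 * u := Subtype.ext (by
    simp only [Matrix.SpecialLinearGroup.coe_mul, xe_val zL, uv, mul_add, add_mul, one_mul,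
      mul_one, f3, f2]
    abel)
  have z1 : (xe 0 1 1 : X) * xe 0 iL 1 = xe 0 iL (1 : F) * xe 0 1 1 := xe_c0 zL n01.symm _ _
  have z2 : (xe r iL 1 : X) * xe 0 iL 1 = xe 0 iL (1 : F) * xe r iL 1 := xe_c0 nrL zL.symm _ _
  have z3 : (xe r iL 1 : X) * xe 1 iL 1 = xe 1 iL (1 : F) * xe r iL 1 := xe_c0 nrL n1L.symm _ _
  have zz := xe_sq (0 : I) iL (1 : F)
  have z4 := cm_xe n01 n1L zL (1 : F) 1
  rw [mul_one] at z4
  have lt : ∀ a : I, a ≠ iL → a < iL := fun a ha => Fin.lt_last_iff_ne_last.2 ha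
  have p1 : xe 0 1 1 * xe r iL 1 ∈ UU n F ⊓ centralizer {u} := by
    refine ⟨mul_mem (memU (Fin.pos_iff_ne_zero.2 n01.symm) _) (memU (lt _ nrL) _),
      mem_centralizer_singleton_iff.2 ?_⟩
    generalize (xe 0 1 1 : X) = a, (xe r iL 1 : X) = b, (xe 0 iL 1 : X) = z at *
    calc a * b * u = a * b * u * (z * z) := by rw [zz, mul_one]
      _ = a * (b * u * z) * z := by group
      _ = a * u * (b * z) := by rw [← cB]; group
      _ = u * a * (z * z) * b := by rw [cA, z2]; group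
      _ = _ := by rw [zz]; group
  have p2 : xe 1 iL 1 ∈ UU n F ⊓ centralizer {u} :=
    ⟨memU (lt _ n1L) _, mem_centralizer_singleton_iff.2 cC.symm⟩
  refine ⟨u, Subtype.ext sq, ?_, UU n F ⊓ centralizer {u}, sylU.isP.to_inf_left, fun p hp => ?_,
    xe 0 iL 1, ?_, zz, xe_ne zL one_ne_zero, xe 0 1 1, ?_⟩
  · rw [rk, uv, add_sub_cancel_left, rk_NN, ← Fintype.card_fin_lt_of_le (n := n + 3) (m := ρ) (by omega)]
    exact Fintype.card_congr (Equiv.subtypeEquivRight fun i => by simp [w])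
  · rw [cn_apply, ← mem_centralizer_singleton_iff.1 hp.2]; group
  · have := commutator_mem_commutator p1 p2
    rw [← z4]
    convert this using 1
    rw [commutatorElement_def, commutatorElement_def, mul_assoc _ _ (xe 1 iL 1), z3]
    group
  · rw [cn_apply]
    generalize (xe 0 1 1 : X) = a, (xe 0 iL 1 : X) = z at *
    calc z = (z * u) * a * a⁻¹ * u⁻¹ := by group
      _ = u * (a * z) * a⁻¹ * u⁻¹ := by rw [← cZ, z1]; group
      _ = _ := by rw [← mul_assoc u, ← cA]; group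

end B4b

open B4b

theorem cc3 (hn : n = 0) {a b y : X} (ha : a * a = 1) (hb : b * b = 1) (hy : y * y = 1) (y1 : y ≠ 1)
    (h1 : a * y = y * a) (h2 : b * y = y * b) : (a * b) ^ 4 = 1 := by
  have r1 : rk y = 1 := by
    have a1 := rk_le hy
    have a2 : rk y ≠ 0 := fun e => y1 (rk_zero.1 e)
    have a3 : kk n = 1 := by rw [hn]; rfl
    omega
  obtain ⟨w, hw⟩ := inv_cj hy (xe_sq (0 : I) iL (1 : F)) (by rw [r1, rk_xe zL one_ne_zero])
  have key : ∀ a : X, a * a = 1 → a * y = y * a →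
      w * a * w⁻¹ * (w * a * w⁻¹) = 1 ∧ w * a * w⁻¹ ∈ QQ F (0 : I) iL := fun a ha h => by
    have e : w * a * w⁻¹ * (w * a * w⁻¹) = 1 := by
      calc _ = w * (a * a) * w⁻¹ := by group
        _ = 1 := by rw [ha]; group
    refine ⟨e, PP_zero (F := F) hn zL ▸ inv_PP zL e ?_⟩
    rw [← hw]
    calc _ = w * (a * y) * w⁻¹ := by group
      _ = _ := by rw [h]; group
  obtain ⟨a1, a2⟩ := key a ha h1
  obtain ⟨b1, b2⟩ := key b hb h2
  obtain ⟨c, hc⟩ : ∃ c, w * a * w⁻¹ * (w * b * w⁻¹) = w * b * w⁻¹ * (w * a * w⁻¹) * xe 0 iL c :=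
    ⟨_, comm_QQ zL a2 b2⟩
  have e : (a * b) ^ 4 = w⁻¹ * ((w * a * w⁻¹) * (w * b * w⁻¹)) ^ 4 * w := by
    rw [show w * a * w⁻¹ * (w * b * w⁻¹) = w * (a * b) * w⁻¹ by group, conj_pow]; group
  rw [e]
  generalize w * a * w⁻¹ = A, w * b * w⁻¹ = B at *
  have e2 : (A * B) ^ 2 = xe 0 iL c := by
    rw [sq]
    nth_rewrite 2 [hc]
    calc _ = A * (B * B) * A * xe 0 iL c := by group
      _ = _ := by rw [b1, mul_one, a1, one_mul]
  rw [show 4 = 2 * 2 from rfl, pow_mul, e2, sq, xe_sq]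
  group

theorem gd_inn {u : X} (h : u * u = 1) (u1 : u ≠ 1) : Gd (cn u) := by
  have a2 : rk u ≠ 0 := fun e => u1 (rk_zero.1 e)
  by_cases r1 : rk u = 1
  · obtain ⟨w, hw⟩ := inv_cj h (xe_sq (0 : I) iL (1 : F)) (by rw [r1, rk_xe zL one_ne_zero])
    exact gd_cj (hw ▸ gd_z)
  · obtain ⟨v, v1, v2, v3⟩ := gd_std (F := F) (n := n) (ρ := rk u) (by omega) (rk_le h)
    obtain ⟨w, hw⟩ := inv_cj h v1 v2.symm
    exact gd_cj (hw ▸ v3)

theorem four_U : ∃ x ∈ ⁅UU n F, UU n F⁆, ∃ y ∈ ⁅UU n F, UU n F⁆, x * x = 1 ∧ y * y = 1 ∧ x * y = y * x ∧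
    x ≠ 1 ∧ y ≠ 1 ∧ x ≠ y := by
  rcases Nat.eq_zero_or_pos n with hn | hn
  · obtain ⟨c, c0, c1⟩ := ex_c (F := F) (n := n) (by omega)
    refine ⟨xe 0 iL 1, cmU (by simp) _, xe 0 iL c, cmU (by simp) _, xe_sq _ _ _, xe_sq _ _ _,
      xe_c0 zL zL.symm _ _, xe_ne zL one_ne_zero, xe_ne zL c0, fun e => ?_⟩
    refine xe_ne (n := n) zL (c := c + 1)
      (fun e => c1 (by rw [← sub_eq_zero, CharTwo.sub_eq_add, e])) ?_
    rw [← xe_mul, ← e, xe_sq]
  · let r : I := ⟨n + 1, by omega⟩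
    have h1 : (0 : I) ≠ r := by simp [r, Fin.ext_iff]
    have h2 : (iL : I) ≠ r := by simp [r, Fin.ext_iff]
    refine ⟨xe 0 iL 1, cmU (by simp) _, xe 0 r 1, cmU (by simp only [r, Fin.val_zero]; omega) _,
      xe_sq _ _ _, xe_sq _ _ _, xe_c0 h1 zL.symm _ _, xe_ne zL one_ne_zero, xe_ne h1 one_ne_zero,
      fun e => ?_⟩
    exact one_ne_zero (xe2_cen (n := n) (a := (1 : F)) (b := 1) zL h1 (Or.inr h2)
      (by rw [← e, xe_sq]; exact one_mem _)).1

theorem xe_comm_U {i j : I} (h : i.1 + 2 ≤ j.1) (c : F) : (xe i j c : X) ∈ ⁅UU n F, UU n F⁆ :=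
  cmU h c

end LMS
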