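import Cfsg.Agent.Lib.LMS.B2
import Cfsg.Agent.Lib.G2S.UB

set_option autoImplicit false
set_option linter.unusedSectionVars false

namespace LMS

open Subgroup H69 Cfsg Matrix U4S
open scoped MatrixGroups commutatorElement

universe u
variable {G : Type*} [Group G] [Finite G] {F : Type u} [Field F] [CharP F 2] [Fintype F] {n : ℕ} [Ok n F]
  {ι ψ χ : XX n F →* G} {t : G} {E : Subgroup G}

local notation "X" => XX n F
local notation "I" => Fin (n + 3)
local notation "Mx" => Matrix (Fin (n + 3)) (Fin (n + 3)) F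

namespace B5

theorem fr_gc (φ : RingAut F) (g : GX n F) : ∃ g' : GX n F, ∀ M : X, fr φ (gc g M) = gc g' (fr φ M) := by
  refine ⟨Matrix.GeneralLinearGroup.map (φ : F →+* F) g, fun M => Subtype.ext ?_⟩
  rw [gc_val, ← map_inv]
  change (g.1 * M.1 * (g⁻¹).1).map (φ : F →+* F) = _
  rw [Matrix.map_mul, Matrix.map_mul]
  rfl

theorem it_gc (g : GX n F) : ∃ g' : GX n F, ∀ M : X, it (gc g M) = gc g' (it M) := by
  refine ⟨⟨(g⁻¹).1ᵀ, g.1ᵀ, ?_, ?_⟩, fun M => Subtype.ext ?_⟩
  · rw [← transpose_mul, Units.mul_inv, transpose_one]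
  · rw [← transpose_mul, Units.inv_mul, transpose_one]
  · rw [it_val, ← map_inv, gc_val, transpose_mul, transpose_mul, ← mul_assoc]
    rfl

theorem it_fr (φ : RingAut F) (M : X) : it (fr φ M) = fr φ (it M) :=
  Subtype.ext (by rw [it_val, ← map_inv]; rfl)

theorem ne_zero (g : GX n F) : g.1 ≠ 0 := fun h => by
  have := g.mul_inv
  rw [h, zero_mul] at this
  exact zero_ne_one this

theorem mul_eq {g : GX n F} {M N : X} (h : gc g M = N) : g.1 * M.1 = N.1 * g.1 := by
  rw [← h, gc_val, mul_assoc, Units.inv_mul, mul_one]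

theorem key_false {g : GX n F} {φ : RingAut F} (h : ∀ M : X, gc g (fr φ M) = M) : φ = 1 := by
  have k : ∀ (i j : I), i ≠ j → ∀ c, g.1 * single i j (φ c) = single i j c * g.1 := fun i j hij c => by
    have := mul_eq (h (xe i j c))
    rwa [fr_xe, xe_val hij, xe_val hij, mul_add, add_mul, mul_one, one_mul, add_right_inj] at this
  obtain ⟨c, hc⟩ := Matrix.mem_range_scalar_of_commute_single (M := g.1) fun i j hij => by
    have := k i j hij 1
    rw [map_one] at this
    exact this.symm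
  have hc0 : c ≠ 0 := by
    rintro rfl
    exact ne_zero g (by rw [← hc, map_zero])
  obtain ⟨l, hl, -⟩ := ex_third (n := n) 0 0
  refine RingEquiv.ext fun x => mul_left_cancel₀ hc0 ?_
  have := congrFun (congrFun (k l 0 hl x) l) 0
  rw [← hc] at this
  simpa [mul_comm] using this

theorem key_true {g : GX n F} {φ : RingAut F} (h : ∀ M : X, gc g (fr φ (it M)) = M) : False := by
  refine ne_zero g (Matrix.ext fun a j => ?_)
  obtain ⟨i, hi, hj⟩ := ex_third a j
  have := mul_eq (h (xe i j 1))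
  rw [it_xe, fr_xe, map_one, xe_val hj, xe_val hj.symm, mul_add, add_mul, mul_one, one_mul,
    add_right_inj] at this
  have := congrFun (congrFun this a) i
  rw [Matrix.mul_single_apply_same, Matrix.single_mul_apply_of_ne _ _ _ _ _ hi.symm, mul_one] at this
  exact this

theorem ex_sl {g : GX n F} (h : Matrix.GeneralLinearGroup.det g = 1) :
    ∃ u : X, Matrix.SpecialLinearGroup.toGL u = g :=
  ⟨⟨g.1, congrArg Units.val h⟩, Units.ext rfl⟩

theorem odd_lift {Γ Δ : Type*} [Group Γ] [Finite Γ] [Group Δ] (f : Γ →* Δ) (x : Γ) (p : P2 (f x)) :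
    ∃ y, P2 y ∧ f y = f x := by
  obtain ⟨k, hk, j, hj⟩ := exists_P2_pow x
  obtain ⟨a, ha⟩ := p
  have c : k.Coprime (2 ^ a) := (Nat.coprime_two_right.2 hk).pow_right a
  obtain ⟨s, hs⟩ := Nat.exists_eq_succ_of_ne_zero (Nat.totient_pos.2 (Nat.two_pow_pos a)).ne'
  have m := Nat.ModEq.pow_totient c
  rw [hs] at m
  refine ⟨x ^ k ^ (s + 1), ⟨j, ?_⟩, ?_⟩
  · rw [pow_succ', pow_mul, ← pow_mul, mul_comm (k ^ s), pow_mul, hj, one_pow]
  · rw [map_pow, pow_eq_pow_mod _ ha, m, ← pow_eq_pow_mod _ ha, pow_one]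

/-- conjugation by the general linear group -/
def gcH : GX n F →* MulAut X := MonoidHom.mk' gc fun a b => MulEquiv.ext (gc_mul a b)

end B5

open B5

theorem au_comp (g g' : GX n F) (φ φ' : RingAut F) (ε ε' : Bool) :
    ∃ g'', (au g φ ε).comp (au g' φ' ε') = au g'' (φ * φ') (xor ε ε') := by
  obtain ⟨a, ha⟩ := it_gc g'
  obtain ⟨b, hb⟩ := fr_gc φ a
  obtain ⟨c, hc⟩ := fr_gc φ g'
  cases ε
  · refine ⟨g * c, MonoidHom.ext fun x => ?_⟩
    cases ε' <;> simp only [MonoidHom.comp_apply, au_false, au_true, hc, fr_fr, gc_mul, Bool.xor_false,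
      Bool.false_xor]
  · refine ⟨g * b, MonoidHom.ext fun x => ?_⟩
    cases ε' <;> simp only [MonoidHom.comp_apply, au_false, au_true, ha, hb, it_fr, it_it, fr_fr, gc_mul,
      Bool.xor_false, Bool.xor_self]

theorem au_uniq {g g' : GX n F} {φ φ' : RingAut F} {ε ε' : Bool} (h : au g φ ε = au g' φ' ε') : φ = φ' ∧ ε = ε' := by
  obtain ⟨a, ha⟩ := au_comp 1 g φ'⁻¹ φ ε' ε
  obtain ⟨b, hb⟩ := au_comp 1 g' φ'⁻¹ φ' ε' ε'
  rw [h, hb, inv_mul_cancel, Bool.xor_self] at ha
  have k : ∀ x, au (b⁻¹ * a) (φ'⁻¹ * φ) (xor ε' ε) x = x := fun x => by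
    have e : au (b⁻¹ * a) (φ'⁻¹ * φ) (xor ε' ε) x = gc b⁻¹ (au a (φ'⁻¹ * φ) (xor ε' ε) x) := gc_mul _ _ _
    rw [e, ← ha, au_false, fr_one, ← gc_mul, inv_mul_cancel, gc_one]
  rcases e : xor ε' ε with _ | _ <;> rw [e] at k
  · refine ⟨(inv_mul_eq_one.1 (key_false k)).symm, ?_⟩
    cases ε <;> cases ε' <;> simp_all
  · exact (key_true k).elim

theorem au_bij (g : GX n F) (φ : RingAut F) (ε : Bool) : Function.Bijective (au g φ ε) := by
  have f : Function.Injective (fr φ : X → X) := Function.LeftInverse.injective (g := fr φ⁻¹) fun x => by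
    rw [fr_fr, inv_mul_cancel, fr_one]
  have i : Function.Injective (it : X → X) := Function.LeftInverse.injective it_it
  refine Finite.injective_iff_bijective.1 fun x y e => ?_
  cases ε
  · exact f ((gc g).injective e)
  · exact i (f ((gc g).injective e))

theorem cn_au (u : X) : ∃ g, cn u = au g 1 false :=
  ⟨Matrix.SpecialLinearGroup.toGL u, MonoidHom.ext fun x => by rw [au_false, fr_one, gc_sl, cn_apply]⟩

theorem tw_au (φ : RingAut F) : ∃ g : GX n F, tw.comp (fr φ) = au g φ true :=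
  ⟨Matrix.SpecialLinearGroup.toGL (pmL Fin.revPerm), MonoidHom.ext fun x => by
    rw [au_true, gc_sl, ← it_fr]; rfl⟩

theorem au_comm (g g' : GX n F) : ∃ u : X, ∀ x, gc g (gc g' x) = u * gc g' (gc g x) * u⁻¹ := by
  obtain ⟨u, hu⟩ := ex_sl (g := g * g' * g⁻¹ * g'⁻¹) (by
    rw [map_mul, map_mul, map_mul, map_inv, map_inv, mul_inv_cancel_comm, mul_inv_cancel])
  refine ⟨u, fun x => ?_⟩
  rw [← gc_sl, hu, ← gc_mul, ← gc_mul, ← gc_mul, inv_mul_cancel_right, inv_mul_cancel_right]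

theorem au_two {g : GX n F} {k : ℕ} (h : ∀ x, (au g 1 false)^[2 ^ k] x = x) : ∃ u, P2 u ∧ au g 1 false = cn u := by
  have e : (au g 1 false : X → X) = gcH g := funext fun x => by rw [au_false, fr_one]; rfl
  obtain ⟨y, ⟨j, hj⟩, hy⟩ := odd_lift gcH g ⟨k, MulEquiv.ext fun x => by
    have k' : ∀ m : ℕ, (gcH g ^ m) x = (gcH g)^[m] x := fun m => by
      induction m with
      | zero => rfl
      | succ m ih => rw [pow_succ', MulAut.mul_apply, ih, Function.iterate_succ_apply']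
    rw [k', ← e]; exact h x⟩
  obtain ⟨u, rfl⟩ := ex_sl (g := y) (Units.ext (by
    have := congrArg (fun z => ((Matrix.GeneralLinearGroup.det z : Fˣ) : F)) hj
    simp only [map_pow, map_one, Units.val_pow_eq_pow_val, Units.val_one] at this
    rw [← sub_eq_zero, ← one_pow (2 ^ j), ← sub_pow_char_pow] at this
    exact sub_eq_zero.1 (pow_eq_zero_iff (Nat.two_pow_pos j).ne' |>.1 this)))
  refine ⟨u, ⟨j, Matrix.SpecialLinearGroup.toGL_injective (by rw [map_pow, hj, map_one])⟩,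
    MonoidHom.ext fun x => ?_⟩
  rw [e, ← hy, cn_apply, ← gc_sl]
  rfl

theorem aut_comm' (φ φ' : RingAut F) : φ * φ' = φ' * φ := by
  exact H89.G2S.aut_comm φ φ'

theorem aut_inv {φ φ' : RingAut F} (h : Sg φ) (h' : Sg φ') : φ = φ' := by
  exact H89.G2S.aut_invol h.2 h.1 h'.2 h'.1

theorem sg_free {σ : RingAut F} (h : Sg σ) : ∃ ω, ω + σ ω = 1 := by
  obtain ⟨a, ha⟩ : ∃ a, σ a ≠ a := not_forall.1 fun e => h.1 (RingEquiv.ext e)
  have d : a + σ a ≠ 0 := fun e => ha (CharTwo.add_eq_zero.1 e).symm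
  exact ⟨a / (a + σ a), by rw [map_div₀, map_add, h.2, add_comm (σ a), ← add_div, div_self d]⟩

theorem sg_four {σ : RingAut F} (h : Sg σ) : 4 ≤ Nat.card F := by
  classical
  obtain ⟨ω, hω⟩ := sg_free h
  have h0 : ω ≠ 0 := by rintro rfl; simp at hω
  have h1 : ω ≠ 1 := by
    rintro rfl
    rw [map_one, CharTwo.add_self_eq_zero] at hω
    exact zero_ne_one hω
  have h2 : ω + 1 ≠ 0 := fun e => h1 (CharTwo.add_eq_zero.1 e)
  have c : ({0, 1, ω, ω + 1} : Finset F).card = 4 := by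
    rw [Finset.card_insert_of_notMem (by simp [h0.symm, h2.symm]),
      Finset.card_insert_of_notMem (by simp [h0, h1.symm]), Finset.card_pair (by simp)]
  rw [Nat.card_eq_fintype_card, ← c]
  exact Finset.card_le_univ _

end LMS
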