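import Cfsg.Agent.Lib.LMS.B5
import Cfsg.Agent.S2690

set_option autoImplicit false
set_option linter.unusedSectionVars false

namespace LMS

open Subgroup H69 Cfsg Matrix U4S
open scoped MatrixGroups commutatorElement

universe u
variable {G : Type*} [Group G] [Finite G] {F : Type u} [Field F] [CharP F 2] [Fintype F] {n : ℕ} [Ok n F]
  {ι ψ χ : XX n F →* G} {t : G} {E : Subgroup G}

local notation "X" => XX n F
local notation "I" => Fin (n + 3)
local notation "Mx" => Matrix (Fin (n + 3)) (Fin (n + 3)) F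

namespace B5b

section generic
variable {Γ R : Type*} [Group Γ] [Group R]

theorem triv (c : commutator Γ = ⊤) (f g : Γ →* R) (h : ∀ x, f x * (g x)⁻¹ ∈ center R) : f = g := by
  let d : Γ →* center R := MonoidHom.mk' (fun x => ⟨f x * (g x)⁻¹, h x⟩) fun x y => Subtype.ext (by
    have e := mem_center_iff.1 (h y) (g x)⁻¹
    change f (x * y) * (g (x * y))⁻¹ = f x * (g x)⁻¹ * (f y * (g y)⁻¹)
    rw [map_mul, map_mul, _root_.mul_inv_rev, mul_assoc (f x) (g x)⁻¹, e]; group)
  have k : commutator Γ ≤ d.ker := commutator_le.2 fun a _ b _ => by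
    rw [MonoidHom.mem_ker, map_commutatorElement, commutatorElement_eq_one_iff_mul_comm]
    exact Subtype.ext (mem_center_iff.1 (d b).2 (d a).1)
  ext x
  have : d x = 1 := k (c ▸ mem_top x)
  exact mul_inv_eq_one.1 (congrArg Subtype.val this)

theorem cen (c : commutator Γ = ⊤) (π : Γ →* R) (s : Function.Surjective π)
    (k : π.ker ≤ center Γ) (M : Γ) : π M ∈ center R ↔ M ∈ center Γ := by
  constructor
  · intro h
    have e := triv c (MulAut.conj M).toMonoidHom (MonoidHom.id Γ) fun x => k (by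
      change π (M * x * M⁻¹ * x⁻¹) = 1
      rw [map_mul, map_mul, map_mul, ← mem_center_iff.1 h (π x), map_inv, map_inv]; group)
    refine mem_center_iff.2 fun x => ?_
    have : M * x * M⁻¹ = x := DFunLike.congr_fun e x
    exact (mul_inv_eq_iff_eq_mul.1 this).symm
  · intro h
    refine mem_center_iff.2 fun y => ?_
    obtain ⟨x, rfl⟩ := s y
    rw [← map_mul, ← map_mul, mem_center_iff.1 h x]

theorem lift (c : commutator Γ = ⊤) (π b : Γ →* R) (s : Function.Surjective π)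
    (k : π.ker ≤ center Γ) (s' : Function.Surjective b) (k' : b.ker ≤ center Γ) :
    ∃ β : MulAut (Γ ⧸ center Γ), ∀ α : Γ →* Γ,
    (∀ M : Γ, β (QuotientGroup.mk M) = QuotientGroup.mk (α M)) → ∀ M, b M = π (α M) := by
  have key : ∀ ρ : Γ →* R, Function.Surjective ρ → ρ.ker ≤ center Γ →
      center Γ = ((QuotientGroup.mk' (center R)).comp ρ).ker := by
    intro ρ h1 h2
    ext M
    rw [← cen c ρ h1 h2]
    simp [MonoidHom.mem_ker]
  have sj : ∀ ρ : Γ →* R, Function.Surjective ρ →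
      Function.Surjective ((QuotientGroup.mk' (center R)).comp ρ) := fun ρ h =>
    (QuotientGroup.mk'_surjective _).comp h
  let θ := QuotientGroup.liftEquiv (center Γ) (sj b s') (key b s' k')
  let θ' := QuotientGroup.liftEquiv (center Γ) (sj π s) (key π s k)
  refine ⟨θ.trans θ'.symm, fun α h M => ?_⟩
  have e := triv c b (π.comp α) fun x => by
    have h1 : θ (QuotientGroup.mk x) = θ' (QuotientGroup.mk (α x)) := by
      rw [← h x]; simp
    have h2 : (QuotientGroup.mk (b x) : R ⧸ center R) = QuotientGroup.mk (π (α x)) := h1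
    exact (QuotientGroup.eq_iff_div_mem.1 h2 : _ / _ ∈ _) |> fun z => by rwa [div_eq_mul_inv] at z
  exact DFunLike.congr_fun e M

end generic

theorem psl (β : MulAut (X ⧸ center X)) :
    ∃ g φ ε, ∀ M : X, β (QuotientGroup.mk M) = QuotientGroup.mk (au g φ ε M) := by
  obtain ⟨a, -, hF⟩ := FiniteField.card F 2
  obtain ⟨δ, φ', γ, σ, ⟨g, hδ⟩, hφ, hγ, e⟩ := Cfsg.Agent.S2690.result (F := F) (p := 2) (f := a)
    hF a.2 (n := n + 3) (by omega) (by omega) β
  rcases hγ with rfl | hγ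
  · refine ⟨g, σ, false, fun M => ?_⟩
    rw [e, mul_one, MulAut.mul_apply, hφ M (fr σ M) rfl, hδ _ (gc g (fr σ M)) rfl]; rfl
  · refine ⟨g, σ, true, fun M => ?_⟩
    rw [e, MulAut.mul_apply, MulAut.mul_apply, hγ M (it M) rfl, hφ _ (fr σ (it M)) rfl,
      hδ _ (gc g (fr σ (it M))) rfl]; rfl

theorem gxe {g : GX n F} {i j k l : I} (hij : i ≠ j) (hkl : k ≠ l) {c d : F}
    (h : gc g (xe k l c) = xe i j d) : g.1 i k * c = d * g.1 j l ∧ ∀ m, m ≠ i → g.1 m k * c = 0 := by
  have e0 : g.1 * (xe k l c : X).1 * (g⁻¹).1 = (xe i j d : X).1 := congrArg Subtype.val h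
  have e : g.1 * (xe k l c : X).1 = (xe i j d : X).1 * g.1 := by
    rw [← e0, mul_assoc, mul_assoc, Units.inv_mul, mul_one]
  rw [LMS.xe_val hij, LMS.xe_val hkl, mul_add, add_mul, mul_one, one_mul, add_right_inj] at e
  refine ⟨?_, fun m hm => ?_⟩
  · have := congrFun (congrFun e i) l
    rwa [mul_single_apply_same, single_mul_apply_same] at this
  · have := congrFun (congrFun e m) l
    rwa [mul_single_apply_same, single_mul_apply_of_ne _ _ _ _ _ hm] at this

theorem col {g : GX n F} {i k : I} (h : ∀ m, m ≠ i → g.1 m k = 0) (m : I) :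
    (g⁻¹).1 m i * g.1 i k = (1 : Mx) m k := by
  rw [← Units.inv_mul g, mul_apply, Finset.sum_eq_single i (fun b _ hb => by rw [h b hb, mul_zero]) (by simp)]

theorem fix {g : GX n F} {φ : RingAut F} {i j k l : I} (hij : i ≠ j) (hkl : k ≠ l)
    (h : ∀ c, gc g (xe k l (φ c)) = xe i j c) : φ = 1 := by
  have h1 := gxe hij hkl (h 1)
  simp only [map_one, mul_one, one_mul] at h1
  have h2 := col h1.2 k
  rw [one_apply_eq] at h2
  have h3 : g.1 i k ≠ 0 := fun e => by simp [e] at h2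
  ext c
  have h4 := (gxe hij hkl (h c)).1
  rw [← h1.1, mul_comm c] at h4
  exact mul_left_cancel₀ h3 h4

theorem tri {g : GX n F} (h : ∀ i j : I, i < j → gc g (xe i j 1) ∈ UU n F) :
    ∃ u ∈ UU n F, ∃ d : I → Fˣ, ∀ i j c, u * gc g (xe i j c) * u⁻¹ = xe i j (d i * (d j)⁻¹ * c) := by
  have k : ∀ i j a b : I, i < j → g.1 a i ≠ 0 → (g⁻¹).1 j b ≠ 0 → a < b := by
    intro i j a b hij h1 h2
    by_contra hab
    have e := mem_UU.1 (h i j hij) a b (not_lt.1 hab)
    rw [gc_val, LMS.xe_val hij.ne, mul_add, add_mul, mul_one, Units.mul_inv, Matrix.add_apply, add_eq_left,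
      mul_apply, Finset.sum_eq_single j (fun m _ hm => by
        rw [mul_single_apply_of_ne _ _ _ _ _ hm, zero_mul]) (by simp), mul_single_apply_same, mul_one] at e
    exact mul_ne_zero h1 h2 e
  have ex : ∀ j : I, ∃ b, (g⁻¹).1 j b ≠ 0 ∧ g.1 b j ≠ 0 := by
    intro j
    have e : ((g⁻¹).1 * g.1) j j ≠ 0 := by rw [Units.inv_mul, one_apply_eq]; exact one_ne_zero
    rw [mul_apply] at e
    obtain ⟨b, -, hb⟩ := Finset.exists_ne_zero_of_sum_ne_zero e
    exact ⟨b, mul_ne_zero_iff.1 hb⟩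
  have t1 : ∀ i a : I, g.1 a i ≠ 0 → a ≤ i := by
    intro i
    induction i using Fin.reverseInduction with
    | last => exact fun a _ => Fin.le_last a
    | cast i ih =>
      intro a ha
      obtain ⟨b, h1, h2⟩ := ex i.succ
      have := (k _ _ a b Fin.castSucc_lt_succ ha h1).trans_le (ih b h2)
      exact Fin.le_castSucc_iff.2 this
  have t2 : ∀ j b : I, (g⁻¹).1 j b ≠ 0 → j ≤ b := by
    intro j
    induction j using Fin.induction with
    | zero => exact fun b _ => Fin.zero_le b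
    | succ i ih =>
      intro b hb
      obtain ⟨a, h1, h2⟩ := ex i.castSucc
      have := (ih a h1).trans_lt (k _ _ a b Fin.castSucc_lt_succ h2 hb)
      exact Fin.castSucc_lt_iff_succ_le.1 this
  have dd : ∀ i, g.1 i i * (g⁻¹).1 i i = 1 := by
    intro i
    have e : (g.1 * (g⁻¹).1) i i = 1 := by rw [Units.mul_inv, one_apply_eq]
    rwa [mul_apply, Finset.sum_eq_single i (fun b _ hb => by
      by_contra z
      exact hb (le_antisymm (t2 _ _ (right_ne_zero_of_mul z)) (t1 _ _ (left_ne_zero_of_mul z)))) (by simp)] at e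
  have ut : ∀ i j : I, j ≤ i → (diagonal (fun i => g.1 i i) * (g⁻¹).1) i j = (1 : Mx) i j := by
    intro i j hji
    rw [diagonal_mul]
    rcases hji.eq_or_lt with rfl | hlt
    · rw [dd, one_apply_eq]
    · rw [one_apply_ne hlt.ne', mul_eq_zero]
      exact Or.inr (by_contra fun z => absurd (t2 _ _ z) (not_le.2 hlt))
  have dt : (diagonal (fun i => g.1 i i) * (g⁻¹).1).det = 1 := by
    rw [det_of_upperTriangular fun i j (hji : j < i) => (ut i j hji.le).trans (one_apply_ne hji.ne')]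
    exact Finset.prod_eq_one fun i _ => (ut i i le_rfl).trans (one_apply_eq i)
  obtain ⟨u, hu⟩ : ∃ u : X, u.1 = diagonal (fun i => g.1 i i) * (g⁻¹).1 := ⟨⟨_, dt⟩, rfl⟩
  refine ⟨u, mem_UU.2 (hu ▸ ut), fun i => Units.mk0 (g.1 i i) (left_ne_zero_of_mul_eq_one (dd i)), fun i j c => ?_⟩
  by_cases hij : i = j
  · subst hij
    rw [xe_self, xe_self, map_one, mul_one, mul_inv_cancel]
  rw [mul_inv_eq_iff_eq_mul]
  refine Subtype.ext ?_
  change u.1 * (g.1 * (xe i j c : X).1 * (g⁻¹).1) = (xe i j _ : X).1 * u.1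
  rw [hu, ← mul_assoc, ← mul_assoc, ← mul_assoc, mul_assoc _ _ g.1, Units.inv_mul, mul_one, LMS.xe_val hij,
    LMS.xe_val hij]
  congr 1
  rw [mul_add, add_mul, mul_one, one_mul, add_right_inj]
  have hj : g.1 j j ≠ 0 := left_ne_zero_of_mul_eq_one (dd j)
  ext a b
  rw [diagonal_mul, mul_diagonal]
  by_cases e : i = a ∧ j = b
  · obtain ⟨rfl, rfl⟩ := e
    simp only [single_apply_same, Units.val_mk0, Units.val_inv_eq_inv_val]
    field_simp
  · rw [single_apply_of_ne _ _ _ _ _ e, single_apply_of_ne _ _ _ _ _ e, mul_zero, zero_mul]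

theorem gsl (g : GX n F) (A x : X) : gc (g * (Matrix.SpecialLinearGroup.toGL A)⁻¹) (A * x * A⁻¹) = gc g x := by
  have e : (A * x * A⁻¹).1 = (Matrix.SpecialLinearGroup.toGL A).1 * x.1 * ((Matrix.SpecialLinearGroup.toGL A)⁻¹).1 := by
    rw [← map_inv]; rfl
  refine Subtype.ext ?_
  rw [gc_val, gc_val, e, _root_.mul_inv_rev, inv_inv, Units.val_mul, Units.val_mul]
  simp only [mul_assoc, Units.inv_mul_cancel_left]

theorem ne0 : (0 : I) ≠ iL := fun h => by simpa using congrArg Fin.val h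

end B5b

theorem aut_psl {Γ : Type*} [Group Γ] {f : X →* Γ} (e : Em f) (β : X → X)
    (h1 : ∀ x y, f (β (x * y)) = f (β x) * f (β y)) (h2 : ∀ y, ∃ x, f (β x) = f y) :
    ∃ g φ ε, ∀ x, f (β x) = f (au g φ ε x) := by
  let b : X →* f.range := MonoidHom.mk' (fun x => ⟨f (β x), _, rfl⟩) fun x y => Subtype.ext (h1 x y)
  have sb : Function.Surjective b := by
    rintro ⟨_, y, rfl⟩
    obtain ⟨x, hx⟩ := h2 y
    exact ⟨x, Subtype.ext hx⟩
  rcases normal_X b.ker with k | k
  · obtain ⟨β', hβ⟩ := B5b.lift pf_X f.rangeRestrict b f.rangeRestrict_surjective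
      (by rw [MonoidHom.ker_rangeRestrict]; exact e) sb k
    obtain ⟨g, φ, ε, h⟩ := B5b.psl β'
    exact ⟨g, φ, ε, fun x => congrArg Subtype.val (hβ _ h x)⟩
  · have z : ∀ x, f (β x) = 1 := fun x => congrArg Subtype.val (show b x = 1 from (k ▸ mem_top x : x ∈ b.ker))
    refine ⟨1, 1, false, fun x => ?_⟩
    obtain ⟨y, hy⟩ := h2 (au 1 1 false x)
    rw [← hy, z, z]

theorem nc1 {g : GX n F} {φ : RingAut F} {ε : Bool} (h : ∀ c, au g φ ε (xe 0 iL c) = xe 0 iL c) : φ = 1 := by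
  cases ε
  · exact B5b.fix (g := g) B5b.ne0 B5b.ne0 fun c => by rw [← h c, au_false, LMS.fr_xe]
  · exact B5b.fix (g := g) B5b.ne0 B5b.ne0.symm fun c => by rw [← h c, au_true, it_xe, LMS.fr_xe]

theorem nc2 {g : GX n F} {φ : RingAut F} (h : au g φ true (xe 0 iL 1) = xe 0 iL 1)
    (k : au g φ true (xe 0 (Fin.rev 1) 1) = xe 0 (Fin.rev 1) 1) : False := by
  have r0 : (0 : I) ≠ Fin.rev 1 := fun h => by simpa using congrArg Fin.val h
  have rL : (Fin.rev 1 : I) ≠ iL := fun h => by simpa using congrArg Fin.val h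
  rw [au_true, it_xe, LMS.fr_xe, map_one] at h k
  have h1 := (B5b.gxe B5b.ne0 B5b.ne0.symm h).2
  have k1 := (B5b.gxe r0 r0.symm k).2
  simp only [mul_one] at h1 k1
  have a1 := B5b.col h1 iL
  have a2 := B5b.col h1 (Fin.rev 1)
  have a3 := B5b.col k1 (Fin.rev 1)
  rw [one_apply_eq] at a1 a3
  rw [one_apply_ne rL] at a2
  exact mul_ne_zero (left_ne_zero_of_mul_eq_one a3) (right_ne_zero_of_mul_eq_one a1) a2

theorem nU {g : GX n F} {φ : RingAut F} {ε : Bool} (h : ∀ x ∈ UU n F, au g φ ε x ∈ UU n F) :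
    ∃ u ∈ UU n F, Pn ((cn u).comp (au g φ ε)) φ ε := by
  have m : ∀ i j : I, i < j → (xe i j 1 : X) ∈ UU n F := fun i j hij => subset_closure ⟨i, j, 1, hij, rfl⟩
  cases ε
  · obtain ⟨u, hu, d, hd⟩ := B5b.tri (g := g) fun i j hij => by
      have := h _ (m i j hij)
      rwa [au_false, LMS.fr_xe, map_one] at this
    refine ⟨u, hu, d, fun i j c => ?_⟩
    rw [MonoidHom.comp_apply, cn_apply, au_false, LMS.fr_xe, hd]; rfl
  · have e : ∀ i j c, au g φ true (xe i j c) =
        gc (g * (Matrix.SpecialLinearGroup.toGL (pmL Fin.revPerm : X))⁻¹) (xe j.rev i.rev (φ c)) := by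
      intro i j c
      have e1 : (xe j.rev i.rev (φ c) : X) = _ := (pm_xe Fin.revPerm j i (φ c)).symm
      rw [au_true, it_xe, LMS.fr_xe, e1, B5b.gsl]
    obtain ⟨u, hu, d, hd⟩ := B5b.tri (g := g * (Matrix.SpecialLinearGroup.toGL (pmL Fin.revPerm : X))⁻¹)
      fun i j hij => by
      have := h _ (m j.rev i.rev (Fin.rev_lt_rev.2 hij))
      rwa [e, map_one, Fin.rev_rev, Fin.rev_rev] at this
    refine ⟨u, hu, fun i => (d i.rev)⁻¹, fun i j c => ?_⟩
    rw [MonoidHom.comp_apply, cn_apply, e, hd, if_pos rfl]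
    simp only [Units.val_inv_eq_inv_val, inv_inv]
    rw [mul_comm (d j.rev : F)]

end LMS
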