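import Cfsg.Agent.Lib.LMS.B5b

set_option autoImplicit false
set_option linter.unusedSectionVars false
set_option linter.unusedVariables false

namespace LMS

open Subgroup H69 Cfsg Matrix U4S
open scoped MatrixGroups commutatorElement

universe u
variable {G : Type*} [Group G] [Finite G] {F : Type u} [Field F] [CharP F 2] [Fintype F] {n : ℕ} [Ok n F]
  {ι ψ χ : XX n F →* G} {t : G} {E : Subgroup G}

local notation "X" => XX n F
local notation "I" => Fin (n + 3)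
local notation "Mx" => Matrix (Fin (n + 3)) (Fin (n + 3)) F

theorem Em.inj2 (e : Em ι) {x y : X} (hx : P2 x) (hy : P2 y) (h : ι x = ι y) : x = y := by
  have z : x * y⁻¹ ∈ center X := e (by rw [MonoidHom.mem_ker, map_mul, map_inv, h, mul_inv_cancel])
  have c : Commute x y⁻¹ := by
    have := mem_center_iff.1 z y⁻¹
    exact (mul_right_cancel (b := y⁻¹) (by rw [mul_assoc y⁻¹, this])).symm
  obtain ⟨a, ha⟩ := hx
  obtain ⟨b, hb⟩ := hy
  refine mul_inv_eq_one.1 (cen_two z ⟨a + b, ?_⟩)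
  rw [c.mul_pow, inv_pow, pow_add, pow_mul, ha, mul_comm (2 ^ a), pow_mul, hb, one_pow, one_pow, inv_one,
    mul_one]

theorem Act.uniq (e : Em ι) {a : G} {α β : X →* X} (h : Act ι a α) (k : Act ι a β) : α = β :=
  ext_xe fun i j c => e.inj2 (P2.of_sq (by rw [← map_mul, xe_sq, map_one]))
    (P2.of_sq (by rw [← map_mul, xe_sq, map_one])) ((h _).symm.trans (k _))

theorem Act.self (u : X) : Act ι (ι u) (cn u) := fun x => by
  rw [cn_apply, map_mul, map_mul, map_inv]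

theorem Em.cen (e : Em ι) {x : X} : ι x ∈ 𝐂(ι.range) ↔ x ∈ center _ := by
  constructor
  · intro h
    have k : Act ι (ι x) (MonoidHom.id _) := fun y => by
      rw [← h (ι y) ⟨y, rfl⟩, mul_inv_cancel_right]; rfl
    refine mem_center_iff.2 fun y => ?_
    have := DFunLike.congr_fun ((Act.self x).uniq e k) y
    exact (mul_inv_eq_iff_eq_mul.1 this).symm
  · rintro h _ ⟨y, rfl⟩
    rw [← map_mul, ← map_mul, mem_center_iff.1 h y]

theorem Em.lift2 (e : Em ι) {a : G} (h : a ∈ ι.range) (p : P2 a) : ∃ y, P2 y ∧ ι y = a := by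
  obtain ⟨x, rfl⟩ := h
  exact B5.odd_lift ι x p

theorem Em.lifti (e : Em ι) {a : G} (h : a ∈ ι.range) (p : a * a = 1) : ∃ y, y * y = 1 ∧ ι y = a := by
  obtain ⟨y, ⟨j, hj⟩, rfl⟩ := e.lift2 h (P2.of_sq p)
  refine ⟨y, e.inj2 ⟨j, ?_⟩ ⟨0, one_pow _⟩ (by rw [map_mul, p, map_one]), rfl⟩
  rw [← sq, ← pow_mul, mul_comm, pow_mul, hj, one_pow]

theorem Em.card2 (e : Em ι) {W : Subgroup X} (h : IsPGroup 2 W) : Nat.card (W.map ι) = Nat.card W :=
  Nat.card_image_of_injOn (f := ι) (s := (W : Set X)) fun _ hx _ hy k =>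
    e.inj2 (P2.of_mem h hx) (P2.of_mem h hy) k

theorem Em.comm2 (e : Em ι) {x y : X} (hx : P2 x) (h : ι x * ι y = ι y * ι x) : x * y = y * x :=
  (mul_inv_eq_iff_eq_mul.1 (e.inj2 (hx.cjg y) hx (by
    rw [map_mul, map_mul, map_inv, ← h, mul_inv_cancel_right]))).symm

theorem Em.cc (e : Em ι) {a : G} (h : a ∈ ι.range) (c : a ∈ 𝐂(ι.range)) : Odd (orderOf a) := by
  obtain ⟨x, rfl⟩ := h
  exact cen_odd.of_dvd_nat ((orderOf_map_dvd ι x).trans (orderOf_dvd_natCard _ (e.cen.1 c)))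

theorem Em.sylU (e : Em ι) : IsSylowIn 2 ((UU n F).map ι) ι.range := by
  rw [MonoidHom.range_eq_map]
  exact (_root_.LMS.sylU (n := n) (F := F)).map ι

theorem Em.cj (e : Em ι) (g : G) : Em (cι ι g) := fun x hx => e (by
  have : g * ι x * g⁻¹ = 1 := hx
  rw [MonoidHom.mem_ker]
  simpa using this)

theorem range_cι (g : G) : (cι ι g).range = ι.range ^ᶜ g := range_cj g

theorem Em.comp (e : Em ι) {α : X →* X} (h : Function.Bijective α) : Em (ι.comp α) ∧ (ι.comp α).range = ι.range := by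
  refine ⟨fun x hx => mem_center_iff.2 fun y => h.1 ?_, le_antisymm ?_ ?_⟩
  · rw [map_mul, map_mul]
    exact mem_center_iff.1 (e (show α x ∈ ι.ker from hx)) _
  · rintro _ ⟨x, rfl⟩
    exact ⟨α x, rfl⟩
  · rintro _ ⟨y, rfl⟩
    obtain ⟨x, rfl⟩ := h.2 y
    exact ⟨x, rfl⟩

theorem Em.range_eq (e : Em ι) (e' : Em ψ) (h : ψ.range ≤ ι.range) : ψ.range = ι.range := by
  choose β hβ using fun x : X => h ⟨x, rfl⟩
  let θ : X →* X ⧸ center X := MonoidHom.mk' (fun x => (β x : X ⧸ center X)) fun x y => by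
    rw [← QuotientGroup.mk_mul, QuotientGroup.eq]
    refine e ?_
    rw [MonoidHom.mem_ker, map_mul, map_inv, map_mul, hβ, hβ, hβ, map_mul, inv_mul_cancel]
  have hk : θ.ker ≤ center X := fun x hx => e'.cen.1 (by
    rw [← hβ]
    exact centralizer_le h (e.cen.2 ((QuotientGroup.eq_one_iff _).1 hx)))
  have ht : θ.range = ⊤ := by
    refine eq_top_of_le_card _ ?_
    rw [← index_ker]
    exact Nat.le_of_dvd (Nat.pos_of_ne_zero index_ne_zero_of_finite) (index_dvd_of_le hk)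
  have hs : ∀ y : X, ∃ x, ∃ z ∈ center X, y = β x * z := fun y => by
    obtain ⟨x, hx⟩ := ht.ge (mem_top (y : X ⧸ center X))
    exact ⟨x, _, QuotientGroup.eq.1 hx, (mul_inv_cancel_left _ _).symm⟩
  have hc : ∀ a b z : X, z ∈ center X → ⁅a * z, b⁆ = ⁅a, b⁆ := fun a b z hz => by
    rw [commutatorElement_def, commutatorElement_def, _root_.mul_inv_rev, mul_assoc a z b,
      ← mem_center_iff.1 hz b]
    group
  have hp : commutator X ≤ ψ.range.comap ι := commutator_le.2 fun a _ b _ => by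
    obtain ⟨x, z, hz, rfl⟩ := hs a
    obtain ⟨y, w, hw, rfl⟩ := hs b
    rw [hc _ _ _ hz, ← commutatorElement_inv, hc _ _ _ hw, commutatorElement_inv]
    exact ⟨⁅x, y⁆, by rw [map_commutatorElement, map_commutatorElement, hβ, hβ]⟩
  refine le_antisymm h ?_
  rintro _ ⟨y, rfl⟩
  exact hp (pf_X.ge (mem_top y))

theorem Em.act (e : Em ι) {a : G} (h : a ∈ 𝐍(ι.range)) : ∃ g φ ε, Act ι a (au g φ ε) := by
  choose β hβ using fun x : X => (mem_normalizer_iff.1 h (ι x)).1 ⟨x, rfl⟩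
  obtain ⟨g, φ, ε, k⟩ := aut_psl e β (fun x y => by rw [hβ, hβ, hβ, map_mul]; group) fun y => by
    obtain ⟨x, hx⟩ := (mem_normalizer_iff.1 (inv_mem h) (ι y)).1 ⟨y, rfl⟩
    exact ⟨x, by rw [hβ, hx]; group⟩
  exact ⟨g, φ, ε, fun x => (hβ x).symm.trans (k x)⟩

theorem Act.mul {a b : G} {α β : X →* X} (h : Act ι a α) (k : Act ι b β) : Act ι (a * b) (α.comp β) :=
  fun x => by rw [MonoidHom.comp_apply, ← h, ← k]; group

theorem Act.mem {a : G} {g : GX n F} {φ : RingAut F} {ε : Bool} (h : Act ι a (au g φ ε)) : a ∈ 𝐍(ι.range) :=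
  mem_normalizer_fintype (by
    rintro _ ⟨x, rfl⟩
    exact ⟨_, (h x).symm⟩)

theorem Act.fix {a : G} {α : X →* X} (h : Act ι a α) {x : X} (k : α x = x) : a * ι x = ι x * a :=
  mul_inv_eq_iff_eq_mul.1 (by rw [h, k])

theorem Act.fix' (e : Em ι) {a : G} {α : X →* X} (h : Act ι a α) {x : X} (p : P2 x) (k : a * ι x = ι x * a) : α x = x := by
  obtain ⟨j, hj⟩ := p
  exact e.inj2 ⟨j, by rw [← map_pow, hj, map_one]⟩ ⟨j, hj⟩ (by rw [← h, k, mul_inv_cancel_right])

theorem Act.tw {a : G} {α : X →* X} (h : Act ι a α) {y : X} (k : Tw α y) : ∃ x, ι x * a * (ι x)⁻¹ = ι y * a := by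
  obtain ⟨x, rfl⟩ := k
  exact ⟨x, by rw [map_mul, map_inv, ← h]; group⟩

end LMS
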