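import Cfsg.Agent.Lib.LMS.B6

set_option autoImplicit false
set_option linter.unusedSectionVars false

namespace LMS

open Subgroup H69 Cfsg Matrix U4S
open scoped MatrixGroups commutatorElement

universe u
variable {G : Type*} [Group G] [Finite G] {F : Type u} [Field F] [CharP F 2] [Fintype F] {n : ℕ} [Ok n F]
  {ι ψ χ : XX n F →* G} {t : G} {E : Subgroup G}

local notation "X" => XX n F
local notation "I" => Fin (n + 3)
local notation "Mx" => Matrix (Fin (n + 3)) (Fin (n + 3)) F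

namespace B6b

theorem au1 (g : GX n F) (x : X) : au g 1 false x = gc g x := by
  have : fr (1 : RingAut F) x = x := Subtype.ext (by ext i j; rfl)
  rw [au_false, this]

theorem typ (e : Em ι) {a : G} {g g' : GX n F} {φ φ' : RingAut F} {ε ε' : Bool} (h : Act ι a (au g φ ε))
    (k : Act ι a (au g' φ' ε')) : φ = φ' ∧ ε = ε' := au_uniq (Act.uniq e h k)

theorem amul {a b : G} {g g' : GX n F} {φ φ' : RingAut F} {ε ε' : Bool} (h : Act ι a (au g φ ε))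
    (k : Act ι b (au g' φ' ε')) : ∃ g'', Act ι (a * b) (au g'' (φ * φ') (xor ε ε')) := by
  obtain ⟨g'', e⟩ := au_comp g g' φ φ' ε ε'
  exact ⟨g'', e ▸ h.mul k⟩

theorem aid : Act ι 1 (MonoidHom.id X) := fun x => by simp

theorem aone : ∃ g, Act ι 1 (au g 1 false) := by
  obtain ⟨g, e⟩ := cn_au (1 : X)
  exact ⟨g, e ▸ (map_one ι) ▸ Act.self (ι := ι) 1⟩

theorem ainv (e : Em ι) {a : G} {g : GX n F} {φ : RingAut F} {ε : Bool} (h : Act ι a (au g φ ε)) :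
    ∃ g', Act ι a⁻¹ (au g' φ⁻¹ ε) := by
  obtain ⟨g', φ', ε', k⟩ := e.act (inv_mem h.mem)
  obtain ⟨g1, h1⟩ := amul h k
  obtain ⟨g0, h0⟩ := aone (ι := ι)
  rw [mul_inv_cancel] at h1
  obtain ⟨e1, e2⟩ := typ e h1 h0
  have e3 : ε' = ε := by cases ε <;> cases ε' <;> simp_all
  exact ⟨g', by rwa [← eq_inv_of_mul_eq_one_right e1, ← e3]⟩

theorem apow {a : G} {α : X →* X} (h : Act ι a α) (m : ℕ) :
    ∃ β : X →* X, Act ι (a ^ m) β ∧ ∀ x, β x = α^[m] x := by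
  induction m with
  | zero => exact ⟨MonoidHom.id _, by rw [pow_zero]; exact aid, fun x => rfl⟩
  | succ m ih =>
    obtain ⟨β, h1, h2⟩ := ih
    exact ⟨β.comp α, by rw [pow_succ]; exact h1.mul h, fun x => by
      rw [MonoidHom.comp_apply, h2, Function.iterate_succ_apply]⟩

theorem dec (e : Em ι) {a : G} (h : Inn ι.range a) {j : ℕ} (p : a ^ 2 ^ j = 1) :
    ∃ u k, u ^ 2 ^ j = 1 ∧ k ^ 2 ^ j = 1 ∧ k ∈ 𝐂(ι.range) ∧ a = k * ι u := by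
  obtain ⟨_, ⟨u, rfl⟩, k, hk, rfl⟩ := h
  have c : Commute k (ι u) := (hk _ ⟨u, rfl⟩).symm
  have hc : u ^ 2 ^ j ∈ center X := by
    refine e.cen.1 ?_
    rw [c.mul_pow] at p
    rw [map_pow, eq_inv_of_mul_eq_one_right p]
    exact inv_mem (pow_mem hk _)
  have h1 : (u ^ 2 ^ j) ^ Nat.card (center X) = 1 := by
    have := pow_card_eq_one' (x := (⟨_, hc⟩ : center X))
    exact congrArg Subtype.val this
  have h2 : (Nat.card (center X)).Coprime (orderOf (k * ι u)) :=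
    Nat.Coprime.coprime_dvd_right (orderOf_dvd_of_pow_eq_one p)
      (Nat.Coprime.pow_right j (Nat.coprime_two_right.2 cen_odd))
  obtain ⟨m, hm⟩ := exists_pow_eq_self_of_coprime h2
  have h3 : ((u ^ Nat.card (center X)) ^ m) ^ 2 ^ j = 1 := by
    rw [← pow_mul, ← pow_mul, mul_comm, mul_comm m, pow_mul, pow_mul, ← pow_mul u, ← pow_mul u,
      show 2 ^ j * m * Nat.card (center X) = 2 ^ j * Nat.card (center X) * m by ring, pow_mul, pow_mul, h1,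
      one_pow]
  have h4 : k * ι u = (k ^ Nat.card (center X)) ^ m * ι ((u ^ Nat.card (center X)) ^ m) := by
    rw [map_pow, map_pow, ← ((c.pow_pow _ _)).mul_pow, ← c.mul_pow, hm]
  refine ⟨_, _, h3, ?_, pow_mem (pow_mem hk _) _, h4⟩
  have c' : Commute ((k ^ Nat.card (center X)) ^ m) (ι ((u ^ Nat.card (center X)) ^ m)) := by
    rw [map_pow, map_pow]; exact (c.pow_pow _ _).pow_pow _ _
  rwa [h4, c'.mul_pow, ← map_pow, h3, map_one, mul_one] at p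

end B6b

open B6b

theorem inn_act {a : G} : Inn ι.range a ↔ ∃ u, Act ι a (cn u) := by
  constructor
  · rintro ⟨_, ⟨u, rfl⟩, k, hk, rfl⟩
    refine ⟨u, fun x => ?_⟩
    have := hk (ι (cn u x)) ⟨_, rfl⟩
    calc _ = k * ι (cn u x) * k⁻¹ := by rw [cn_apply, map_mul, map_mul, map_inv]; group
      _ = _ := by rw [← this, mul_inv_cancel_right]
  · rintro ⟨u, h⟩
    refine ⟨ι u, ⟨u, rfl⟩, a * (ι u)⁻¹, ?_, by group⟩
    rintro _ ⟨x, rfl⟩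
    have := h (u⁻¹ * x * u)
    rw [cn_apply, show u * (u⁻¹ * x * u) * u⁻¹ = x by group, map_mul, map_mul, map_inv] at this
    calc _ = a * ((ι u)⁻¹ * ι x * ι u) * a⁻¹ * (a * (ι u)⁻¹) := by rw [this]
      _ = _ := by group

theorem Em.dg_comm (e : Em ι) {a b : G} (ha : a ∈ 𝐍(ι.range)) (hb : b ∈ 𝐍(ι.range)) : Dg ι ⁅a, b⁆ := by
  obtain ⟨g, φ, ε, h⟩ := e.act ha
  obtain ⟨g', φ', ε', k⟩ := e.act hb
  obtain ⟨g1, h1⟩ := ainv e h
  obtain ⟨g2, h2⟩ := ainv e k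
  obtain ⟨g3, h3⟩ := amul h k
  obtain ⟨g4, h4⟩ := amul h3 h1
  obtain ⟨g5, h5⟩ := amul h4 h2
  have e1 : φ * φ' * φ⁻¹ * φ'⁻¹ = 1 := by rw [aut_comm' φ φ']; group
  have e2 : xor (xor (xor ε ε') ε) ε' = false := by cases ε <;> cases ε' <;> rfl
  rw [e1, e2] at h5
  exact ⟨g5, h5⟩

theorem Em.sub_dg (e : Em ι) : ∃ K : Subgroup G, (∀ a, a ∈ K ↔ Dg ι a) ∧ ⁅𝐍(ι.range), 𝐍(ι.range)⁆ ≤ K := by
  refine ⟨⟨⟨⟨{a | Dg ι a}, ?_⟩, aone⟩, ?_⟩, fun a => Iff.rfl, commutator_le.2 fun a ha b hb => e.dg_comm ha hb⟩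
  · rintro a b ⟨g, h⟩ ⟨g', k⟩
    obtain ⟨g1, h1⟩ := amul h k
    rw [mul_one] at h1
    exact ⟨g1, h1⟩
  · rintro a ⟨g, h⟩
    obtain ⟨g1, h1⟩ := ainv e h
    rw [inv_one] at h1
    exact ⟨g1, h1⟩

theorem Dg.comm {a b : G} (ha : Dg ι a) (hb : Dg ι b) : Inn ι.range ⁅a, b⁆ := by
  obtain ⟨g, h⟩ := ha
  obtain ⟨g', k⟩ := hb
  obtain ⟨u, hu⟩ := au_comm g g'
  refine inn_act.2 ⟨u, fun y => ?_⟩
  obtain ⟨x, rfl⟩ := ((gc g).trans (gc g')).surjective y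
  have e1 := (h.mul k) x
  have e2 := (k.mul h) x
  rw [MonoidHom.comp_apply, au1, au1] at e1 e2
  rw [MulEquiv.trans_apply, cn_apply, ← hu, ← e1, ← e2, commutatorElement_def]
  group

theorem Dg.inn (e : Em ι) {a : G} (ha : Dg ι a) (p : P2 a) : Inn ι.range a := by
  obtain ⟨g, h⟩ := ha
  obtain ⟨j, p⟩ := p
  obtain ⟨β, h1, h2⟩ := apow h (2 ^ j)
  rw [p] at h1
  have e1 := Act.uniq e h1 aid
  obtain ⟨u, -, hu⟩ := au_two (g := g) (k := j) fun x => by rw [← h2, e1]; rfl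
  exact inn_act.2 ⟨u, hu ▸ h⟩

theorem Dg.of_inn {a : G} (h : Inn ι.range a) : Dg ι a := by
  obtain ⟨u, h⟩ := inn_act.1 h
  obtain ⟨g, e⟩ := cn_au u
  exact ⟨g, e ▸ h⟩

theorem Em.dec2 (e : Em ι) {a : G} (h : Inn ι.range a) (p : P2 a) :
    ∃ u k, P2 u ∧ P2 k ∧ k ∈ 𝐂(ι.range) ∧ a = k * ι u := by
  obtain ⟨j, p⟩ := p
  obtain ⟨u, k, h1, h2, h3, h4⟩ := dec e h p
  exact ⟨u, k, ⟨j, h1⟩, ⟨j, h2⟩, h3, h4⟩

theorem Em.deci (e : Em ι) {a : G} (h : Inn ι.range a) (p : a * a = 1) :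
    ∃ u k, u * u = 1 ∧ k * k = 1 ∧ k ∈ 𝐂(ι.range) ∧ a = k * ι u := by
  obtain ⟨u, k, h1, h2, h3, h4⟩ := dec e h (j := 1) (by rwa [pow_one, sq])
  rw [pow_one, sq] at h1 h2
  exact ⟨u, k, h1, h2, h3, h4⟩

theorem Em.comm_inn (e : Em ι) {P : Subgroup G} (h : P ≤ 𝐍(ι.range)) {a : G} (ha : a ∈ ⁅P, P⁆) (p : P2 a) :
    Inn ι.range a := by
  obtain ⟨K, h1, h2⟩ := e.sub_dg
  exact Dg.inn e ((h1 a).1 (h2 (commutator_mono h h ha))) p

theorem Em.ng_mul (e : Em ι) {a b : G} (ha : a ∈ 𝐍(ι.range)) (hb : b ∈ 𝐍(ι.range)) (h : ¬ NG ι a) (k : ¬ NG ι b) :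
    NG ι (a * b) := by
  obtain ⟨g, φ, ε, h1⟩ := e.act ha
  obtain ⟨g', φ', ε', k1⟩ := e.act hb
  cases ε
  · exact absurd ⟨g, φ, h1⟩ h
  cases ε'
  · exact absurd ⟨g', φ', k1⟩ k
  obtain ⟨g1, h2⟩ := amul h1 k1
  exact ⟨g1, _, h2⟩

theorem Em.ou (e : Em ι) {a : G} (ha : a ∈ 𝐍(ι.range)) (p : a * a = 1) (o : ¬ Inn ι.range a) :
    ∃ g φ ε, Act ι a (au g φ ε) ∧ Ou g φ ε := by
  obtain ⟨g, φ, ε, h⟩ := e.act ha
  refine ⟨g, φ, ε, h, fun x => ?_, fun c => ?_, ?_⟩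
  · have h1 := h.mul h
    rw [p] at h1
    exact DFunLike.congr_fun (Act.uniq e h1 aid) x
  · obtain ⟨g1, h1⟩ := amul h h
    obtain ⟨g0, h0⟩ := aone (ι := ι)
    rw [p] at h1
    exact DFunLike.congr_fun (typ e h1 h0).1 c
  · by_contra hn
    rw [not_or, not_not, Bool.not_eq_true] at hn
    obtain ⟨rfl, rfl⟩ := hn
    exact o (Dg.inn e ⟨g, h⟩ (P2.of_sq p))

theorem Em.lg_mul (e : Em ι) {a b : G} (ha : LG ι a) (hb : LG ι b) : Dg ι (a * b) := by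
  obtain ⟨g, h⟩ := ha
  obtain ⟨g', k⟩ := hb
  obtain ⟨g1, h1⟩ := amul h k
  rw [mul_one] at h1
  exact ⟨g1, h1⟩

theorem Act.cj {a : G} {α : X →* X} (h : Act ι a α) (g : G) : Act (cι ι g) (g * a * g⁻¹) α := fun x => by
  rw [cι_apply, cι_apply, ← h x]; group

end LMS
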