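import Cfsg.Agent.Lib.LMS.B3
import Cfsg.Agent.Lib.LMS.B6b

set_option autoImplicit false
set_option linter.unusedSectionVars false

namespace LMS

open Subgroup H69 Cfsg Matrix U4S
open scoped MatrixGroups commutatorElement

universe u
variable {G : Type*} [Group G] [Finite G] {F : Type u} [Field F] [CharP F 2] [Fintype F] {n : ℕ} [Ok n F]
  {ι ψ χ : XX n F →* G} {t : G} {E : Subgroup G}

local notation "X" => XX n F
local notation "I" => Fin (n + 3)
local notation "Mx" => Matrix (Fin (n + 3)) (Fin (n + 3)) F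

namespace CE

theorem eqx {g : GX n F} {p q : I} (hpq : p ≠ q) {u : F} {x : X} {N : Mx} (hx : x.1 = 1 + N)
    (h : gc g (xe p q u) = x) : g.1 * single p q u = N * g.1 := by
  have : g.1 * (xe p q u : X).1 = x.1 * g.1 := by
    rw [← h, gc_val, mul_assoc, Units.inv_mul, mul_one]
  rw [xe_val hpq, hx, mul_add, add_mul, mul_one, one_mul] at this
  exact add_left_cancel this

theorem col {g : GX n F} {i p : I} (h : ∀ a, a ≠ i → g.1 a p = 0) (r : I) :
    (1 : Mx) r p = (g⁻¹).1 r i * g.1 i p := by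
  rw [← Units.inv_mul g, mul_apply,
    Finset.sum_eq_single i (fun a _ ha => by rw [h a ha, mul_zero]) (by simp)]

theorem two_col {g : GX n F} {i p p' : I} (hp : p ≠ p') (h : ∀ a, a ≠ i → g.1 a p = 0)
    (h' : ∀ a, a ≠ i → g.1 a p' = 0) : False := by
  have e1 := col h p
  have e2 := col h' p'
  have e3 := col h' p
  rw [one_apply_eq] at e1 e2
  rw [one_apply_ne hp] at e3
  rcases mul_eq_zero.1 e3.symm with e | e
  · rw [e, zero_mul] at e1; exact one_ne_zero e1
  · rw [e, mul_zero] at e2; exact one_ne_zero e2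

theorem diag_ne {g : GX n F} {i : I} (h : ∀ a, a ≠ i → g.1 a i = 0) : g.1 i i ≠ 0 := fun z => by
  have := col h i
  rw [z, mul_zero, one_apply_eq] at this
  exact one_ne_zero this

theorem colz {M N : Mx} {i p q : I} (h : M * single p q 1 = N * M)
    (hN : ∀ a, a ≠ i → ∀ b, (N * M) a b = 0) : ∀ a, a ≠ i → M a p = 0 := fun a ha => by
  have := congrFun (congrFun h a) q
  rwa [mul_single_apply_same, mul_one, hN a ha] at this

theorem rowz (M : Mx) (i l : I) (c : F) : ∀ a, a ≠ i → ∀ b, (single i l c * M) a b = 0 :=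
  fun _ ha _ => single_mul_apply_of_ne _ _ _ _ _ ha _

theorem fin {a : G} {g : GX n F} (h : Act ι a (au g 1 false)) {y : X} {l : F}
    (e : y.1 = l • g.1) : ∃ k ∈ 𝐂(ι.range), a = k * ι y := by
  have key : ∀ M : X, au g 1 false M = y * M * y⁻¹ := by
    intro M
    rw [au_false, show fr (1 : RingAut F) M = M from Subtype.ext (Matrix.ext fun _ _ => rfl),
      eq_mul_inv_iff_mul_eq]
    apply Subtype.ext
    change (gc g M).1 * y.1 = y.1 * M.1
    rw [gc_val, e, Matrix.mul_smul, Matrix.smul_mul, mul_assoc, Units.inv_mul, mul_one]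
  refine ⟨a * (ι y)⁻¹, mem_centralizer_iff.2 ?_, by rw [inv_mul_cancel_right]⟩
  rintro _ ⟨w, rfl⟩
  have := h (y⁻¹ * w * y)
  rw [key] at this
  simp only [map_mul, map_inv] at this
  calc ι w * (a * (ι y)⁻¹) = (ι y * ((ι y)⁻¹ * ι w * ι y) * (ι y)⁻¹) * (a * (ι y)⁻¹) := by group
    _ = a * (ι y)⁻¹ * ι w := by rw [← this]; group

end CE

open CE

theorem cA (e : Em ι) {a : G} (ha : a ∈ 𝐍(ι.range)) {i : I} (h : Cn ι (AA F i) a) :
    ∃ x ∈ AA F i, ∃ k ∈ 𝐂(ι.range), a = k * ι x := by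
  obtain ⟨g, φ, ε, A⟩ := e.act ha
  have fx : ∀ l c, au g φ ε (xe i l c) = xe i l c := fun l c =>
    A.fix' e (P2.of_sq (xe_sq _ _ _)) (h _ (subset_closure ⟨l, c, rfl⟩))
  obtain ⟨l0, hl0, -⟩ := ex_third i i
  cases ε with
  | true =>
    obtain ⟨l', hl', hll⟩ := ex_third i l0
    have k : ∀ l, l ≠ i → ∀ a, a ≠ i → g.1 a l = 0 := fun l hl =>
      colz (q := i) (eqx hl (xe_val hl.symm 1) (by
        have := fx l 1
        rwa [au_true, it_xe, fr_xe, map_one] at this)) (rowz _ _ _ _)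
    exact (two_col hll (k l' hl') (k l0 hl0)).elim
  | false =>
    have k : ∀ l, l ≠ i → ∀ c, g.1 * single i l (φ c) = single i l c * g.1 := fun l hl c =>
      eqx hl.symm (xe_val hl.symm c) (by
        have := fx l c
        rwa [au_false, fr_xe] at this)
    have c0 : ∀ a, a ≠ i → g.1 a i = 0 := colz (by
      have := k l0 hl0 1
      rwa [map_one] at this) (rowz _ _ _ _)
    have ne := diag_ne c0
    have dd : ∀ l, l ≠ i → ∀ c, g.1 i i * φ c = c * g.1 l l := fun l hl c => by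
      have := congrFun (congrFun (k l hl c) i) l
      rwa [mul_single_apply_same, single_mul_apply_same] at this
    have d1 : ∀ l, l ≠ i → g.1 l l = g.1 i i := fun l hl => by
      have := dd l hl 1
      rw [map_one, mul_one, one_mul] at this
      exact this.symm
    have r0 : ∀ l, l ≠ i → ∀ b, b ≠ l → g.1 l b = 0 := fun l hl b hb => by
      have := congrFun (congrFun (k l hl 1) i) b
      rw [mul_single_apply_of_ne _ _ _ _ _ hb, single_mul_apply_same, one_mul] at this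
      exact this.symm
    have φ1 : φ = 1 := RingEquiv.ext fun c => by
      have := dd l0 hl0 c
      rw [d1 l0 hl0, mul_comm c] at this
      exact mul_left_cancel₀ ne this
    subst φ1
    have ent : ∀ a b : I, a ≠ i → ((g.1 i i)⁻¹ • g.1) a b = (1 : Mx) a b := by
      intro a b ha
      rw [Matrix.smul_apply, smul_eq_mul]
      by_cases hb : b = a
      · rw [hb, d1 _ ha, inv_mul_cancel₀ ne, one_apply_eq]
      · rw [r0 a ha b hb, mul_zero, one_apply_ne (Ne.symm hb)]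
    have det : ((g.1 i i)⁻¹ • g.1).det = 1 := by
      have : (g.1 i i)⁻¹ • g.1 = (1 : Mx).updateRow i (((g.1 i i)⁻¹ • g.1) i) := by
        ext a b
        by_cases ha : a = i
        · rw [ha, updateRow_self]
        · rw [updateRow_ne ha, ent a b ha]
      rw [this, ← cramer_transpose_apply, transpose_one, cramer_one, Module.End.one_apply, Matrix.smul_apply,
        smul_eq_mul, inv_mul_cancel₀ ne]
    exact ⟨⟨_, det⟩, mem_AA.2 ent, fin A rfl⟩

theorem cQ (e : Em ι) {a : G} (ha : a ∈ 𝐍(ι.range)) {i j : I} (hij : i ≠ j) (h : Cn ι (QQ F i j) a) :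
    ∃ c, ∃ k ∈ 𝐂(ι.range), a = k * ι (xe i j c) := by
  obtain ⟨x, hx, k, hk, rfl⟩ := cA e ha (i := i) fun y hy =>
    h y (Subgroup.closure_mono (by rintro y ⟨l, c, e⟩; exact ⟨l, c, Or.inl e⟩) hy)
  have cm : ∀ l, xe l j 1 * x = x * xe l j 1 := fun l => e.comm2 (P2.of_sq (xe_sq _ _ _)) (by
    have := h (xe l j 1) (subset_closure ⟨l, 1, Or.inr rfl⟩)
    have hk' := mem_centralizer_iff.1 hk _ ⟨xe l j 1, rfl⟩
    rw [← mul_assoc, hk', mul_assoc, mul_assoc] at this
    exact (mul_left_cancel this).symm)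
  have m : ∀ l, l ≠ j → x.1 * single l j 1 = single l j 1 * x.1 := fun l hl => by
    have := congrArg Subtype.val (cm l)
    change (xe l j 1 : X).1 * x.1 = x.1 * (xe l j 1 : X).1 at this
    rw [xe_val hl, add_mul, mul_add, one_mul, mul_one] at this
    exact (add_left_cancel this).symm
  refine ⟨x.1 i j, k, hk, ?_⟩
  congr 2
  apply Subtype.ext
  rw [xe_val hij]
  ext a b
  rw [Matrix.add_apply]
  by_cases ha : a = i
  · rw [ha]
    by_cases hb : b = j
    · rw [hb, single_apply_same, one_apply_ne hij, zero_add]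
    · rw [single_apply_of_col_ne _ _ (Ne.symm hb), add_zero]
      by_cases hab : i = b
      · have := congrFun (congrFun (m i hij) i) j
        rw [mul_single_apply_same, single_mul_apply_same, mul_one, one_mul,
          mem_AA.1 hx j j hij.symm, one_apply_eq] at this
        rw [← hab, this, one_apply_eq]
      · rw [colz (m b hb) (rowz _ _ _ _) i hab, one_apply_ne hab]
  · rw [mem_AA.1 hx a b ha, single_apply_of_row_ne (Ne.symm ha), add_zero]

theorem cQb (e : Em ι) {a : G} (ha : a ∈ 𝐍(ι.range)) (h : Cn ι (RR F 0 iL) a)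
    (k : ∀ x ∈ QQ F 0 iL, ∃ c, a * ι x * a⁻¹ = ι x * ι (xe 0 iL c)) :
    ∃ x ∈ QQ F 0 iL, ∃ k ∈ 𝐂(ι.range), a = k * ι x := by
  obtain ⟨g, φ, ε, A⟩ := e.act ha
  have n0 : (0 : I) ≠ iL := Fin.last_pos.ne
  have fx : ∀ c, au g φ ε (xe 0 iL c) = xe 0 iL c := fun c =>
    A.fix' e (P2.of_sq (xe_sq _ _ _)) (h _ (mem_RR.2 ⟨c, rfl⟩))
  obtain rfl := nc1 fx
  have fq : ∀ j : I, j ≠ 0 → j ≠ iL →
      ∃ c, (au g 1 ε (xe 0 j 1)).1 = 1 + (single 0 j 1 + single 0 iL c) := by
    intro j h0 hL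
    have q : (xe 0 j 1 : X) ∈ QQ F 0 iL := subset_closure ⟨j, 1, Or.inl rfl⟩
    obtain ⟨c, hc⟩ := k _ q
    rw [A, ← map_mul] at hc
    have := e.inj2 (P2.of_sq (by rw [← map_mul, xe_sq, map_one]))
      (P2.of_mem (isP_QQ n0) (mul_mem q (subset_closure ⟨iL, c, Or.inl rfl⟩))) hc
    refine ⟨c, ?_⟩
    rw [this]
    change (xe 0 j 1 : X).1 * (xe 0 iL c : X).1 = _
    rw [xe_val h0.symm, xe_val n0, add_mul, one_mul, mul_add, mul_one,
      single_mul_single_of_ne _ _ _ _ h0, add_zero]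
    abel
  have hN : ∀ (j : I) (c : F) (a : I), a ≠ 0 → ∀ b,
      ((single 0 j 1 + single 0 iL c : Mx) * g.1) a b = 0 := fun j c a ha b => by
    rw [add_mul, Matrix.add_apply, rowz _ _ _ _ a ha, rowz _ _ _ _ a ha, add_zero]
  cases ε with
  | true =>
    obtain ⟨j, h0, hL⟩ := ex_third (0 : I) iL
    obtain ⟨c, hc⟩ := fq j h0 hL
    have k1 := colz (eqx (g := g) (u := 1) h0 hc (by rw [au_true, it_xe, fr_xe, map_one])) (hN j c)
    have k2 := colz (eqx (g := g) (u := 1) n0.symm (xe_val n0 1) (by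
      have := fx 1
      rwa [au_true, it_xe, fr_xe, map_one] at this)) (rowz _ _ _ _)
    exact (two_col hL k1 k2).elim
  | false =>
    have k0 := eqx (g := g) (u := 1) n0 (xe_val n0 1) (by
      have := fx 1
      rwa [au_false, fr_xe, map_one] at this)
    have ne := diag_ne (colz k0 (rowz _ _ _ _))
    have dL : g.1 iL iL = g.1 0 0 := by
      have := congrFun (congrFun k0 0) iL
      rw [mul_single_apply_same, single_mul_apply_same, mul_one, one_mul] at this
      exact this.symm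
    have rL : ∀ b, b ≠ iL → g.1 iL b = 0 := fun b hb => by
      have := congrFun (congrFun k0 0) b
      rw [mul_single_apply_of_ne _ _ _ _ _ hb, single_mul_apply_same, one_mul] at this
      exact this.symm
    have rm : ∀ j : I, j ≠ 0 → j ≠ iL → ∀ b, b ≠ iL → g.1 j b = (g.1 * single 0 j 1 : Mx) 0 b := by
      intro j h0 hL b hb
      obtain ⟨c, hc⟩ := fq j h0 hL
      rw [eqx (g := g) (u := 1) h0.symm hc (by rw [au_false, fr_xe, map_one]), add_mul, Matrix.add_apply,
        single_mul_apply_same, single_mul_apply_same, rL b hb, mul_zero, add_zero, one_mul]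
    have dd : ∀ j : I, g.1 j j = g.1 0 0 := fun j => by
      by_cases h0 : j = 0
      · rw [h0]
      by_cases hL : j = iL
      · rw [hL, dL]
      rw [rm j h0 hL j hL, mul_single_apply_same, mul_one]
    have ent : ∀ a b : I, (a ≠ 0 ∧ b ≠ iL) ∨ a = b → ((g.1 0 0)⁻¹ • g.1) a b = (1 : Mx) a b := by
      intro a b hab
      rw [Matrix.smul_apply, smul_eq_mul]
      by_cases hb : a = b
      · rw [hb, dd b, inv_mul_cancel₀ ne, one_apply_eq]
      obtain ⟨h0, hL⟩ := hab.resolve_right hb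
      rw [one_apply_ne hb]
      by_cases hL' : a = iL
      · rw [hL', rL b hL, mul_zero]
      · rw [rm a h0 hL' b hL, mul_single_apply_of_ne _ _ _ _ _ (Ne.symm hb), mul_zero]
    have det : ((g.1 0 0)⁻¹ • g.1).det = 1 := by
      rw [det_of_isUpperTriangular]
      · exact Finset.prod_eq_one fun a _ => by rw [ent a a (Or.inr rfl), one_apply_eq]
      · intro a b hab
        have hab' : b < a := hab
        rw [ent a b (Or.inl ⟨(lt_of_le_of_lt (Fin.zero_le b) hab').ne',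
          (lt_of_lt_of_le hab' (Fin.le_last a)).ne⟩), one_apply_ne hab'.ne']
    exact ⟨⟨_, det⟩, (mem_QQ' n0).2 ent, fin A rfl⟩

theorem oddQ (e : Em ι) {R : Subgroup G} (o : Odd (Nat.card R)) (h : R ≤ 𝐍(ι.range))
    (c : ∀ r ∈ R, r * ι (xe 0 iL 1) = ι (xe 0 iL 1) * r) (k : ∀ x ∈ QQ F 0 iL, ι x ∈ 𝐍(R)) :
    ∀ r ∈ R, Cn ι (QQ F 0 iL) r := by
  have n0 : (0 : I) ≠ iL := Fin.last_pos.ne
  have od : ∀ r ∈ R, Odd (orderOf r) := fun r hr =>
    Odd.of_dvd_nat o (R.orderOf_dvd_natCard hr)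
  have cmR : ∀ r ∈ R, ∀ x ∈ QQ F (0 : I) iL, r * ι x * r⁻¹ * (ι x)⁻¹ ∈ R := fun r hr x hx => by
    have := mul_mem hr ((mem_normalizer_iff.1 (k x hx) _).1 (inv_mem hr))
    simpa only [mul_assoc] using this
  have s1 : ∀ w ∈ R, w ∈ ι.range → w ∈ 𝐂(ι.range) := by
    rintro _ hw ⟨y, rfl⟩
    have c1 : xe 0 iL 1 * y = y * xe 0 iL 1 := e.comm2 (P2.of_sq (xe_sq _ _ _)) (c _ hw).symm
    have nQ := cz_nQ one_ne_zero c1.symm
    have cn : Cn ι (QQ F 0 iL) (ι y) := fun x hx => by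
      have m : y * x * y⁻¹ * x⁻¹ ∈ QQ F (0 : I) iL :=
        mul_mem ((mem_normalizer_iff.1 nQ x).1 hx) (inv_mem hx)
      obtain ⟨j, hj⟩ := P2.of_mem (isP_QQ n0) m
      have p : P2 (ι y * ι x * (ι y)⁻¹ * (ι x)⁻¹) := ⟨j, by
        rw [← map_inv, ← map_inv, ← map_mul, ← map_mul, ← map_mul, ← map_pow, hj, map_one]⟩
      have := p.eq_one (od _ (cmR _ hw x hx))
      rwa [mul_inv_eq_one, mul_inv_eq_iff_eq_mul] at this
    obtain ⟨c', k', hk', ey⟩ := cQ e (h hw) n0 cn
    have hc := mem_centralizer_iff.1 hk' _ ⟨xe 0 iL c', rfl⟩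
    have sq : ι y * ι y = k' * k' := by
      rw [ey, mul_assoc, ← mul_assoc (ι _), hc, mul_assoc, ← map_mul, xe_sq, map_one, mul_one]
    obtain ⟨m, hm⟩ := od _ hw
    have : ι y = (ι y * ι y) ^ (m + 1) := by
      rw [← pow_two, ← pow_mul, mul_add, mul_one, show 2 * m + 2 = (2 * m + 1) + 1 from rfl, ← hm,
        pow_succ, pow_orderOf_eq_one, one_mul]
    rw [this, sq]
    exact pow_mem (mul_mem hk' hk') _
  intro r hr x hx
  have m1 := cmR r hr x hx
  have m2 : r * ι x * r⁻¹ * (ι x)⁻¹ ∈ ι.range :=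
    mul_mem ((mem_normalizer_iff.1 (h hr) _).1 ⟨x, rfl⟩) (inv_mem ⟨x, rfl⟩)
  have cz : Commute (r * ι x * r⁻¹ * (ι x)⁻¹) (ι x) :=
    (mem_centralizer_iff.1 (s1 _ m1 m2) _ ⟨x, rfl⟩).symm
  obtain ⟨j, hj⟩ := P2.of_mem (isP_QQ n0) hx
  have hj' : ι x ^ 2 ^ j = 1 := by rw [← map_pow, hj, map_one]
  have p : P2 (r * ι x * r⁻¹ * (ι x)⁻¹) := ⟨j, by
    have := cz.mul_pow (2 ^ j)
    rw [inv_mul_cancel_right, conj_pow, hj', mul_one, mul_one, mul_inv_cancel] at this
    exact this.symm⟩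
  have := p.eq_one (od _ m1)
  rwa [mul_inv_eq_one, mul_inv_eq_iff_eq_mul] at this

end LMS
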