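import Cfsg.Agent.Lib.LMS.B4
import Cfsg.Agent.Lib.LMS.B5

set_option autoImplicit false
set_option linter.unusedSectionVars false

namespace LMS

open Subgroup H69 Cfsg Matrix U4S
open scoped MatrixGroups commutatorElement

universe u
variable {G : Type*} [Group G] [Finite G] {F : Type u} [Field F] [CharP F 2] [Fintype F] {n : ℕ} [Ok n F]
  {ι ψ χ : XX n F →* G} {t : G} {E : Subgroup G}

local notation "X" => XX n F
local notation "I" => Fin (n + 3)
local notation "Mx" => Matrix (Fin (n + 3)) (Fin (n + 3)) F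

namespace CM

variable {K : Type} [Fintype K] [DecidableEq K]

theorem card_sp (p : K → Prop) [DecidablePred p] :
    {a : K → F | ∀ i, ¬ p i → a i = 0}.ncard = Nat.card F ^ Fintype.card {i // p i} := by
  rw [← Nat.card_coe_set_eq, ← Nat.card_eq_fintype_card, ← Nat.card_fun]
  exact Nat.card_congr ⟨fun a i => a.1 i.1, fun b => ⟨fun i => if h : p i then b ⟨i, h⟩ else 0,
    fun i h => dif_neg h⟩, fun a => Subtype.ext (funext fun i => by
      by_cases h : p i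
      · exact dif_pos h
      · exact (dif_neg h).trans (a.2 i h).symm), fun b => funext fun i => dif_pos i.2⟩

theorem fam {α β : Type*} [Finite β] {W : Set α} {C : Set β} {f : α → β} (hf : Function.Injective f)
    (h : ∀ v ∈ W, f v ∈ C) : W.ncard ≤ C.ncard ∧ (C.ncard ≤ W.ncard → ∀ y ∈ C, ∃ v ∈ W, f v = y) := by
  have s : f '' W ⊆ C := fun _ ⟨v, hv, e⟩ => e ▸ h v hv
  rw [← Set.ncard_image_of_injective W hf]
  exact ⟨Set.ncard_le_ncard s, fun k y hy => (Set.eq_of_subset_of_ncard_le s k).ge hy⟩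

theorem prop {a a' l l' : K → F} (h : vecMulVec a l + vecMulVec a' l' = 0) {i : K} (hi : a' i ≠ 0) :
    l' = (a i / a' i) • l := by
  funext j
  have := congrFun (congrFun h i) j
  simp only [Matrix.add_apply, vecMulVec_apply, Matrix.zero_apply, CharTwo.add_eq_zero] at this
  rw [Pi.smul_apply, smul_eq_mul, div_mul_eq_mul_div, this, mul_div_cancel_left₀ _ hi]

theorem inj1 {P : (K → F) →+ (K → F)} (hP : Function.Injective P) {l l' : K → F} (h : ∀ c : F, l' ≠ c • l) :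
    Function.Injective fun v => vecMulVec v l + vecMulVec (P v) l' := fun v w e => by
  have e1 : vecMulVec (v - w) l + vecMulVec (P (v - w)) l' = 0 := by
    rw [map_sub, sub_vecMulVec, sub_vecMulVec, ← add_sub_add_comm]
    exact sub_eq_zero.2 e
  by_contra hn
  obtain ⟨i, hi⟩ := Function.ne_iff.1 fun e2 : P (v - w) = 0 => hn (sub_eq_zero.1 (hP (by rw [e2, map_zero])))
  exact h _ (prop e1 hi)

theorem inj2 {P : (K → F) →+ (K → F)} (hP : Function.Injective P) {l l' : K → F} (h : ∀ c : F, l' ≠ c • l) :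
    Function.Injective fun v => vecMulVec l v + vecMulVec l' (P v) := fun v w e => inj1 hP h (by
  simpa only [transpose_add, transpose_vecMulVec] using congrArg transpose e)

theorem sgl {p : K → Prop} {i : K} (hi : p i) : ∀ k, ¬ p k → (Pi.single i 1 : K → F) k = 0 := fun k hk =>
  Pi.single_eq_of_ne (fun e : k = i => hk (e ▸ hi)) _

theorem sc {p : K → Prop} {φ : RingAut F} {P : (K → F) →+ (K → F)} (hP : Function.Injective P)
    (Ps : ∀ (c : F) a, P (c • a) = φ c • P a) (h : ∀ a, (∀ i, ¬ p i → a i = 0) → ∃ c : F, P a = c • a) :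
    ∃ μ : F, (∀ i, p i → P (Pi.single i 1) = μ • Pi.single i 1) ∧
      ∀ i j, p i → p j → i ≠ j → ∀ c, φ c = c := by
  have s1 : ∀ i, p i → ∀ k, ¬ p k → (Pi.single i 1 : K → F) k = 0 := fun i hi => sgl hi
  have key : ∀ i j, p i → p j → i ≠ j → ∀ c a b : F, P (Pi.single i 1) = a • Pi.single i 1 →
      P (Pi.single j 1) = b • Pi.single j 1 → φ c * b = a * c := fun i j hi hj ne c a b e1 e2 => by
    obtain ⟨ν, e⟩ := h (Pi.single i 1 + c • Pi.single j 1) fun k hk => by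
      simp [s1 i hi k hk, s1 j hj k hk]
    rw [map_add, Ps, e1, e2] at e
    have k1 := congrFun e i
    have k2 := congrFun e j
    simp [ne, ne.symm] at k1 k2
    rw [k2, k1]
  by_cases hp : ∃ i, p i
  swap
  · exact ⟨1, fun i hi => absurd ⟨i, hi⟩ hp, fun i _ hi => absurd ⟨i, hi⟩ hp⟩
  obtain ⟨i0, h0⟩ := hp
  obtain ⟨μ, e0⟩ := h _ (s1 i0 h0)
  have all : ∀ i, p i → P (Pi.single i 1) = μ • Pi.single i 1 := fun i hi => by
    by_cases e : i0 = i
    · rw [← e]; exact e0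
    · obtain ⟨b, e1⟩ := h _ (s1 i hi)
      have := key i0 i h0 hi e 1 μ b e0 e1
      rw [map_one, one_mul, mul_one] at this
      rw [e1, this]
  refine ⟨μ, all, fun i j hi hj ne c => ?_⟩
  have m0 : μ ≠ 0 := fun e => by
    have := hP ((all i hi).trans (by rw [e, zero_smul, map_zero] : _ = P 0))
    simpa using congrFun this i
  exact mul_right_cancel₀ m0 ((key i j hi hj ne c μ μ (all i hi) (all j hj)).trans (mul_comm _ _))

section ng
variable {p p' : K → Prop} [DecidablePred p] [DecidablePred p'] {φ : RingAut F}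
  {A : Matrix K K F →+ Matrix K K F} {P Q : (K → F) →+ (K → F)}

theorem sup_vv {a l : K → F} (ha : ∀ i, ¬ p i → a i = 0) (hl : ∀ i, ¬ p' i → l i = 0) :
    ∀ i j, ¬ (p i ∧ p' j) → vecMulVec a l i j = 0 := fun i j h => by
  rw [vecMulVec_apply]
  rcases not_and_or.1 h with e | e
  · rw [ha i e, zero_mul]
  · rw [hl j e, mul_zero]

theorem triv (hP : Function.Injective P) (hQ : Function.Injective Q)
    (Ps : ∀ (c : F) a, P (c • a) = φ c • P a) (Qs : ∀ (c : F) a, Q (c • a) = φ c • Q a)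
    (hA : ∀ a l, A (vecMulVec a l) = vecMulVec (P a) (Q l))
    (h2 : ∀ N : Matrix K K F, (∀ i j, ¬ (p i ∧ p' j) → N i j = 0) → A (A N) = N)
    (two : 1 < Fintype.card {i // p i} ∨ 1 < Fintype.card {i // p' i})
    (h : ∀ a, (∀ i, ¬ p i → a i = 0) → ∃ c : F, P a = c • a)
    (h' : ∀ a, (∀ i, ¬ p' i → a i = 0) → ∃ c : F, Q a = c • a)
    {N : Matrix K K F} (hN : ∀ i j, ¬ (p i ∧ p' j) → N i j = 0) : N + A N = 0 := by
  obtain ⟨μ, e1, f1⟩ := sc hP Ps h
  obtain ⟨ν, e2, f2⟩ := sc hQ Qs h'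
  have f : ∀ c, φ c = c := by
    rcases two with t | t <;> obtain ⟨i, j, ne⟩ := Fintype.exists_pair_of_one_lt_card t
    · exact f1 i j i.2 j.2 fun e => ne (Subtype.ext e)
    · exact f2 i j i.2 j.2 fun e => ne (Subtype.ext e)
  have sg : ∀ (i j : K) (c : F), single i j c = vecMulVec (c • Pi.single i 1) (Pi.single j 1) := fun i j c => by
    rw [smul_vecMulVec, ← single_eq_single_vecMulVec_single, smul_single, smul_eq_mul, mul_one]
  have e3 : ∀ i j, p i → p' j → ∀ c, A (single i j c) = single i j (μ * ν * c) := fun i j hi hj c => by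
    rw [sg, hA, Ps, f, e1 i hi, e2 j hj, sg, smul_smul, vecMulVec_smul, ← smul_vecMulVec, smul_smul]
    congr 2; ring
  have e4 : ∀ i j, p i → p' j → ∀ c, A (single i j c) = single i j c := fun i j hi hj c => by
    have := h2 (single i j 1) fun a b k => single_apply_of_ne _ _ _ _ _ fun e => k ⟨e.1 ▸ hi, e.2 ▸ hj⟩
    rw [e3 i j hi hj, e3 i j hi hj] at this
    have k := congrFun (congrFun this i) j
    rw [single_apply_same, single_apply_same, mul_one] at k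
    have : μ * ν = 1 := by
      rcases mul_self_eq_one_iff.1 k with e | e
      · exact e
      · rw [e, CharTwo.neg_eq]
    rw [e3 i j hi hj, this, one_mul]
  have : A N = N := by
    conv_lhs => rw [matrix_eq_sum_single N]
    conv_rhs => rw [matrix_eq_sum_single N]
    simp only [map_sum]
    refine Finset.sum_congr rfl fun i _ => Finset.sum_congr rfl fun j _ => ?_
    by_cases k : p i ∧ p' j
    · exact e4 i j k.1 k.2 _
    · rw [hN i j k, single_zero, map_zero]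
  rw [this]
  ext i j
  exact CharTwo.add_self_eq_zero _

theorem abs_ng (hP : Function.Injective P) (hQ : Function.Injective Q)
    (Ps : ∀ (c : F) a, P (c • a) = φ c • P a) (Qs : ∀ (c : F) a, Q (c • a) = φ c • Q a)
    (hA : ∀ a l, A (vecMulVec a l) = vecMulVec (P a) (Q l))
    (h2 : ∀ N : Matrix K K F, (∀ i j, ¬ (p i ∧ p' j) → N i j = 0) → A (A N) = N)
    (two : 1 < Fintype.card {i // p i} ∨ 1 < Fintype.card {i // p' i}) {k : ℕ}
    (hk : k ≤ Fintype.card {i // p i}) (hk' : k ≤ Fintype.card {i // p' i}) {C : Set (Matrix K K F)}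
    (hC : ∀ M, M ∈ C ↔ ∃ N : Matrix K K F, (∀ i j, ¬ (p i ∧ p' j) → N i j = 0) ∧ M = N + A N) :
    ((∀ M ∈ C, M = 0) ∨ Nat.card F ^ k ≤ C.ncard) ∧
      ((Fintype.card {i // p i} ≤ k → Fintype.card {i // p' i} ≤ k → 3 ≤ k) → C.ncard = Nat.card F ^ k →
        ∀ M ∈ C, M.rank ≤ 1) := by
  have q1 : 1 < Nat.card F := Finite.one_lt_card
  have m : ∀ a l, (∀ i, ¬ p i → a i = 0) → (∀ i, ¬ p' i → l i = 0) →
      vecMulVec a l + vecMulVec (P a) (Q l) ∈ C := fun a l ha hl => (hC _).2 ⟨_, sup_vv ha hl, by rw [hA]⟩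
  have f1 : ∀ l, (∀ i, ¬ p' i → l i = 0) → (∀ c : F, Q l ≠ c • l) → _ := fun l hl h =>
    fam (W := {a : K → F | ∀ i, ¬ p i → a i = 0}) (inj1 hP h) fun v hv => m v l hv hl
  have f2 : ∀ a, (∀ i, ¬ p i → a i = 0) → (∀ c : F, P a ≠ c • a) → _ := fun a ha h =>
    fam (W := {a : K → F | ∀ i, ¬ p' i → a i = 0}) (inj2 hQ h) fun v hv => m a v ha hv
  simp only [card_sp] at f1 f2
  have l1 := Nat.pow_le_pow_right q1.le hk
  have l2 := Nat.pow_le_pow_right q1.le hk'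
  by_cases c1 : ∀ a, (∀ i, ¬ p i → a i = 0) → ∃ c : F, P a = c • a <;>
    by_cases c2 : ∀ a, (∀ i, ¬ p' i → a i = 0) → ∃ c : F, Q a = c • a
  · have z : ∀ M ∈ C, M = 0 := fun M hM => by
      obtain ⟨N, hN, rfl⟩ := (hC M).1 hM
      exact triv hP hQ Ps Qs hA h2 two c1 c2 hN
    exact ⟨Or.inl z, fun _ _ M hM => by rw [z M hM, rank_zero]; exact zero_le_one⟩
  · push Not at c2
    obtain ⟨l, hl, h⟩ := c2
    refine ⟨Or.inr (l1.trans (f1 l hl h).1), fun _ e M hM => ?_⟩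
    obtain ⟨v, hv, rfl⟩ := (f1 l hl h).2 (e.le.trans l1) M hM
    obtain ⟨c, e1⟩ := c1 v hv
    simp only [e1, smul_vecMulVec, ← vecMulVec_smul, ← vecMulVec_add]
    exact rank_vecMulVec_le _ _
  · push Not at c1
    obtain ⟨a, ha, h⟩ := c1
    refine ⟨Or.inr (l2.trans (f2 a ha h).1), fun _ e M hM => ?_⟩
    obtain ⟨v, hv, rfl⟩ := (f2 a ha h).2 (e.le.trans l2) M hM
    obtain ⟨c, e1⟩ := c2 v hv
    simp only [e1, vecMulVec_smul, ← smul_vecMulVec, ← add_vecMulVec]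
    exact rank_vecMulVec_le _ _
  · push Not at c1 c2
    obtain ⟨a, ha, h⟩ := c1
    obtain ⟨l, hl, h'⟩ := c2
    refine ⟨Or.inr (l2.trans (f2 a ha h).1), fun k3 e => ?_⟩
    exfalso
    have k3 := k3 ((Nat.pow_le_pow_iff_right q1).1 ((f1 l hl h').1.trans e.le))
      ((Nat.pow_le_pow_iff_right q1).1 ((f2 a ha h).1.trans e.le))
    obtain ⟨u, hu, u', hu', ne, e1⟩ := Set.exists_ne_map_eq_of_ncard_lt_of_maps_to
      (s := {a : K → F | ∀ i, ¬ p' i → a i = 0}) (t := (Set.univ : Set (F × F)))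
      (f := fun u => (l ⬝ᵥ u, Q l ⬝ᵥ u)) (by
        rw [card_sp, Set.ncard_univ, Nat.card_prod, ← pow_two]
        exact Nat.pow_lt_pow_right q1 (by omega)) fun _ _ => Set.mem_univ _
    obtain ⟨j, hj⟩ := Function.ne_iff.1 ne
    have pj : p' j := by_contra fun k => hj ((hu j k).trans (hu' j k).symm)
    obtain ⟨v, -, e2⟩ := (f1 l hl h').2 (e.le.trans l1) _ (m a (Pi.single j 1) ha (sgl pj))
    have e3 := congrArg (· *ᵥ (u - u')) e2
    simp only [add_mulVec, vecMulVec_mulVec, dotProduct_sub, (Prod.mk.inj e1).1, (Prod.mk.inj e1).2, sub_self,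
      MulOpposite.op_zero, zero_smul, add_zero, single_one_dotProduct, op_smul_eq_smul] at e3
    generalize Q (Pi.single j 1) ⬝ᵥ u - Q (Pi.single j 1) ⬝ᵥ u' = b at e3
    have hj' : u j - u' j ≠ 0 := sub_ne_zero.2 hj
    generalize u j - u' j = c at e3 hj'
    by_cases b0 : b = 0
    · rw [b0, zero_smul, add_zero] at e3
      exact h 0 (by rw [(smul_eq_zero.1 e3.symm).resolve_left hj', map_zero, smul_zero])
    · refine h (-(b⁻¹ * c)) ?_
      rw [neg_smul, mul_smul, eq_neg_of_add_eq_zero_left e3.symm, smul_neg, neg_neg, inv_smul_smul₀ b0]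

theorem abs_g (hP : Function.Injective P) (hQ : Function.Injective Q)
    (hA : ∀ a l, A (vecMulVec a l) = vecMulVec (P l) (Q a))
    (h : ∀ N : Matrix K K F, (∀ i j, ¬ (p i ∧ p' j) → N i j = 0) → ∀ i j, ¬ (p i ∧ p' j) → A N i j = 0)
    {i0 j0 : K} (hi : p i0) (hj : p' j0) {C : Set (Matrix K K F)}
    (hC : ∀ M, M ∈ C ↔ ∃ N : Matrix K K F, (∀ i j, ¬ (p i ∧ p' j) → N i j = 0) ∧ M = N + A N) :
    Fintype.card {i // p i} = Fintype.card {i // p' i} ∧
      Nat.card F ^ Fintype.card {i // p' i} ≤ C.ncard * Nat.card F := by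
  have q1 : 1 < Nat.card F := Finite.one_lt_card
  have s1 : ∀ i, ¬ p i → (Pi.single i0 1 : K → F) i = 0 := sgl hi
  have s2 : ∀ i, ¬ p' i → (Pi.single j0 1 : K → F) i = 0 := sgl hj
  have nz : ∀ {R : (K → F) →+ (K → F)}, Function.Injective R → ∀ i, ∃ j, R (Pi.single i 1) j ≠ 0 :=
    fun {R} hR i => Function.ne_iff.1 fun e => by simpa using congrFun (hR (e.trans (map_zero R).symm)) i
  obtain ⟨a, ha⟩ := nz hP j0
  obtain ⟨b, hb⟩ := nz hQ i0
  have m1 := (fam (W := {a : K → F | ∀ i, ¬ p' i → a i = 0}) (C := {a : K → F | ∀ i, ¬ p i → a i = 0}) hP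
    fun l hl i k => by
      have := h _ (sup_vv s1 hl) i b fun e => k e.1
      rw [hA, vecMulVec_apply] at this
      exact (mul_eq_zero.1 this).resolve_right hb).1
  have m2 := (fam (W := {a : K → F | ∀ i, ¬ p i → a i = 0}) (C := {a : K → F | ∀ i, ¬ p' i → a i = 0}) hQ
    fun l hl i k => by
      have := h _ (sup_vv hl s2) a i fun e => k e.2
      rw [hA, vecMulVec_apply] at this
      exact (mul_eq_zero.1 this).resolve_left ha).1
  rw [card_sp, card_sp, Nat.pow_le_pow_iff_right q1] at m1 m2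
  refine ⟨le_antisymm m2 m1, ?_⟩
  have m3 := (fam (W := {a : K → F | ∀ i, ¬ p' i → a i = 0}) (C := C ×ˢ (Set.univ : Set F))
    (f := fun l => (vecMulVec (Pi.single i0 1) l + vecMulVec (P l) (Q (Pi.single i0 1)), l b)) (fun v w e => by
      have e1 : vecMulVec (v - w) (Pi.single i0 1) + vecMulVec (Q (Pi.single i0 1)) (P (v - w)) = 0 := by
        have := congrArg transpose (Prod.mk.inj e).1
        simp only [transpose_add, transpose_vecMulVec] at this
        rw [map_sub, sub_vecMulVec, vecMulVec_sub, ← add_sub_add_comm]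
        exact sub_eq_zero.2 this
      have e2 := prop e1 hb
      rw [Pi.sub_apply, (Prod.mk.inj e).2, sub_self, zero_div, zero_smul] at e2
      exact sub_eq_zero.1 (hP (e2.trans (map_zero P).symm)))
    fun l hl => ⟨(hC _).2 ⟨_, sup_vv s1 hl, by rw [hA]⟩, Set.mem_univ _⟩).1
  rwa [card_sp, Set.ncard_prod, Set.ncard_univ] at m3

end ng

theorem maps (g : GX n F) (φ : RingAut F) : ∃ (A : Mx →+ Mx) (P Q : (I → F) →+ (I → F)),
    Function.Injective P ∧ Function.Injective Q ∧ (∀ (c : F) a, P (c • a) = φ c • P a) ∧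
    (∀ (c : F) a, Q (c • a) = φ c • Q a) ∧ (∀ a l, A (vecMulVec a l) = vecMulVec (P a) (Q l)) ∧
    ∀ x : X, (gc g (fr φ x)).1 = 1 + A (x.1 - 1) := by
  have ad : ∀ a b : I → F, φ ∘ (a + b) = φ ∘ a + φ ∘ b := fun a b => funext fun i => map_add φ _ _
  have sm : ∀ (c : F) (a : I → F), φ ∘ (c • a) = φ c • φ ∘ a := fun c a => funext fun i => map_mul φ _ _
  have ij : ∀ a b : I → F, φ ∘ a = φ ∘ b → a = b := fun a b e => funext fun i => φ.injective (congrFun e i)
  refine ⟨AddMonoidHom.mk' (fun M => g.1 * M.map φ * (g⁻¹).1) fun M N => by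
      rw [Matrix.map_add _ (map_add φ), mul_add, add_mul],
    AddMonoidHom.mk' (fun a => g.1 *ᵥ (φ ∘ a)) fun a b => by rw [ad, mulVec_add],
    AddMonoidHom.mk' (fun a => (φ ∘ a) ᵥ* (g⁻¹).1) fun a b => by rw [ad, add_vecMul],
    fun a b e => ij a b ?_, fun a b e => ij a b ?_, fun c a => ?_, fun c a => ?_, fun a l => ?_, fun x => ?_⟩
  · have := congrArg ((g⁻¹).1 *ᵥ ·) e
    simpa only [AddMonoidHom.mk'_apply, mulVec_mulVec, Units.inv_mul, one_mulVec] using this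
  · have := congrArg (· ᵥ* g.1) e
    simpa only [AddMonoidHom.mk'_apply, vecMul_vecMul, Units.inv_mul, vecMul_one] using this
  · simp only [AddMonoidHom.mk'_apply, sm, mulVec_smul]
  · simp only [AddMonoidHom.mk'_apply, sm, smul_vecMul]
  · have : (vecMulVec a l).map φ = vecMulVec (φ ∘ a) (φ ∘ l) := by
      ext i j; exact map_mul φ _ _
    simp only [AddMonoidHom.mk'_apply, this, mul_vecMulVec, vecMulVec_mul]
  · rw [gc_val, fr_val, AddMonoidHom.mk'_apply, Matrix.map_sub _ (map_sub φ),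
      Matrix.map_one _ (map_zero φ) (map_one φ), mul_sub, sub_mul, mul_one, Units.mul_inv, add_sub_cancel]

theorem memJ {d : ℕ} {x : X} : x ∈ JJ n F d ↔ ∀ i j : I, ¬ (i.1 < d ∧ d ≤ j.1) → (x.1 - 1) i j = 0 := by
  simp only [mem_JJ, Matrix.sub_apply, sub_eq_zero]

theorem exJ {d : ℕ} {N : Mx} (h : ∀ i j : I, ¬ (i.1 < d ∧ d ≤ j.1) → N i j = 0) :
    ∃ x ∈ JJ n F d, x.1 - 1 = N := by
  have hd : (1 + N).det = 1 := by
    rw [det_of_isUpperTriangular]
    · exact Finset.prod_eq_one fun i _ => by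
        rw [Matrix.add_apply, h i i (by omega), one_apply_eq, add_zero]
    · intro i j k
      have k' : j.1 < i.1 := k
      rw [Matrix.add_apply, h i j (by omega), add_zero, one_apply_ne (show i ≠ j from ne_of_gt k)]
  have e : (⟨1 + N, hd⟩ : X).1 - 1 = N := add_sub_cancel_left _ _
  exact ⟨⟨1 + N, hd⟩, memJ.2 (by rw [e]; exact h), e⟩

theorem mulJ {d : ℕ} {x y : X} (hx : x ∈ JJ n F d) (hy : y ∈ JJ n F d) :
    (x * y).1 - 1 = (x.1 - 1) + (y.1 - 1) := by
  have : (x.1 - 1) * (y.1 - 1) = 0 := by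
    ext i j
    rw [Matrix.mul_apply]
    refine Finset.sum_eq_zero fun k _ => ?_
    by_cases e : k.1 < d
    · rw [memJ.1 hx i k (by omega), zero_mul]
    · rw [memJ.1 hy k j (by omega), mul_zero]
  rw [Matrix.SpecialLinearGroup.coe_mul, ← sub_eq_zero, ← this]
  noncomm_ring

theorem tr {d : ℕ} {α : X →* X} {A : Mx →+ Mx} (hA : ∀ x ∈ JJ n F d, (α x).1 = 1 + A (x.1 - 1))
    (h : ∀ x ∈ JJ n F d, α x ∈ JJ n F d) {C : Subgroup X} (hC : ∀ y, y ∈ C ↔ ∃ x ∈ JJ n F d, y = x * α x) :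
    ∃ D : Set Mx, Nat.card C = D.ncard ∧ (∀ y ∈ C, y.1 - 1 ∈ D) ∧
      ∀ M, M ∈ D ↔ ∃ N : Mx, (∀ i j : I, ¬ (i.1 < d ∧ d ≤ j.1) → N i j = 0) ∧ M = N + A N := by
  have e : ∀ x ∈ JJ n F d, (x * α x).1 - 1 = (x.1 - 1) + A (x.1 - 1) := fun x hx => by
    rw [mulJ hx (h x hx), hA x hx, add_sub_cancel_left]
  refine ⟨(fun y : X => y.1 - 1) '' C, ?_, fun y hy => ⟨y, hy, rfl⟩, fun M => ⟨?_, ?_⟩⟩
  · have ij : Function.Injective fun y : X => y.1 - 1 := fun a b k => Subtype.ext (sub_left_injective k)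
    rw [Set.ncard_image_of_injective _ ij]; rfl
  · rintro ⟨y, hy, rfl⟩
    obtain ⟨x, hx, rfl⟩ := (hC y).1 hy
    exact ⟨_, memJ.1 hx, e x hx⟩
  · rintro ⟨N, hN, rfl⟩
    obtain ⟨x, hx, rfl⟩ := exJ hN
    exact ⟨_, (hC _).2 ⟨x, hx, rfl⟩, e x hx⟩

theorem red {J C : Subgroup X} (hJ : IsJ J) {g : GX n F} {φ : RingAut F} {ε : Bool}
    (h : ∀ x ∈ J, au g φ ε x ∈ J) (hC : ∀ y, y ∈ C ↔ ∃ x ∈ J, y = x * au g φ ε x) :
    ∃ d, (d = kk n ∨ d = n + 3 - kk n) ∧ ∃ (g' : GX n F) (u : X), (∀ x ∈ JJ n F d, au g' φ ε x ∈ JJ n F d) ∧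
      ((∀ x ∈ J, au g φ ε (au g φ ε x) = x) → ∀ x ∈ JJ n F d, au g' φ ε (au g' φ ε x) = x) ∧
      ∀ y, y ∈ C ^ᶜ u ↔ ∃ x ∈ JJ n F d, y = x * au g' φ ε x := by
  obtain ⟨d, hd, u, rfl⟩ := hJ
  obtain ⟨g1, e1⟩ := cn_au u
  obtain ⟨g2, e2⟩ := cn_au u⁻¹
  obtain ⟨g3, e3⟩ := au_comp g g1 φ 1 ε false
  obtain ⟨g4, e4⟩ := au_comp g2 g3 1 (φ * 1) false (xor ε false)
  rw [← e3, ← e1, ← e2, one_mul, mul_one, Bool.xor_false, Bool.false_xor] at e4
  have e : ∀ x, au g4 φ ε x = u⁻¹ * au g φ ε (u * x * u⁻¹) * u := fun x => by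
    rw [← e4]; simp only [MonoidHom.comp_apply, cn_apply, inv_inv]
  refine ⟨d, hd, g4, u⁻¹, fun x hx => ?_, fun k x hx => ?_, fun y => ?_⟩
  · rw [e]; exact mem_cj.1 (h _ (cj_mem u hx))
  · rw [e, e, show ∀ z : X, u * (u⁻¹ * z * u) * u⁻¹ = z from fun z => by group, k _ (cj_mem u hx)]; group
  · rw [mem_cj, hC]
    constructor
    · rintro ⟨x, hx, k⟩
      obtain ⟨x, hx', rfl⟩ := mem_cj'.1 hx
      refine ⟨x, hx', ?_⟩
      rw [e]
      calc y = u⁻¹ * (u⁻¹⁻¹ * y * u⁻¹) * u := by group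
        _ = _ := by rw [k]; group
    · rintro ⟨x, hx, rfl⟩
      exact ⟨_, cj_mem u hx, by rw [e]; group⟩

theorem cd1 {d : ℕ} (h : d ≤ n + 3) : Fintype.card {i : I // i.1 < d} = d := Fintype.card_fin_lt_of_le h

theorem cd2 {d : ℕ} (h : d ≤ n + 3) : Fintype.card {i : I // d ≤ i.1} = n + 3 - d := by
  have := Fintype.card_subtype_compl fun i : I => i.1 < d
  rw [cd1 h, Fintype.card_fin] at this
  rw [← this]
  exact Fintype.card_congr (Equiv.subtypeEquivRight fun i => not_lt.symm)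

end CM

open CM

theorem cm_ng {J C : Subgroup X} (hJ : IsJ J) {g : GX n F} {φ : RingAut F} (h : ∀ x ∈ J, au g φ false x ∈ J)
    (h2 : ∀ x ∈ J, au g φ false (au g φ false x) = x) (hC : ∀ y, y ∈ C ↔ ∃ x ∈ J, y = x * au g φ false x) :
    (C = ⊥ ∨ Nat.card F ^ kk n ≤ Nat.card C) ∧
      (n ≠ 1 → Nat.card C = Nat.card F ^ kk n → ∀ c ∈ C, rk c ≤ 1) := by
  obtain ⟨d, hd, g, u, h, k2, hC⟩ := red hJ h hC
  replace k2 := k2 h2
  obtain ⟨A, P, Q, hP, hQ, Ps, Qs, hA, hx⟩ := maps g φ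
  obtain ⟨D, c, m, hD⟩ := tr (A := A) (fun x _ => hx x) h hC
  have k := kk.eq_1 n
  have d1 : d ≤ n + 3 := by omega
  obtain ⟨r1, r2⟩ := abs_ng (p := fun i : I => i.1 < d) (p' := fun i : I => d ≤ i.1) (k := kk n) hP hQ Ps Qs hA
    (fun N hN => by
      obtain ⟨x, hx', rfl⟩ := exJ hN
      have := hx (au g φ false x)
      rw [← au_false, k2 x hx', au_false, hx x, add_sub_cancel_left] at this
      exact eq_sub_of_add_eq' this.symm)
    (by rw [cd1 d1, cd2 d1]; omega) (by rw [cd1 d1]; omega) (by rw [cd2 d1]; omega) hD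
  rw [← c, card_cj] at r1 r2
  refine ⟨r1.imp (fun z => eq_bot_iff.2 fun y hy => mem_bot.2 ?_) id, fun n1 e y hy => ?_⟩
  · have : u * y * u⁻¹ = 1 := Subtype.ext (sub_eq_zero.1 (z _ (m _ (cj_mem u hy))))
    simpa using this
  · rw [← rk_cj u]
    exact r2 (by rw [cd1 d1, cd2 d1]; omega) e _ (m _ (cj_mem u hy))

theorem cm_g {J C : Subgroup X} (hJ : IsJ J) {g : GX n F} {φ : RingAut F} (h : ∀ x ∈ J, au g φ true x ∈ J)
    (hC : ∀ y, y ∈ C ↔ ∃ x ∈ J, y = x * au g φ true x) : Odd n ∧ Nat.card F ^ (kk n - 1) ≤ Nat.card C := by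
  obtain ⟨d, hd, g, u, h, -, hC⟩ := red hJ h hC
  obtain ⟨A, P, Q, hP, hQ, -, -, hA, hx⟩ := maps g φ
  obtain ⟨A', hA'⟩ : ∃ A' : Mx →+ Mx, ∀ M, A' M = A Mᵀ :=
    ⟨AddMonoidHom.mk' (fun M => A Mᵀ) fun M N => by rw [transpose_add, map_add], fun _ => rfl⟩
  have hx' : ∀ x ∈ JJ n F d, (au g φ true x).1 = 1 + A' (x.1 - 1) := fun x k => by
    rw [au_true, hx, hA', it_val, inv_eq_of_mul_eq_one_left (el_JJ d x k), transpose_sub, transpose_one]
  obtain ⟨D, c, -, hD⟩ := tr hx' h hC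
  have k := kk.eq_1 n
  have d1 : d ≤ n + 3 := by omega
  obtain ⟨r1, r2⟩ := abs_g (p := fun i : I => i.1 < d) (p' := fun i : I => d ≤ i.1) (A := A') hP hQ
    (fun a l => by rw [hA', transpose_vecMulVec, hA])
    (fun N hN => by
      obtain ⟨x, k, rfl⟩ := exJ hN
      have := memJ.1 (h x k)
      rwa [hx' x k, add_sub_cancel_left] at this)
    (i0 := 0) (j0 := iL) (show 0 < d by omega) (show d ≤ n + 2 by omega) hD
  rw [cd2 d1] at r1 r2
  rw [cd1 d1] at r1
  rw [← c, card_cj, show n + 3 - d = kk n - 1 + 1 by omega, pow_succ] at r2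
  exact ⟨⟨d - 2, by omega⟩, Nat.le_of_mul_le_mul_right r2 Nat.card_pos⟩

end LMS
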