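import Cfsg.Agent.Lib.U4S.GD
import Cfsg.Agent.Lib.U4S.GA
import Cfsg.Agent.Lib.Stein.SLPres

/-! Standard subgroups of type `L_m(2^n)`: definitions.  See `blueprint/LMS/README.md`. -/

set_option autoImplicit false
set_option linter.unusedSectionVars false

namespace LMS

open Subgroup H69 Cfsg Matrix U4S
open scoped MatrixGroups commutatorElement

/-- the field has at least four elements in dimensions three and four -/
class Ok (n : ℕ) (F : Type*) : Prop where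
  h : n ≤ 1 → 4 ≤ Nat.card F

/-- `SL` of degree `n + 3` -/
abbrev XX (n : ℕ) (F : Type*) [Field F] : Type _ := SL(n + 3, F)
/-- `GL` of degree `n + 3` -/
abbrev GX (n : ℕ) (F : Type*) [Field F] : Type _ := GL (Fin (n + 3)) F
/-- the last index -/
abbrev iL {n : ℕ} : Fin (n + 3) := Fin.last (n + 2)
/-- half the degree -/
def kk (n : ℕ) : ℕ := (n + 3) / 2
/-- the rank of the largest abelian unipotent subgroups -/
def MM (n : ℕ) : ℕ := kk n * (n + 3 - kk n)

section model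
variable {F : Type*} [Field F] {n : ℕ}

/-- inverse transpose -/
def it : XX n F →* XX n F where
  toFun M := ⟨(M⁻¹).1ᵀ, by rw [det_transpose, (M⁻¹).2]⟩
  map_one' := Subtype.ext (by simp)
  map_mul' M N := Subtype.ext (by
    change ((M * N)⁻¹).1ᵀ = (M⁻¹).1ᵀ * (N⁻¹).1ᵀ
    rw [_root_.mul_inv_rev, Matrix.SpecialLinearGroup.coe_mul, transpose_mul])

theorem it_val (M : XX n F) : (it M).1 = (M⁻¹).1ᵀ := rfl

/-- conjugation as a homomorphism -/
def cn (u : XX n F) : XX n F →* XX n F := (MulAut.conj u).toMonoidHom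

theorem cn_apply (u x : XX n F) : cn u x = u * x * u⁻¹ := rfl

/-- the shape of an automorphism -/
def au (g : GX n F) (φ : RingAut F) (ε : Bool) : XX n F →* XX n F :=
  (gc g).toMonoidHom.comp ((fr φ).comp (if ε then it else MonoidHom.id _))

theorem au_false (g : GX n F) (φ : RingAut F) (x : XX n F) : au g φ false x = gc g (fr φ x) := rfl
theorem au_true (g : GX n F) (φ : RingAut F) (x : XX n F) : au g φ true x = gc g (fr φ (it x)) := rfl

/-- the rank of `x - 1` -/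
noncomputable def rk (x : XX n F) : ℕ := (x.1 - 1).rank

variable (F) in
/-- root subgroups -/
def RR (i j : Fin (n + 3)) : Subgroup (XX n F) := closure {y | ∃ c, y = xe i j c}
variable (F) in
/-- row `i` and column `j` -/
def QQ (i j : Fin (n + 3)) : Subgroup (XX n F) := closure {y | ∃ l c, y = xe i l c ∨ y = xe l j c}
variable (F) in
/-- the root elements commuting with `RR i j` -/
def PP (i j : Fin (n + 3)) : Subgroup (XX n F) := closure {y | ∃ a b c, a ≠ j ∧ b ≠ i ∧ y = xe a b c}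
variable (F) in
/-- row `i` -/
def AA (i : Fin (n + 3)) : Subgroup (XX n F) := closure {y | ∃ l c, y = xe i l c}
variable (F) in
/-- column `j` -/
def BB (j : Fin (n + 3)) : Subgroup (XX n F) := closure {y | ∃ l c, y = xe l j c}
/-- the unitriangular group -/
def UU (n : ℕ) (F : Type*) [Field F] : Subgroup (XX n F) := closure {y | ∃ i j c, i < j ∧ y = xe i j c}
/-- the radical of the stabiliser of the span of the first `d` basis vectors -/
def JJ (n : ℕ) (F : Type*) [Field F] (d : ℕ) : Subgroup (XX n F) := closure {y | ∃ i j c, i.1 < d ∧ d ≤ j.1 ∧ y = xe i j c}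

/-- the largest abelian unipotent subgroups -/
def IsJ (J : Subgroup (XX n F)) : Prop :=
  ∃ d, (d = kk n ∨ d = n + 3 - kk n) ∧ ∃ x : XX n F, J = JJ n F d ^ᶜ x

/-- `y = x α(x)⁻¹` -/
def Tw (α : XX n F →* XX n F) (y : XX n F) : Prop := ∃ x, y = x * (α x)⁻¹

/-- a twisted commutator that is an involution in the derived group of a fixed subgroup -/
def Cb (α : XX n F →* XX n F) : Prop := ∃ P : Subgroup (XX n F), (∀ p ∈ P, α p = p) ∧
  ∃ y ∈ ⁅P, P⁆, y * y = 1 ∧ y ≠ 1 ∧ Tw α y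

/-- the same inside a 2-group -/
def Gd (α : XX n F →* XX n F) : Prop := ∃ P : Subgroup (XX n F), IsPGroup 2 P ∧ (∀ p ∈ P, α p = p) ∧
  ∃ y ∈ ⁅P, P⁆, y * y = 1 ∧ y ≠ 1 ∧ Tw α y

/-- all twisted involutions are twisted commutators -/
def Al (α : XX n F →* XX n F) : Prop := ∀ y, y * α y = 1 → Tw α y

/-- a fixed elementary subgroup with `c ≤ |B|²` and a fixed element of order three moving it -/
def Hf (α : XX n F →* XX n F) (c : ℕ) : Prop := ∃ B : Subgroup (XX n F), El B ∧ (∀ b ∈ B, α b = b) ∧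
  c ≤ Nat.card B ^ 2 ∧ ∃ a a', α a = a ∧ α a' = a' ∧ ∃ b ∈ B, ⁅a, a'⁆ * b * ⁅a, a'⁆⁻¹ * b ≠ b * (⁅a, a'⁆ * b * ⁅a, a'⁆⁻¹)

/-- a large primitive prime -/
def Pr (n : ℕ) (F : Type*) (r : ℕ) : Prop :=
  r.Prime ∧ r ≠ 2 ∧ ∀ d, 0 < d → 2 ^ d < Nat.card F ^ (n + 2) → ¬ r ∣ 2 ^ d - 1

/-- a fixed element of large prime order -/
def Zs (α : XX n F →* XX n F) : Prop := ∃ ρ r, α ρ = ρ ∧ orderOf ρ = r ∧ Pr n F r

/-- conjugate under the general linear group -/
def Cj (α β : XX n F →* XX n F) : Prop := ∃ C : GX n F, ∀ M, α (gc C M) = gc C (β M)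

variable [CharP F 2]

/-- the graph automorphism normalising `UU` -/
def tw : XX n F →* XX n F := (cn (pmL Fin.revPerm)).comp it

/-- an involution of the field -/
def Sg (σ : RingAut F) : Prop := σ ≠ 1 ∧ ∀ a, σ (σ a) = a

/-- automorphisms preserving the pinning up to diagonal factors -/
def Pn (α : XX n F →* XX n F) (φ : RingAut F) (ε : Bool) : Prop := ∃ d : Fin (n + 3) → Fˣ, ∀ i j c,
  α (xe i j c) = if ε then xe j.rev i.rev (d i * (d j)⁻¹ * φ c) else xe i j (d i * (d j)⁻¹ * φ c)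

/-- an involutory outer automorphism -/
structure Ou (g : GX n F) (φ : RingAut F) (ε : Bool) : Prop where
  inv : ∀ x, au g φ ε (au g φ ε x) = x
  sq : ∀ a, φ (φ a) = a
  out : φ ≠ 1 ∨ ε = true

/-- a line `C` of `J` with a group `R` of axial elements -/
structure Ln (J R C : Subgroup (XX n F)) : Prop where
  el : El R
  ne : R ≠ ⊥
  four : n = 1 → 4 ≤ Nat.card R
  nJ : R ≤ 𝐍(J)
  le : C ≤ J
  card : Nat.card C = Nat.card F ^ kk n
  cm : ∀ r ∈ R, r ≠ 1 → IsCm J r C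

/-- the quadratic extension rings -/
abbrev KK (α : F) : Type _ := QuadraticAlgebra F α 1

end model

section conf
variable {G : Type*} [Group G] {F : Type*} [Field F] {n : ℕ}

/-- central kernel -/
def Em (ι : XX n F →* G) : Prop := ι.ker ≤ center _
/-- `a` induces `α` -/
def Act (ι : XX n F →* G) (a : G) (α : XX n F →* XX n F) : Prop := ∀ x, a * ι x * a⁻¹ = ι (α x)
/-- inner-diagonal -/
def Dg (ι : XX n F →* G) (a : G) : Prop := ∃ g, Act ι a (au g 1 false)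
/-- not of graph type -/
def NG (ι : XX n F →* G) (a : G) : Prop := ∃ g φ, Act ι a (au g φ false)
/-- linear graph type -/
def LG (ι : XX n F →* G) (a : G) : Prop := ∃ g, Act ι a (au g 1 true)
/-- `Gd` for the induced automorphism -/
def Good (ι : XX n F →* G) (a : G) : Prop := ∃ α, Act ι a α ∧ Gd α
/-- conjugated parametrisation -/
def cι (ι : XX n F →* G) (g : G) : XX n F →* G := (MulAut.conj g).toMonoidHom.comp ι

theorem cι_apply (ι : XX n F →* G) (g : G) (x : XX n F) : cι ι g x = g * ι x * g⁻¹ := rfl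

/-- the standard configuration -/
structure C1 (ι : XX n F →* G) (t : G) : Prop where
  em : Em ι
  t2 : t * t = 1
  t1 : t ≠ 1
  tc : ∀ x, t * ι x = ι x * t
  CN : ∀ g, g * t = t * g → g ∈ 𝐍(ι.range)
  uq : ∀ c ∈ 𝐂(ι.range), c * c = 1 → c * t = t * c → c = 1 ∨ c = t

/-- with `⟨t⟩` Sylow in the centraliser -/
structure C2 (ι : XX n F →* G) (t : G) : Prop extends C1 ι t where
  two : Two ι.range t

/-- odd elements of `C(L) ⊓ C(t)` -/
def Oo (ι : XX n F →* G) (t o : G) : Prop := o ∈ 𝐂(ι.range) ∧ o * t = t * o ∧ Odd (orderOf o)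
/-- centralises the odd elements -/
def CO (ι : XX n F →* G) (t d : G) : Prop := ∀ o, Oo ι t o → d * o = o * d
/-- centralises the image of `W` -/
def Cn (ι : XX n F →* G) (W : Subgroup (XX n F)) (d : G) : Prop := ∀ x ∈ W, d * ι x = ι x * d

/-- `d` centralises `Q` and translates `t` by `x_ij(c)` -/
def D0 (ι : XX n F →* G) (t : G) (i j : Fin (n + 3)) (c : F) (d : G) : Prop :=
  Cn ι (QQ F i j) d ∧ d * t * d⁻¹ = t * ι (xe i j c)

/-- `y` centralises `Z` and `Q / Z` and translates `t` -/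
def D1 (ι : XX n F →* G) (t : G) (c : F) (y : G) : Prop :=
  Cn ι (RR F 0 iL) y ∧ (∀ x ∈ QQ F 0 iL, ∃ a, y * ι x * y⁻¹ = ι x * ι (xe 0 iL a)) ∧
    y * t * y⁻¹ = t * ι (xe 0 iL c)

/-- elements of the doubled root group -/
def Xs (ι : XX n F →* G) (t : G) (i j : Fin (n + 3)) (c : F) (w : G) : Prop :=
  D0 ι t i j c w ∧ CO ι t w ∧ w * w = 1 ∧ ∀ a, w ≠ t * ι (xe i j a)

/-- 2-elements with `D0` and `CO` -/
def SV (ι : XX n F →* G) (t : G) (i j : Fin (n + 3)) (c : F) (w : G) : Prop :=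
  D0 ι t i j c w ∧ CO ι t w ∧ P2 w

/-- the doubled group -/
def YY (ι : XX n F →* G) (t : G) : Subgroup G :=
  closure {y | ∃ x c w, Xs ι t 0 iL c w ∧ y = ι x * w * (ι x)⁻¹}

/-- `t` moves inside `t Z` -/
structure C3 (ι : XX n F →* G) (t : G) : Prop extends C2 ι t where
  ex : ∀ i j, i ≠ j → ∀ c, ∃ w, SV ι t i j c w

/-- the relations inside a row -/
structure Row (ι : XX n F →* G) (t : G) : Prop where
  ex : ∀ i j, i ≠ j → ∀ c, ∃ w, Xs ι t i j c w
  mul : ∀ i j, i ≠ j → ∀ c c' w w', Xs ι t i j c w → Xs ι t i j c' w' → Xs ι t i j (c + c') (w * w')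
  cm : ∀ i j l, i ≠ j → i ≠ l → ∀ c c' w w', Xs ι t i j c w → Xs ι t i l c' w' → w * w' = w' * w
  act : ∀ i j l, i ≠ j → i ≠ l → j ≠ l → ∀ c a w, Xs ι t i j c w →
    Xs ι t i l (c * a) (w * ι (xe j l a) * w * ι (xe j l a))

/-- all relations between the doubled root groups -/
structure C4 (ι : XX n F →* G) (t : G) : Prop extends C3 ι t where
  row : Row ι t
  cmc : ∀ i j l, i ≠ j → l ≠ j → ∀ c c' w w', Xs ι t i j c w → Xs ι t l j c' w' → w * w' = w' * w
  actc : ∀ i j l, i ≠ j → i ≠ l → j ≠ l → ∀ c a w, Xs ι t j l c w →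
    Xs ι t i l (a * c) (w * ι (xe i j a) * w * ι (xe i j a))

/-- coordinates on the doubled root groups -/
structure Wt [CharP F 2] (ι : XX n F →* G) (t : G) (W : Fin (n + 3) → Fin (n + 3) → F → G) : Prop where
  xs : ∀ i j, i ≠ j → ∀ c, Xs ι t i j c (W i j c)
  add : ∀ i j, i ≠ j → ∀ a b, W i j a * W i j b = W i j (a + b)
  pm : ∀ i j, i ≠ j → ∀ (π : Equiv.Perm (Fin (n + 3))) c,
    ι (pmL π) * W i j c * (ι (pmL π))⁻¹ = W (π i) (π j) c
  dg : ∀ i j, i ≠ j → ∀ d h c,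
    ι (H63.St.SL.dg d h) * W i j c * (ι (H63.St.SL.dg d h))⁻¹ = W i j (d i * (d j)⁻¹ * c)
  r : ∀ i j l, i ≠ j → i ≠ l → j ≠ l → ∀ c a, W i j c * ι (xe j l a) * W i j c * ι (xe j l a) = W i l (c * a)
  l : ∀ i j l, i ≠ j → i ≠ l → j ≠ l → ∀ c a, W j l c * ι (xe i j a) * W j l c * ι (xe i j a) = W i l (a * c)

/-- Steinberg coordinates over a ring `K` -/
structure Stb [CharP F 2] (ι : XX n F →* G) (t : G) (α : F) (Y : Fin (n + 3) → Fin (n + 3) → KK α → G) : Prop where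
  add : ∀ i j, i ≠ j → ∀ a b, Y i j a * Y i j b = Y i j (a + b)
  c0 : ∀ i j k l, i ≠ j → k ≠ l → i ≠ l → j ≠ k → ∀ a b, Y i j a * Y k l b = Y k l b * Y i j a
  c1 : ∀ i j l, i ≠ j → j ≠ l → i ≠ l → ∀ a b, ⁅Y i j a, Y j l b⁆ = Y i l (a * b)
  res : ∀ i j, i ≠ j → ∀ a, Y i j (algebraMap F (KK α) a) = ι (xe i j a)
  tw : ∀ i j, i ≠ j → ∀ a, t * Y i j a * t = Y i j (star a)
  xs : ∀ i j, i ≠ j → ∀ w, (∃ c, Xs ι t i j c w) ↔ ∃ a, w = Y i j a

/-- the field case -/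
structure Fc {K : Type*} [Field K] (ι : XX n F →* G) (ψ : XX n K →* G) (f : F →+* K) (σ : RingAut K)
    (t : G) (E : Subgroup G) : Prop extends C4 ι t where
  em' : Em ψ
  sg : σ ≠ 1 ∧ ∀ a, σ (σ a) = a
  fix : ∀ a, σ a = a ↔ a ∈ f.range
  res : ∀ x, ψ (Matrix.SpecialLinearGroup.map f x) = ι x
  tw : Act ψ t (fr σ)
  yy : YY ι t = ψ.range
  am : Am ψ.range E t

/-- the wreath case: `ψ` and its conjugate by `t` -/
structure Wc (ι ψ : XX n F →* G) (t : G) (E : Subgroup G) : Prop extends C4 ι t where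
  em' : Em ψ
  comm : ∀ x y, ψ x * cι ψ t y = cι ψ t y * ψ x
  res : ∀ x, ψ x * cι ψ t x = ι x
  yy : YY ι t = ψ.range ⊔ (cι ψ t).range
  am : Am (ψ.range ⊔ (cι ψ t).range) E t

/-- two commuting copies with odd common centraliser -/
structure Pa (ψ χ : XX n F →* G) : Prop where
  e1 : Em ψ
  e2 : Em χ
  comm : ∀ x y, ψ x * χ y = χ y * ψ x
  odd : ∀ c ∈ 𝐂(ψ.range), c ∈ 𝐂(χ.range) → P2 c → c = 1
  perm : ∀ m ∈ 𝐍(ψ.range ⊔ χ.range), (m ∈ 𝐍(ψ.range) ∧ m ∈ 𝐍(χ.range)) ∨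
    (ψ.range ^ᶜ m = χ.range ∧ χ.range ^ᶜ m = ψ.range)

/-- pure elements -/
def Pu (ψ χ : XX n F →* G) (x : G) : Prop := x ∈ ψ.range ∨ x ∈ χ.range

/-- the wreath case with control: `χ = ψ^t` -/
structure Wk (ι ψ χ : XX n F →* G) (t : G) : Prop extends C2 ι t where
  pa : Pa ψ χ
  sw : ∀ x, t * ψ x * t = χ x
  res : ∀ x, ψ x * χ x = ι x
  ct : Ct 𝐍(ψ.range ⊔ χ.range) t

/-- the elements normalising both factors -/
def Mo (ψ χ : XX n F →* G) : Subgroup G := 𝐍(ψ.range) ⊓ 𝐍(χ.range)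

/-- the class of a transvection of the first factor -/
def Cl (ψ : XX n F →* G) (v : G) : Prop := IsConj (ψ (xe 0 iL 1)) v

end conf

theorem eqns_Defs : True := by
  have := @kk.eq_1; have := @MM.eq_1; have := @it.eq_1.{0}; have := @cn.eq_1.{0}; have := @au.eq_1.{0}
  have := @rk.eq_1.{0}; have := @RR.eq_1.{0}; have := @QQ.eq_1.{0}; have := @PP.eq_1.{0}
  have := @AA.eq_1.{0}; have := @BB.eq_1.{0}; have := @UU.eq_1.{0}; have := @JJ.eq_1.{0}
  have := @IsJ.eq_1.{0}; have := @Tw.eq_1.{0}; have := @Cb.eq_1.{0}; have := @Gd.eq_1.{0}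
  have := @Al.eq_1.{0}; have := @Hf.eq_1.{0}; have := @Pr.eq_1.{0}; have := @Zs.eq_1.{0}
  have := @Cj.eq_1.{0}; have := @tw.eq_1.{0}; have := @Sg.eq_1.{0}; have := @Pn.eq_1.{0}
  have := @Em.eq_1.{0, 0}; have := @Act.eq_1.{0, 0}; have := @Dg.eq_1.{0, 0}; have := @NG.eq_1.{0, 0}
  have := @LG.eq_1.{0, 0}; have := @Good.eq_1.{0, 0}; have := @cι.eq_1.{0, 0}; have := @Oo.eq_1.{0, 0}
  have := @CO.eq_1.{0, 0}; have := @Cn.eq_1.{0, 0}; have := @D0.eq_1.{0, 0}; have := @Xs.eq_1.{0, 0}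
  have := @SV.eq_1.{0, 0}; have := @D1.eq_1.{0, 0}
  have := @YY.eq_1.{0, 0}; have := @Pu.eq_1.{0, 0}; have := @Mo.eq_1.{0, 0}
  have := @Cl.eq_1.{0, 0}
  trivial

end LMS
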