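import Cfsg.Agent.Lib.LMS.AL
import Cfsg.Agent.Lib.LMS.B4b

set_option autoImplicit false
set_option linter.unusedSectionVars false

namespace LMS

open Subgroup H69 Cfsg Matrix U4S
open scoped MatrixGroups commutatorElement

universe u
variable {G : Type*} [Group G] [Finite G] {F : Type u} [Field F] [CharP F 2] [Fintype F] {n : ℕ} [Ok n F]
  {ι ψ χ : XX n F →* G} {t : G} {E : Subgroup G}

local notation "X" => XX n F
local notation "I" => Fin (n + 3)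
local notation "Mx" => Matrix (Fin (n + 3)) (Fin (n + 3)) F

namespace GD

/-- the fixed points -/
def Fx (β : X →* X) : Subgroup X := β.eqLocus (MonoidHom.id _)

theorem cm22 {Γ : Type*} [Group Γ] {a b c d z₁ z₂ z₃ z₄ : Γ} (h1 : ⁅a, c⁆ = z₁) (h2 : ⁅a, d⁆ = z₂)
    (h3 : ⁅b, c⁆ = z₃) (h4 : ⁅b, d⁆ = z₄) (k2 : c * z₂ = z₂ * c) (k3 : a * z₃ = z₃ * a)
    (k4 : c * z₄ = z₄ * c) (k5 : a * z₄ = z₄ * a) : ⁅a * b, c * d⁆ = z₃ * z₄ * (z₁ * z₂) := by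
  have e : ∀ x : Γ, ⁅x, c * d⁆ = ⁅x, c⁆ * (c * ⁅x, d⁆ * c⁻¹) := fun x => by
    simp only [commutatorElement_def]; group
  have e' : ⁅a * b, c * d⁆ = a * ⁅b, c * d⁆ * a⁻¹ * ⁅a, c * d⁆ := by
    simp only [commutatorElement_def]; group
  rw [e', e, e, h1, h2, h3, h4, k2, k4, mul_inv_cancel_right, mul_inv_cancel_right, ← mul_assoc a, k3,
    mul_assoc z₃ a, k5, ← mul_assoc z₃, mul_inv_cancel_right]

theorem c1 {i j l : I} (h1 : i ≠ j) (h2 : j ≠ l) (h3 : i ≠ l) (a b : F) :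
    ⁅(xe i j a : X), xe j l b⁆ = xe i l (a * b) := by
  rw [commutatorElement_def, xe_inv, xe_inv, xe_c1 h1 h2 h3]

theorem c1' {i j l : I} (h1 : i ≠ j) (h2 : j ≠ l) (h3 : i ≠ l) (a b : F) :
    ⁅(xe j l b : X), xe i j a⁆ = xe i l (a * b) := by
  rw [← commutatorElement_inv, c1 h1 h2 h3, xe_inv]

theorem c0 {i j k l : I} (h1 : i ≠ l) (h2 : j ≠ k) (a b : F) : ⁅(xe i j a : X), xe k l b⁆ = 1 :=
  commutatorElement_eq_one_iff_mul_comm.2 (xe_c0 h1 h2 a b)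

theorem xU {i j : I} (h : i < j) (c : F) : (xe i j c : X) ∈ UU n F := subset_closure ⟨i, j, c, h, rfl⟩

theorem ne1 {i j : I} (h : i ≠ j) : (xe i j (1 : F) : X) ≠ 1 := fun e =>
  one_ne_zero (xe_cen h (e ▸ one_mem _))

theorem gd_of {β : X →* X} {y : X} (hy : y ∈ ⁅Fx β ⊓ UU n F, Fx β ⊓ UU n F⁆) (y2 : y * y = 1) (y1 : y ≠ 1)
    (k : Tw β y) : Gd β :=
  ⟨Fx β ⊓ UU n F, sylU.isP.to_inf_right, fun _ hp => hp.1, y, hy, y2, y1, k⟩

theorem cj_fix {α β : X →* X} {C : GX n F} (h : ∀ M, α (gc C M) = gc C (β M)) {P : Subgroup X}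
    (k : ∀ p ∈ P, β p = p) : ∀ p ∈ P.map (gc C).toMonoidHom, α p = p := by
  rintro _ ⟨p, hp, rfl⟩
  exact (h p).trans (congrArg _ (k p hp))

theorem cj_cm (C : GX n F) {P : Subgroup X} {y : X} (hy : y ∈ ⁅P, P⁆) :
    gc C y ∈ ⁅P.map (gc C).toMonoidHom, P.map (gc C).toMonoidHom⁆ := by
  rw [← Subgroup.map_commutator]; exact mem_map_of_mem _ hy

theorem cj_tw {α β : X →* X} {C : GX n F} (h : ∀ M, α (gc C M) = gc C (β M)) {y : X} (k : Tw β y) :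
    Tw α (gc C y) := by
  obtain ⟨x, rfl⟩ := k
  exact ⟨gc C x, by rw [h, map_mul, map_inv]⟩

theorem cj_cb {α β : X →* X} (h : Cj α β) (k : Cb β) : Cb α := by
  obtain ⟨C, h⟩ := h
  obtain ⟨P, h1, y, h2, h3, h4, h5⟩ := k
  exact ⟨_, cj_fix h h1, _, cj_cm C h2, by rw [← map_mul, h3, map_one], by simpa using h4, cj_tw h h5⟩

theorem n01 : (0 : I) ≠ 1 := by simp
theorem n0L : (0 : I) ≠ iL := by simp [Fin.ext_iff]
theorem n1L : (1 : I) ≠ iL := by simp [Fin.ext_iff]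
theorem r0 : (0 : I).rev = iL := Fin.rev_zero _
theorem rL : (iL : I).rev = 0 := Fin.rev_last _
theorem l01 : (0 : I) < 1 := by simp
theorem l0L : (0 : I) < iL := by simp [Fin.lt_def]
theorem l1L : (1 : I) < iL := by simp [Fin.lt_def]
theorem rv : ((1 : I).rev : ℕ) = n + 1 := by simp [Fin.val_rev]
theorem l0r : (0 : I) < (1 : I).rev := by simp [Fin.lt_def, rv]
theorem lrL : (1 : I).rev < iL := by simp [Fin.lt_def, rv]
theorem l1r (hn : 1 ≤ n) : (1 : I) < (1 : I).rev := by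
  rw [Fin.lt_def, rv]; simp; omega

theorem twz {β : X →* X} {φ : RingAut F} (hφ : Sg φ) (h : ∀ c, β (xe 0 iL c) = xe 0 iL (φ c)) :
    Tw β (xe 0 iL 1) := by
  obtain ⟨ω, hω⟩ := sg_free hφ
  exact ⟨xe 0 iL ω, by rw [h, xe_inv, xe_mul, hω]⟩

theorem gdA {φ : RingAut F} (hφ : Sg φ) : Gd (fr φ : X →* X) := by
  refine gd_of ?_ (xe_sq _ _ _) (ne1 n0L) (twz hφ fun c => fr_xe φ _ _ c)
  have := commutator_mem_commutator (H₁ := Fx (fr φ : X →* X) ⊓ UU n F) (H₂ := Fx (fr φ : X →* X) ⊓ UU n F)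
    (g₁ := xe 0 1 1) (g₂ := xe 1 iL 1) ⟨(fr_xe φ _ _ 1).trans (by rw [map_one]; rfl), xU l01 1⟩
    ⟨(fr_xe φ _ _ 1).trans (by rw [map_one]; rfl), xU l1L 1⟩
  rwa [c1 n01 n1L n0L, mul_one] at this

theorem twfr (φ : RingAut F) (i j : I) (c : F) :
    (tw.comp (fr φ) : X →* X) (xe i j c) = xe j.rev i.rev (φ c) := by
  rw [MonoidHom.comp_apply, fr_xe, tw_xe]

theorem zB {φ : RingAut F} (hφ : Sg φ) : (xe 0 iL 1 : X) ∈
    ⁅Fx (tw.comp (fr φ) : X →* X) ⊓ UU n F, Fx (tw.comp (fr φ) : X →* X) ⊓ UU n F⁆ := by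
  obtain ⟨ω, hω⟩ := sg_free hφ
  rcases Nat.eq_zero_or_pos n with hn | hn
  · have r1 : (1 : I).rev = 1 := Fin.ext (by rw [rv, hn]; simp)
    have m : ∀ a : F, (xe 0 1 a * (xe 1 iL (φ a) * xe 0 iL (ω * (a * φ a))) : X) ∈
        Fx (tw.comp (fr φ) : X →* X) ⊓ UU n F := fun a => by
      refine ⟨?_, mul_mem (xU l01 _) (mul_mem (xU l1L _) (xU l0L _))⟩
      change (tw.comp (fr φ) : X →* X) _ = xe 0 1 a * (xe 1 iL (φ a) * xe 0 iL (ω * (a * φ a)))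
      have e : (xe 1 iL (φ a) : X) * xe 0 1 a = xe 0 iL (a * φ a) * (xe 0 1 a * xe 1 iL (φ a)) := by
        rw [← c1' n01 n1L n0L, commutatorElement_def]; group
      rw [map_mul, map_mul, twfr, twfr, twfr, r0, r1, rL, hφ.2, ← mul_assoc, e,
        ← RR_cen (mem_RR.2 ⟨_, rfl⟩) (mul_mem (xU l01 _) (xU l1L _)), mul_assoc, xe_mul, mul_assoc]
      congr 3
      rw [map_mul, map_mul, hφ.2, mul_comm (φ a) a, ← one_add_mul, ← hω, add_assoc, CharTwo.add_self_eq_zero,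
        add_zero]
    have := commutator_mem_commutator (m 1) (m ω)
    have cz : ∀ (u : X) (c : F), u ∈ UU n F → u * xe 0 iL c = xe 0 iL c * u := fun u c hu =>
      RR_cen (mem_RR.2 ⟨_, rfl⟩) hu
    have cz' : ∀ (u : X) (c : F), u ∈ UU n F → ⁅u, xe 0 iL c⁆ = 1 := fun u c hu =>
      commutatorElement_eq_one_iff_mul_comm.2 (cz u c hu)
    rw [cm22 (z₁ := 1) (z₂ := xe 0 iL (φ ω)) (z₃ := xe 0 iL ω) (z₄ := 1) (c0 n01 n01.symm _ _) ?_ ?_ ?_
      (cz _ _ (xU l01 _)) (cz _ _ (xU l01 _)) (by simp) (by simp), mul_one, one_mul, xe_mul, hω] at this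
    · exact this
    · rw [← one_mul (xe 0 1 1 : X), cm22 (z₁ := 1) (z₂ := 1) (z₃ := xe 0 iL (φ ω)) (z₄ := 1) (by simp) (by simp)
        (by rw [c1 n01 n1L n0L, one_mul]) (cz' _ _ (xU l01 _)) (by simp) (by simp) (by simp) (by simp)]
      simp
    · rw [← mul_one (xe 0 1 ω : X), cm22 (z₁ := xe 0 iL ω) (z₂ := 1) (z₃ := 1) (z₄ := 1)
        (by rw [c1' n01 n1L n0L, map_one, mul_one]) (by simp) (c0 n01 n0L.symm _ _) (by simp) (by simp) (by simp)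
        (by simp) (by simp)]
      simp
    · rw [cm22 (z₁ := 1) (z₂ := 1) (z₃ := 1) (z₄ := 1) (c0 n1L n1L.symm _ _) (cz' _ _ (xU l1L _))
        (c0 n0L n1L.symm _ _) (c0 n0L n0L.symm _ _) (by simp) (by simp) (by simp) (by simp)]
      simp
  · have m1 : (xe 0 1 1 * xe (1 : I).rev iL 1 : X) ∈ Fx (tw.comp (fr φ) : X →* X) ⊓ UU n F := by
      refine ⟨?_, mul_mem (xU l01 _) (xU lrL _)⟩
      change (tw.comp (fr φ) : X →* X) _ = xe 0 1 1 * xe (1 : I).rev iL 1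
      rw [map_mul, twfr, twfr, r0, rL, Fin.rev_rev, map_one, xe_c0 n0L (l1r hn).ne]
    have m2 : (xe 0 (1 : I).rev ω * xe 1 iL (φ ω) : X) ∈ Fx (tw.comp (fr φ) : X →* X) ⊓ UU n F := by
      refine ⟨?_, mul_mem (xU l0r _) (xU l1L _)⟩
      change (tw.comp (fr φ) : X →* X) _ = xe 0 (1 : I).rev ω * xe 1 iL (φ ω)
      rw [map_mul, twfr, twfr, r0, rL, Fin.rev_rev, hφ.2, xe_c0 n0L (l1r hn).ne']
    have := commutator_mem_commutator m1 m2
    rwa [cm22 (c0 l0r.ne n01.symm _ _) (c1 n01 n1L n0L _ _) (c1' l0r.ne lrL.ne n0L _ _)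
      (c0 lrL.ne n1L.symm _ _) (xe_c0 n0L l0r.ne' _ _) (xe_c0 n0L n01.symm _ _) (by simp) (by simp),
      mul_one, mul_one, one_mul, one_mul, xe_mul, hω] at this

theorem gdB {φ : RingAut F} (hφ : Sg φ) : Gd (tw.comp (fr φ) : X →* X) :=
  gd_of (zB hφ) (xe_sq _ _ _) (ne1 n0L) (twz hφ fun c => by rw [twfr, r0, rL])

/-- the twisted element of the linear graph case -/
theorem uv (hn : 1 ≤ n) (a b : F) : (xe 0 (1 : I).rev (a * b) * xe 1 iL (a * b) * xe 0 iL (a * a * b) : X) ∈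
    ⁅Fx (tw : X →* X) ⊓ UU n F, Fx (tw : X →* X) ⊓ UU n F⁆ := by
  have m1 : (xe 0 1 a * xe (1 : I).rev iL a : X) ∈ Fx (tw : X →* X) ⊓ UU n F := by
    refine ⟨?_, mul_mem (xU l01 _) (xU lrL _)⟩
    change (tw : X →* X) _ = xe 0 1 a * xe (1 : I).rev iL a
    rw [map_mul, tw_xe, tw_xe, r0, rL, Fin.rev_rev, xe_c0 n0L (l1r hn).ne]
  have m2 : (xe 1 (1 : I).rev b : X) ∈ Fx (tw : X →* X) ⊓ UU n F :=
    ⟨by change (tw : X →* X) _ = xe 1 (1 : I).rev b; rw [tw_xe, Fin.rev_rev], xU (l1r hn) _⟩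
  have := commutator_mem_commutator m1 m2
  have e : ∀ p q v : X, ⁅p * q, v⁆ = ⁅p, ⁅q, v⁆⁆ * ⁅q, v⁆ * ⁅p, v⁆ := fun p q v => by
    simp only [commutatorElement_def]; group
  rw [e, c1' (l1r hn).ne lrL.ne n1L, c1 n01 n1L n0L, c1 n01 (l1r hn).ne l0r.ne] at this
  rw [xe_c0 n0L (l1r hn).ne', RR_cen (mem_RR.2 ⟨_, rfl⟩) (mul_mem (xU l1L _) (xU l0r _)), ← mul_assoc,
    mul_assoc a a b, mul_comm a b]
  rwa [mul_comm a b] at this

theorem ex_a (h4 : 4 ≤ Nat.card F) : ∃ a : F, a ≠ 0 ∧ a ≠ 1 := by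
  classical
  by_contra hc
  push Not at hc
  have : (Finset.univ : Finset F) ⊆ {0, 1} := fun a _ => by
    by_cases e : a = 0
    · simp [e]
    · simp [hc a e]
  have := (Finset.card_le_card this).trans Finset.card_le_two
  rw [Finset.card_univ, ← Nat.card_eq_fintype_card] at this
  omega

theorem yy (hn : 1 ≤ n) (h2 : n ≠ 2) : (xe 0 (1 : I).rev 1 * xe 1 iL 1 : X) ∈
    ⁅Fx (tw : X →* X) ⊓ UU n F, Fx (tw : X →* X) ⊓ UU n F⁆ := by
  by_cases h1 : n ≤ 1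
  · have h4 : 4 ≤ Nat.card F := Ok.h h1
    obtain ⟨a, a0, a1⟩ := ex_a h4
    have a2 : 1 + a ≠ 0 := fun e => a1 (by
      rw [← add_left_inj 1, CharTwo.add_self_eq_zero, add_comm, e])
    have k : ∀ b : F, (xe 0 iL (b + a * b) : X) ∈
        ⁅Fx (tw : X →* X) ⊓ UU n F, Fx (tw : X →* X) ⊓ UU n F⁆ := fun b => by
      have := mul_mem (inv_mem (uv hn 1 b)) (uv hn a (a⁻¹ * b))
      rwa [mul_assoc a a, mul_inv_cancel_left₀ a0, one_mul, one_mul, one_mul, _root_.mul_inv_rev _ (xe 0 iL b),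
        mul_assoc, inv_mul_cancel_left, xe_inv, xe_mul] at this
    have := mul_mem (uv hn 1 1) (k (1 + a)⁻¹)
    rwa [← one_add_mul, mul_inv_cancel₀ a2, mul_one, mul_one, mul_assoc, xe_sq, mul_one] at this
  · obtain ⟨c, hc⟩ : ∃ c : I, (c : ℕ) = 2 := ⟨⟨2, by omega⟩, rfl⟩
    have cr : (c.rev : ℕ) = n := by rw [Fin.val_rev, hc]; omega
    have v0 : ((0 : I) : ℕ) = 0 := rfl
    have v1 : ((1 : I) : ℕ) = 1 := rfl
    have vL : ((iL : I) : ℕ) = n + 2 := rfl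
    have vr := rv (n := n)
    have lt : ∀ {i j : I}, (i : ℕ) < j → i < j := fun h => h
    have ne : ∀ {i j : I}, (i : ℕ) ≠ j → i ≠ j := fun h e => h (congrArg _ e)
    have m1 : (xe 0 c 1 * xe c.rev iL 1 : X) ∈ Fx (tw : X →* X) ⊓ UU n F := by
      refine ⟨?_, mul_mem (xU (lt (by omega)) _) (xU (lt (by omega)) _)⟩
      change (tw : X →* X) _ = xe 0 c 1 * xe c.rev iL 1
      rw [map_mul, tw_xe, tw_xe, r0, rL, Fin.rev_rev, xe_c0 n0L (ne (by omega))]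
    have m2 : (xe c (1 : I).rev 1 * xe 1 c.rev 1 : X) ∈ Fx (tw : X →* X) ⊓ UU n F := by
      refine ⟨?_, mul_mem (xU (lt (by omega)) _) (xU (lt (by omega)) _)⟩
      change (tw : X →* X) _ = xe c (1 : I).rev 1 * xe 1 c.rev 1
      rw [map_mul, tw_xe, tw_xe, Fin.rev_rev, Fin.rev_rev, xe_c0 (ne (by omega)) (ne (by omega))]
    have := commutator_mem_commutator m1 m2
    rwa [cm22 (c1 (ne (by omega)) (ne (by omega)) l0r.ne _ _) (c0 (ne (by omega)) (ne (by omega)) _ _)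
      (c0 (ne (by omega)) (ne (by omega)) _ _) (c1' (ne (by omega)) (ne (by omega)) n1L _ _) (by simp) (by simp)
      (xe_c0 (ne (by omega)) (ne (by omega)) _ _) (xe_c0 n0L (ne (by omega)) _ _), one_mul, mul_one, mul_one,
      ← xe_c0 n0L (l1r hn).ne'] at this

theorem y2 (hn : 1 ≤ n) : (xe 0 (1 : I).rev (1 : F) * xe 1 iL 1 * (xe 0 (1 : I).rev 1 * xe 1 iL 1) : X) = 1 := by
  rw [mul_assoc, ← mul_assoc (xe 1 iL 1), ← xe_c0 n0L (l1r hn).ne', mul_assoc, xe_sq, mul_one, xe_sq]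

theorem y1 : (xe 0 (1 : I).rev (1 : F) * xe 1 iL 1 : X) ≠ 1 := fun e =>
  one_ne_zero (xe2_cen l0r.ne n1L (Or.inl n01) (e ▸ one_mem _)).1

theorem al_tw (hn : Even n) : Al (tw : X →* X) := by
  obtain ⟨g, hg⟩ := tw_au (n := n) (1 : RingAut F)
  have e : (tw : X →* X) = au g 1 true := by
    rw [← hg]; exact ext_xe fun i j c => by rw [twfr, tw_xe]; rfl
  rw [e]
  exact al_out ⟨fun x => by rw [← e, tw_tw], fun _ => rfl, Or.inr rfl⟩ (Or.inr hn)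

theorem cm_le (β : X →* X) : ⁅Fx β ⊓ UU n F, Fx β ⊓ UU n F⁆ ≤ Fx β :=
  (commutator_le_of_le le_rfl le_rfl).trans inf_le_left

theorem gdC (hn : 1 ≤ n) : Gd (tw : X →* X) := by
  by_cases h2 : n = 2
  · have k := uv (F := F) hn 1 1
    rw [mul_one, mul_one] at k
    have cz := RR_cen (x := (xe 0 iL 1 : X)) (mem_RR.2 ⟨_, rfl⟩) (mul_mem (xU l0r (1 : F)) (xU l1L 1))
    have s : (xe 0 (1 : I).rev (1 : F) * xe 1 iL 1 * xe 0 iL 1 *
        (xe 0 (1 : I).rev 1 * xe 1 iL 1 * xe 0 iL 1) : X) = 1 := by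
      have hw := y2 (F := F) hn
      have hz : (xe 0 iL (1 : F) * xe 0 iL 1 : X) = 1 := xe_sq _ _ _
      generalize (xe 0 (1 : I).rev (1 : F) * xe 1 iL 1 : X) = w at cz hw ⊢
      generalize (xe 0 iL (1 : F) : X) = z at cz hz ⊢
      rw [mul_assoc, ← mul_assoc z, ← cz, mul_assoc, hz, mul_one, hw]
    refine gd_of k s (fun e => ?_) (al_tw (h2 ▸ even_two) _ (by rw [show tw _ = _ from cm_le _ k]; exact s))
    rw [mul_eq_one_iff_eq_inv, xe_inv] at e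
    have := congrArg (fun M : X => M.1 1 iL) e
    simp [xe_val, l0r.ne, n0L, n1L, mul_add, add_mul, single_mul_single_of_ne, l0r.ne', n01, n01.symm,
      single_apply, one_apply] at this
  · exact gd_of (yy hn h2) (y2 hn) y1 ⟨xe 0 (1 : I).rev 1, by rw [tw_xe, Fin.rev_rev, r0, xe_inv]⟩

theorem gdD (hn : Odd n) : Gd ((cn (xe 0 iL 1)).comp tw : X →* X) := by
  have h1 : 1 ≤ n := hn.pos
  have cz : ∀ u ∈ UU n F, (cn (xe 0 iL (1 : F)) : X →* X) u = u := fun u hu => by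
    rw [cn_apply, ← RR_cen (mem_RR.2 ⟨_, rfl⟩) hu, mul_inv_cancel_right]
  have le : Fx (tw : X →* X) ⊓ UU n F ≤ Fx ((cn (xe 0 iL 1)).comp tw : X →* X) ⊓ UU n F := fun u hu =>
    ⟨(congrArg (cn (xe 0 iL (1 : F))) hu.1).trans (cz u hu.2), hu.2⟩
  refine gd_of (commutator_mono le le (yy h1 fun e => by rw [e] at hn; exact absurd hn (by decide))) (y2 h1) y1
    ⟨xe 0 (1 : I).rev 1, ?_⟩
  rw [MonoidHom.comp_apply, tw_xe, Fin.rev_rev, r0, cz _ (xU l1L _), xe_inv]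

theorem wcj {i j : I} (h : i ≠ j) {μ : F} (hμ : μ ≠ 0) (c : F) :
    (xe i j μ * xe j i μ⁻¹ * xe i j μ * xe i j c : X) =
      xe j i (μ⁻¹ * μ⁻¹ * c) * (xe i j μ * xe j i μ⁻¹ * xe i j μ) := by
  refine Subtype.ext ?_
  have two : ∀ M : Mx, M + M = 0 := fun M => by ext; exact CharTwo.add_self_eq_zero _
  simp only [Matrix.SpecialLinearGroup.coe_mul, xe_val h, xe_val h.symm, mul_add, add_mul, one_mul, mul_one,
    single_mul_single_same, single_mul_single_of_ne _ _ _ _ h, single_mul_single_of_ne _ _ _ _ h.symm,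
    mul_inv_cancel₀ hμ, inv_mul_cancel₀ hμ, zero_mul, mul_zero, add_zero, inv_mul_cancel_right₀ hμ]
  rw [show μ⁻¹ * μ⁻¹ * c * μ = μ⁻¹ * c by field_simp]
  ext a b
  simp only [Matrix.add_apply, single_apply, one_apply]
  have t := CharTwo.two_eq_zero (R := F)
  split_ifs <;> first
    | (exfalso; grind)
    | ring1
    | linear_combination c * t
    | linear_combination -(μ⁻¹ * μ⁻¹ * c) * t
    | linear_combination (μ⁻¹ * c) * t
    | linear_combination -(μ⁻¹ * c) * t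

theorem sl2 (h4 : 4 ≤ Nat.card F) {P : Subgroup X} {i j : I} (h : i ≠ j) (h1 : ∀ c, xe i j c ∈ P)
    (h2 : ∀ c, xe j i c ∈ P) : (xe j i 1 : X) ∈ ⁅P, P⁆ := by
  obtain ⟨a, a0, a1⟩ := ex_a h4
  have k : ∀ μ : F, μ ≠ 0 → ∀ c, (xe j i (μ⁻¹ * μ⁻¹ * c) * xe i j c : X) ∈ ⁅P, P⁆ := fun μ hμ c => by
    have := commutator_mem_commutator (mul_mem (mul_mem (h1 μ) (h2 μ⁻¹)) (h1 μ)) (h1 c)
    rwa [commutatorElement_def, wcj h hμ, mul_inv_cancel_right, xe_inv] at this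
  have a2 : a * a + 1 ≠ 0 := fun e => a1 (by
    have : (a + 1) * (a + 1) = 0 := by linear_combination e + a * CharTwo.two_eq_zero (R := F)
    rw [← add_left_inj 1, CharTwo.add_self_eq_zero, mul_self_eq_zero.1 this])
  have := mul_mem (k a⁻¹ (inv_ne_zero a0) (a * a + 1)⁻¹) (inv_mem (k 1 one_ne_zero (a * a + 1)⁻¹))
  rwa [_root_.mul_inv_rev, ← mul_assoc, mul_inv_cancel_right, xe_inv, xe_mul, inv_inv, inv_one, one_mul, one_mul,
    ← add_one_mul, mul_inv_cancel₀ a2] at this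

theorem fixL (c : F) : (xe 0 iL c : X) ∈ Fx (tw : X →* X) := by
  change (tw : X →* X) _ = xe 0 iL c; rw [tw_xe, r0, rL]

theorem fixL' (c : F) : (xe iL 0 c : X) ∈ Fx (tw : X →* X) := by
  change (tw : X →* X) _ = xe iL 0 c; rw [tw_xe, r0, rL]

theorem s3 {α β : X →* X} (h : Cj α β) (h1 : β (xe 0 iL 1) = xe 0 iL 1) (h2 : β (xe iL 0 1) = xe iL 0 1)
    (k : (xe 0 iL 1 : X) ∈ ⁅Fx β, Fx β⁆) :
    ∃ P : Subgroup X, (∀ p ∈ P, α p = p) ∧ ∃ a ∈ ⁅P, P⁆, ∃ b ∈ ⁅P, P⁆, a * a = 1 ∧ b * b = 1 ∧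
      orderOf (a * b) = 3 := by
  obtain ⟨C, h⟩ := h
  have w : (pmL (Equiv.swap 0 iL) : X) ∈ Fx β := pm_swap (F := F) (n0L (n := n)) ▸
    mul_mem (mul_mem (show _ ∈ Fx β from h1) (show _ ∈ Fx β from h2)) (show _ ∈ Fx β from h1)
  have k' := conj_mem_of_mem_normalizer (H69.le_normalizer_commutator le_normalizer le_normalizer w) k
  rw [pm_xe, Equiv.swap_apply_left, Equiv.swap_apply_right] at k'
  refine ⟨_, cj_fix h (P := Fx β) fun _ hp => hp, _, cj_cm C k, _, cj_cm C k', by rw [← map_mul, xe_sq, map_one],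
    by rw [← map_mul, xe_sq, map_one], ?_⟩
  rw [← map_mul, MulEquiv.orderOf_eq]
  haveI : Fact (Nat.Prime 3) := ⟨Nat.prime_three⟩
  refine orderOf_eq_prime ?_ fun e => one_ne_zero (xe2_cen n0L n0L.symm (Or.inl n0L) (e ▸ one_mem _)).1
  have e1 := pm_swap (F := F) (n0L (n := n))
  have e2 := pm_swap (F := F) (n0L (n := n)).symm
  rw [Equiv.swap_comm, e1] at e2
  calc _ = (xe 0 iL 1 * xe iL 0 1 * xe 0 iL 1 : X) * (xe iL 0 1 * xe 0 iL 1 * xe iL 0 1) := by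
        rw [pow_three]; simp only [mul_assoc]
    _ = 1 := by
      rw [← e2, ← e1, ← map_mul, Equiv.swap_mul_self, map_one]

theorem _root_.LMS.Cj.gd {α β : X →* X} (h : Cj α β) (k : Gd β) : Gd α := by
  obtain ⟨C, h⟩ := h
  obtain ⟨P, h0, h1, y, h2, h3, h4, h5⟩ := k
  exact ⟨_, h0.map _, cj_fix h h1, _, cj_cm C h2, by rw [← map_mul, h3, map_one], by simpa using h4,
    cj_tw h h5⟩

theorem _root_.LMS.gd_out {g : GX n F} {φ : RingAut F} {ε : Bool} (o : Ou g φ ε) (h : φ ≠ 1 ∨ 1 ≤ n) : Gd (au g φ ε) := by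
  cases ε
  · exact (nfA o).gd (gdA ⟨o.out.resolve_right (by decide), o.sq⟩)
  by_cases e : φ = 1
  · subst e
    rcases nfC o with k | ⟨hn, k⟩
    exacts [k.gd (gdC (h.resolve_left fun k => k rfl)), k.gd (gdD hn)]
  · exact (nfB o e).gd (gdB ⟨e, o.sq⟩)

theorem _root_.LMS.cb_out {g : GX n F} {φ : RingAut F} {ε : Bool} (o : Ou g φ ε) : Cb (au g φ ε) := by
  by_cases h : φ ≠ 1 ∨ 1 ≤ n
  · obtain ⟨P, -, k⟩ := gd_out o h
    exact ⟨P, k⟩
  push Not at h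
  obtain ⟨rfl, hn⟩ := h
  obtain rfl : ε = true := o.out.resolve_left fun k => k rfl
  have hn' : Even n := by rw [show n = 0 by omega]; exact Even.zero
  refine cj_cb ((nfC o).resolve_right fun k => Nat.not_even_iff_odd.2 k.1 hn') ⟨Fx tw, fun _ hp => hp, _,
    sl2 (Ok.h (n := n) (by omega)) n0L.symm fixL' fixL, xe_sq _ _ _, ne1 n0L, al_tw hn' _ ?_⟩
  rw [show tw _ = _ from fixL 1]; exact xe_sq _ _ _

theorem _root_.LMS.lg3 (hn : n = 0) {g : GX n F} (o : Ou g 1 true) :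
    ∃ B : Subgroup X, El B ∧ 4 ≤ Nat.card B ∧ ∀ b ∈ B, au g 1 true b = b := by
  obtain ⟨C, h⟩ := (nfC o).resolve_right fun k => absurd (hn ▸ k.1 : Odd 0) (by decide)
  refine ⟨(RR F 0 iL).map (gc C).toMonoidHom, ?_, ?_, cj_fix h fun p hp => ?_⟩
  · rintro _ ⟨p, hp, rfl⟩
    obtain ⟨c, rfl⟩ := mem_RR.1 hp
    rw [← map_mul, xe_sq, map_one]
  · refine (Ok.h (n := n) (by omega)).trans (Nat.card_le_card_of_injective
      (fun c : F => (⟨gc C (xe 0 iL c), mem_map_of_mem _ (mem_RR.2 ⟨c, rfl⟩)⟩ :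
        (RR F 0 iL).map (gc C).toMonoidHom)) fun a b e => ?_)
    have e' : (xe 0 iL a : X) = xe 0 iL b := (gc C).injective (congrArg Subtype.val e)
    have := xe_cen (n := n) (F := F) (a := a + b) (n0L (n := n)) (by rw [← xe_mul, e', xe_sq]; exact one_mem _)
    rwa [CharTwo.add_eq_zero] at this
  · obtain ⟨c, rfl⟩ := mem_RR.1 hp
    exact fixL c

theorem _root_.LMS.s3_out (hn : n = 0) {g : GX n F} {φ : RingAut F} {ε : Bool} (o : Ou g φ ε) :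
    ∃ P : Subgroup X, (∀ p ∈ P, au g φ ε p = p) ∧ ∃ a ∈ ⁅P, P⁆, ∃ b ∈ ⁅P, P⁆, a * a = 1 ∧ b * b = 1 ∧
      orderOf (a * b) = 3 := by
  cases ε
  · refine s3 (nfA o) (by rw [fr_xe, map_one]) (by rw [fr_xe, map_one]) ?_
    have := commutator_mem_commutator (H₁ := Fx (fr φ : X →* X)) (H₂ := Fx (fr φ : X →* X))
      (g₁ := xe 0 1 1) (g₂ := xe 1 iL 1) ((fr_xe φ _ _ 1).trans (by rw [map_one]; rfl))
      ((fr_xe φ _ _ 1).trans (by rw [map_one]; rfl))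
    rwa [c1 n01 n1L n0L, mul_one] at this
  by_cases e : φ = 1
  · subst e
    exact s3 ((nfC o).resolve_right fun k => absurd (hn ▸ k.1 : Odd 0) (by decide)) (fixL 1) (fixL' 1)
      (sl2 (Ok.h (n := n) (by omega)) n0L.symm fixL' fixL)
  · exact s3 (nfB o e) (by rw [twfr, r0, rL, map_one]) (by rw [twfr, r0, rL, map_one])
      (commutator_mono inf_le_left inf_le_left (zB ⟨e, o.sq⟩))

end GD

end LMS
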