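import Cfsg.Agent.Lib.LMS.NFa
import Cfsg.Agent.Lib.LMS.NFb
import Cfsg.Agent.Lib.LMS.B4

set_option autoImplicit false
set_option linter.unusedSectionVars false

namespace LMS

open Subgroup H69 Cfsg Matrix U4S
open scoped MatrixGroups commutatorElement

universe u
variable {G : Type*} [Group G] [Finite G] {F : Type u} [Field F] [CharP F 2] [Fintype F] {n : ℕ} [Ok n F]
  {ι ψ χ : XX n F →* G} {t : G} {E : Subgroup G}

local notation "X" => XX n F
local notation "I" => Fin (n + 3)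
local notation "Mx" => Matrix (Fin (n + 3)) (Fin (n + 3)) F

namespace HF

theorem half {Γ : Type*} [Group Γ] [Finite Γ] {β : Γ →* Γ} {J : Subgroup Γ} (hJ : El J)
    (h1 : ∀ x ∈ J, β x ∈ J) (h2 : ∀ x, β (β x) = x) :
    Nat.card J ≤ Nat.card ↥(J ⊓ β.eqLocus (MonoidHom.id Γ)) ^ 2 := by
  let f : J →* ↥(J ⊓ β.eqLocus (MonoidHom.id Γ)) :=
    { toFun := fun x => ⟨x * β x, mul_mem x.2 (h1 _ x.2), by
        change β (x * β x) = x * β x
        rw [map_mul, h2, hJ.comm x.2 (h1 _ x.2)]⟩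
      map_one' := Subtype.ext (by simp)
      map_mul' := fun x y => Subtype.ext (by
        change (x * y : Γ) * β (x * y) = x * β x * (y * β y)
        rw [map_mul, mul_assoc, mul_assoc, ← mul_assoc (y : Γ), hJ.comm y.2 (h1 _ x.2), mul_assoc]) }
  have e : f.ker = (J ⊓ β.eqLocus (MonoidHom.id Γ)).subgroupOf J := by
    ext x
    rw [MonoidHom.mem_ker, mem_subgroupOf, Subtype.ext_iff]
    change (x : Γ) * β x = 1 ↔ (x : Γ) ∈ J ∧ β x = x
    rw [mul_eq_one_iff_inv_eq, hJ.inv x.2]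
    exact ⟨fun h => ⟨x.2, h.symm⟩, fun h => h.2.symm⟩
  rw [← card_mul_index f.ker, index_ker, e, sq,
    Nat.card_congr (subgroupOfEquivOfLe inf_le_left).toEquiv]
  exact Nat.mul_le_mul_left _ (Subgroup.card_le_card_group _)

theorem tw_val (x : X) (i j : I) : (tw x).1 i j = (x⁻¹).1 j.rev i.rev := by
  have e : (tw x).1 = (pmL Fin.revPerm : X).1 * (x⁻¹).1ᵀ * (pmL Fin.revPerm⁻¹ : X).1 := by
    rw [map_inv]; rfl
  rw [e, pmL_val, pmL_val, inv_inv, PEquiv.toMatrix_toPEquiv_mul, PEquiv.mul_toMatrix_toPEquiv]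
  rfl

theorem cj_hf {α β : X →* X} (h : Cj α β) {c : ℕ} (k : Hf β c) : Hf α c := by
  obtain ⟨C, hC⟩ := h
  obtain ⟨B, e, f, hc, a, a', ha, ha', b, hb, ne⟩ := k
  refine ⟨B.map (gc C).toMonoidHom, e.map _, ?_, ?_, gc C a, gc C a', by rw [hC, ha],
    by rw [hC, ha'], gc C b, mem_map_of_mem _ hb, fun h => ne ((gc C).injective ?_)⟩
  · rintro _ ⟨x, hx, rfl⟩
    exact (hC x).trans (congrArg _ (f x hx))
  · rwa [card_map_of_injective (gc C).injective]
  · simpa only [map_mul, map_inv, map_commutatorElement] using h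

theorem cj_inv {α β : X →* X} (h : Cj α β) (k : ∀ x, α (α x) = x) (x : X) : β (β x) = x := by
  obtain ⟨C, hC⟩ := h
  exact (gc C).injective (by rw [← hC, ← hC, k])

theorem base (hn : 1 ≤ n) {β : X →* X} {c : ℕ}
    (h1 : β (xe 1 (Fin.rev 1) 1) = xe 1 (Fin.rev 1) 1) (h2 : β (xe (Fin.rev 1) 1 1) = xe (Fin.rev 1) 1 1)
    (hc : c ≤ Nat.card ↥(JJ n F (kk n) ⊓ β.eqLocus (MonoidHom.id _)) ^ 2) : Hf β c := by
  have v1 : ((1 : I) : ℕ) = 1 := Fin.val_one _
  have vr : ((Fin.rev 1 : I) : ℕ) = n + 1 := by rw [Fin.val_rev, v1]; omega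
  have ne : (1 : I) ≠ Fin.rev 1 := fun e => by have := congrArg Fin.val e; omega
  refine ⟨JJ n F (kk n) ⊓ β.eqLocus (MonoidHom.id _), (el_JJ _).mono inf_le_left, fun b hb => hb.2, hc, _, _, h1, h2, _,
    ⟨subset_closure ⟨1, Fin.rev 1, 1, by unfold kk; omega, by unfold kk; omega, rfl⟩, h1⟩, ?_⟩
  have br := (pm_swap (F := F) ne).symm.trans (Equiv.swap_comm (1 : I) _ ▸ pm_swap ne.symm)
  have nc : (xe 1 (Fin.rev 1) (1 : F) : X) * xe (Fin.rev 1) 1 1 ≠ 1 := fun e =>
    one_ne_zero (xe2_cen ne ne.symm (Or.inl ne) (e ▸ one_mem _)).1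
  have a2 := xe_sq (n := n) 1 (Fin.rev 1) (1 : F)
  have b2 := xe_sq (n := n) (Fin.rev 1) 1 (1 : F)
  generalize (xe 1 (Fin.rev 1) (1 : F) : X) = a at *
  generalize (xe (Fin.rev 1) 1 (1 : F) : X) = b at *
  have ia := inv_eq_of_mul_eq_one_right a2
  have ib := inv_eq_of_mul_eq_one_right b2
  have p : ⁅a, b⁆ = b * a := by
    rw [commutatorElement_def, ia, ib, br, mul_assoc, b2, mul_one]
  have q : ⁅a, b⁆ * a * ⁅a, b⁆⁻¹ = a * b * a := by
    rw [p, _root_.mul_inv_rev, ia, ib, mul_assoc b a a, a2, mul_one, br, mul_assoc]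
  rw [q, mul_assoc (a * b), a2, mul_one, mul_assoc a b a, ← mul_assoc a a, a2, one_mul]
  intro e
  have e1 : a * b * a = b := by rw [e, mul_assoc, a2, mul_one]
  have e2 : b * a * b = a := by rw [← e, mul_assoc, b2, mul_one]
  exact nc (by rw [← e1.symm.trans (br.trans e2), b2])

theorem sym_card {K : Type} [Fintype K] [LinearOrder K] :
    Nat.card F ^ (Fintype.card K * Fintype.card K + Fintype.card K) ≤
      Nat.card {T : K → K → F // ∀ i j, T i j = T j i} ^ 2 := by
  let f : (K → K → F) × (K → F) →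
      {T : K → K → F // ∀ i j, T i j = T j i} × {T : K → K → F // ∀ i j, T i j = T j i} := fun S =>
    (⟨fun i j => S.1 (min i j) (max i j), fun i j => by simp only [min_comm, max_comm]⟩,
      ⟨fun i j => if i = j then S.2 i else S.1 (max i j) (min i j), fun i j => by
        by_cases h : i = j
        · subst h; rfl
        · simp only [if_neg h, if_neg (Ne.symm h), min_comm, max_comm]⟩)
  have hf : Function.Injective f := fun S S' h => by
    have h1 := fun i j => congrFun (congrFun (congrArg (fun x => x.1.1) h) i) j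
    have h2 := fun i j => congrFun (congrFun (congrArg (fun x => x.2.1) h) i) j
    refine Prod.ext (funext fun i => funext fun j => ?_) (funext fun i => by simpa [f] using h2 i i)
    rcases le_or_gt i j with l | l
    · simpa [f, l] using h1 i j
    · simpa [f, l.le, l.ne'] using h2 i j
  have := Nat.card_le_card_of_injective f hf
  simpa [Nat.card_prod, Nat.card_pi, Nat.card_fun, pow_add, pow_mul, sq] using this

theorem cnt : Nat.card F ^ (kk n * kk n + kk n) ≤
    Nat.card ↥(JJ n F (kk n) ⊓ (tw (n := n) (F := F)).eqLocus (MonoidHom.id _)) ^ 2 := by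
  have hk : 2 * kk n ≤ n + 3 := by unfold kk; omega
  have cK : Fintype.card {i : I // i.1 < kk n} = kk n := by
    rw [Fintype.card_subtype, Fin.card_filter_val_lt]; omega
  let N : ({i : I // i.1 < kk n} → {i : I // i.1 < kk n} → F) → Mx := fun T i j =>
    if h : i.1 < kk n ∧ j.rev.1 < kk n then T ⟨i, h.1⟩ ⟨j.rev, h.2⟩ else 0
  have N0 : ∀ T i j, ¬ (i.1 < kk n ∧ kk n ≤ j.1) → N T i j = 0 := fun T i j h =>
    dif_neg fun k => h ⟨k.1, by have := k.2; rw [Fin.val_rev] at this; omega⟩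
  have hd : ∀ T, (1 + N T).det = 1 := fun T => by
    rw [det_of_upperTriangular fun i j (h : j < i) => by
      rw [Matrix.add_apply, N0 T i j (by have : j.1 < i.1 := h; omega), one_apply_ne h.ne', add_zero]]
    exact Finset.prod_eq_one fun i _ => by rw [Matrix.add_apply, N0 T i i (by omega), one_apply_eq, add_zero]
  have hJ : ∀ T, (⟨1 + N T, hd T⟩ : X) ∈ JJ n F (kk n) := fun T =>
    mem_JJ.2 fun i j h => by
      change (1 + N T) i j = _
      rw [Matrix.add_apply, N0 T i j h, add_zero]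
  let f : {T : {i : I // i.1 < kk n} → {i : I // i.1 < kk n} → F // ∀ i j, T i j = T j i} →
      ↥(JJ n F (kk n) ⊓ (tw (n := n) (F := F)).eqLocus (MonoidHom.id _)) := fun T =>
    ⟨⟨1 + N T.1, hd T.1⟩, hJ _, Subtype.ext (Matrix.ext fun i j => by
      refine (tw_val _ i j).trans ?_
      rw [(el_JJ _).inv (hJ _)]
      change (1 + N T.1) j.rev i.rev = (1 + N T.1) i j
      rw [Matrix.add_apply, Matrix.add_apply, one_apply, one_apply]
      congr 1
      · simp only [Fin.rev_inj, eq_comm]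
      · simp only [N, Fin.rev_rev]
        by_cases h : i.1 < kk n ∧ j.rev.1 < kk n
        · rw [dif_pos h, dif_pos h.symm, T.2]
        · rw [dif_neg h, dif_neg fun k => h k.symm])⟩
  have hf : Function.Injective f := fun T T' h => Subtype.ext (funext fun i => funext fun j => by
    have : (1 + N T.1) i.1 j.1.rev = (1 + N T'.1) i.1 j.1.rev :=
      congrFun (congrFun (congrArg (fun x => x.1.1) h) i.1) j.1.rev
    rw [Matrix.add_apply, Matrix.add_apply, add_right_inj] at this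
    simpa only [N, Fin.rev_rev, i.2, j.2, and_self, dif_pos] using this)
  have := sym_card (F := F) (K := {i : I // i.1 < kk n})
  rw [cK] at this
  exact this.trans (Nat.pow_le_pow_left (Nat.card_le_card_of_injective f hf) 2)

theorem cnt' : Nat.card F ^ (kk n * kk n + kk n) ≤ Nat.card ↥(JJ n F (kk n) ⊓
    ((cn (xe 0 iL 1)).comp (tw (n := n) (F := F))).eqLocus (MonoidHom.id _)) ^ 2 := by
  refine (cnt (n := n) (F := F)).trans (Nat.pow_le_pow_left (card_le_of_le ?_) 2)
  intro x hx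
  refine ⟨hx.1, ?_⟩
  change cn _ (tw x) = x
  rw [show tw x = x from hx.2, cn_apply, (el_JJ _).comm (RR_le_JJ (by unfold kk; omega)
    (by unfold kk; omega) (mem_RR.2 ⟨1, rfl⟩)) hx.1, mul_inv_cancel_right]

theorem MM_le : Nat.card F ^ MM n ≤ Nat.card F ^ (kk n * kk n + kk n) :=
  Nat.pow_le_pow_right Nat.card_pos (by
    rw [← Nat.mul_succ]; exact Nat.mul_le_mul_left _ (by unfold kk; omega))

theorem cardJ : Nat.card (JJ n F (kk n)) = Nat.card F ^ MM n := isJ_kk.card

theorem frJ (φ : RingAut F) {x : X} (h : x ∈ JJ n F (kk n)) : fr φ x ∈ JJ n F (kk n) :=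
  mem_JJ.2 fun i j k => by
    rw [fr_val, map_apply, mem_JJ.1 h i j k, one_apply, apply_ite φ, map_one, map_zero]

theorem twJ (hn : Odd n) {x : X} (h : x ∈ JJ n F (kk n)) : tw x ∈ JJ n F (kk n) :=
  mem_JJ.2 fun i j k => by
    obtain ⟨r, hr⟩ := hn
    rw [tw_val, (el_JJ _).inv h, mem_JJ.1 h _ _ (by
      rw [Fin.val_rev, Fin.val_rev]; unfold kk at *; omega), one_apply, one_apply]
    simp only [Fin.rev_inj, eq_comm]

end HF

open HF in
theorem hf (hn : 1 ≤ n) {g : GX n F} {φ : RingAut F} {ε : Bool} (o : Ou g φ ε)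
    (h : φ = 1 ∨ ε = false ∨ Odd n) : Hf (au g φ ε) (Nat.card F ^ MM n) := by
  have v1 : ((1 : I) : ℕ) = 1 := Fin.val_one _
  have vr : ((Fin.rev 1 : I) : ℕ) = n + 1 := by rw [Fin.val_rev, v1]; omega
  have t1 : tw (xe 1 (Fin.rev 1) (1 : F) : X) = xe 1 (Fin.rev 1) 1 := by rw [tw_xe, Fin.rev_rev]
  have t2 : tw (xe (Fin.rev 1) 1 (1 : F) : X) = xe (Fin.rev 1) 1 1 := by rw [tw_xe, Fin.rev_rev]
  cases ε with
  | false =>
    have c := nfA o
    exact cj_hf c (base hn (by rw [fr_xe, map_one]) (by rw [fr_xe, map_one])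
      (cardJ.ge.trans (half (el_JJ _) (fun _ => HF.frJ φ) (cj_inv c o.inv))))
  | true =>
    by_cases e : φ = 1
    · subst e
      rcases nfC o with c | ⟨-, c⟩
      · exact cj_hf c (base hn t1 t2 (MM_le.trans cnt))
      · have n1 : ∀ {i j : I}, i.1 ≠ j.1 → i ≠ j := fun h e => h (congrArg Fin.val e)
        refine cj_hf c (base hn ?_ ?_ (MM_le.trans cnt'))
        · change cn _ (tw _) = _
          rw [t1, cn_apply, xe_c0 (n1 (by rw [vr]; simp)) (n1 (by rw [v1]; simp)), mul_inv_cancel_right]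
        · change cn _ (tw _) = _
          rw [t2, cn_apply, xe_c0 (n1 (by rw [v1]; simp)) (n1 (by rw [vr]; simp)), mul_inv_cancel_right]
    · have c := nfB o e
      have ho : Odd n := by simpa [e] using h
      have hm : ∀ x ∈ JJ n F (kk n), (tw.comp (fr φ) : X →* X) x ∈ JJ n F (kk n) := fun x hx => by
        rw [MonoidHom.comp_apply]; exact twJ ho (HF.frJ φ hx)
      refine cj_hf c (base hn ?_ ?_ (cardJ.ge.trans (half (el_JJ _) hm (cj_inv c o.inv))))
      · change tw (fr φ _) = _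
        rw [fr_xe, map_one, t1]
      · change tw (fr φ _) = _
        rw [fr_xe, map_one, t2]

open HF in
theorem hf2 {g : GX n F} (o : Ou g 1 true) : ∃ B : Subgroup X, El B ∧ (∀ b ∈ B, au g 1 true b = b) ∧
    Nat.card F ^ (kk n * kk n + kk n) ≤ Nat.card B ^ 2 := by
  have key : ∀ {β : X →* X}, Cj (au g 1 true) β → Nat.card F ^ (kk n * kk n + kk n) ≤
      Nat.card ↥(JJ n F (kk n) ⊓ β.eqLocus (MonoidHom.id _)) ^ 2 → ∃ B : Subgroup X, El B ∧
      (∀ b ∈ B, au g 1 true b = b) ∧ Nat.card F ^ (kk n * kk n + kk n) ≤ Nat.card B ^ 2 := by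
    rintro β ⟨C, hC⟩ hc
    refine ⟨(JJ n F (kk n) ⊓ β.eqLocus (MonoidHom.id _)).map (gc C).toMonoidHom,
      ((el_JJ _).mono inf_le_left).map _, ?_, by rwa [card_map_of_injective (gc C).injective]⟩
    rintro _ ⟨x, hx, rfl⟩
    exact (hC x).trans (congrArg _ hx.2)
  rcases nfC o with c | ⟨-, c⟩
  · exact key c cnt
  · exact key c cnt'

end LMS
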