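import Cfsg.Agent.Lib.LMS.B6b

set_option autoImplicit false
set_option linter.unusedSectionVars false

namespace LMS

open Subgroup H69 Cfsg Matrix U4S
open scoped MatrixGroups commutatorElement

namespace IRR

theorem gl_triv {K : Type*} [Field K] [Fintype K] {r d : ℕ} (hr : r.Prime) (h2 : ¬ r ∣ Fintype.card K)
    (h : ∀ j, 0 < j → j ≤ d → ¬ r ∣ Fintype.card K ^ j - 1) (u : GL (Fin d) K) (hu : u ^ r = 1) : u = 1 := by
  by_contra hne
  haveI : Fact r.Prime := ⟨hr⟩
  have ho : orderOf u = r := orderOf_eq_prime hu hne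
  have hd : r ∣ Nat.card (GL (Fin d) K) := ho ▸ orderOf_dvd_natCard u
  rw [Matrix.card_GL_field] at hd
  obtain ⟨i, -, hi⟩ := (Prime.dvd_finsetProd_iff hr.prime _).1 hd
  have e : Fintype.card K ^ d - Fintype.card K ^ (i : ℕ) =
      Fintype.card K ^ (i : ℕ) * (Fintype.card K ^ (d - i) - 1) := by
    rw [Nat.mul_sub, mul_one, ← pow_add, Nat.add_sub_cancel' i.2.le]
  rw [e] at hi
  rcases (Nat.Prime.dvd_mul hr).1 hi with k | k
  · exact h2 (hr.dvd_of_dvd_pow k)
  · exact h _ (Nat.sub_pos_of_lt i.2) (Nat.sub_le _ _) k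

theorem lin_triv {K : Type*} [Field K] [Fintype K] {W : Type*} [AddCommGroup W] [Module K W]
    [Module.Finite K W] {r : ℕ} (hr : r.Prime) (h2 : ¬ r ∣ Fintype.card K)
    (h : ∀ j, 0 < j → j ≤ Module.finrank K W → ¬ r ∣ Fintype.card K ^ j - 1) (T : W →ₗ[K] W)
    (hT : T ^ r = 1) : T = 1 := by
  let b := Module.finBasis K W
  let e := LinearMap.toMatrixAlgEquiv b
  have hM : e T ^ r = 1 := by rw [← map_pow, hT, map_one]
  have := gl_triv hr h2 h (Units.ofPowEqOne (e T) r hM hr.ne_zero) (Units.pow_ofPowEqOne _ _)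
  have h1 : e T = 1 := congrArg Units.val this
  exact e.injective (h1.trans (map_one e).symm)

theorem sub_triv {K : Type*} [Field K] [Fintype K] {W : Type*} [AddCommGroup W] [Module K W]
    [Module.Finite K W] {r d : ℕ} (hr : r.Prime) (h2 : ¬ r ∣ Fintype.card K)
    (h : ∀ j, 0 < j → j ≤ d → ¬ r ∣ Fintype.card K ^ j - 1) (T : W →ₗ[K] W)
    (hT : T ^ r = 1) (U : Submodule K W) (hU : Module.finrank K U ≤ d) (k : ∀ v ∈ U, T v ∈ U) :
    ∀ v ∈ U, T v = v := by
  intro v hv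
  have := lin_triv hr h2 (fun j a b => h j a (b.trans hU)) (T.restrict k) (by
    ext x
    rw [Module.End.pow_restrict r k, LinearMap.restrict_apply]
    simp [hT])
  exact congrArg Subtype.val (LinearMap.congr_fun this ⟨v, hv⟩)

theorem cube {K : Type*} [Field K] [Fintype K] {W : Type*} [AddCommGroup W] [Module K W]
    [Module.Finite K W] {r n : ℕ} (hr : r.Prime) (h2 : ¬ r ∣ Fintype.card K)
    (h : ∀ j, 0 < j → j ≤ n + 1 → ¬ r ∣ Fintype.card K ^ j - 1) (hW : Module.finrank K W = n + 3)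
    (A N : W →ₗ[K] W) (hA : A ^ r = 1) (N0 : N ≠ 0) (N2 : N * N = 0) (c : A * N = N * A) :
    (A - 1) ^ 3 = 0 := by
  have cc : ∀ v, A (N v) = N (A v) := fun v => LinearMap.congr_fun c v
  have nn : ∀ v, N (N v) = 0 := fun v => LinearMap.congr_fun N2 v
  have hle : LinearMap.range N ≤ LinearMap.ker N := by
    rintro _ ⟨v, rfl⟩; exact nn v
  have r1 := LinearMap.finrank_range_add_finrank_ker N
  have r2 := Submodule.finrank_mono hle
  have f1 : ∀ v, A (N v) = N v := fun v => sub_triv hr h2 h A hA (LinearMap.range N) (by omega)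
    (by rintro _ ⟨w, rfl⟩; exact ⟨A w, (cc w).symm⟩) _ ⟨v, rfl⟩
  obtain ⟨v0, hv0⟩ : ∃ v, N v ≠ 0 := by
    by_contra hn
    exact N0 (LinearMap.ext fun v => by_contra fun k => hn ⟨v, k⟩)
  have r3 : Module.finrank K (LinearMap.ker N) < Module.finrank K W :=
    Submodule.finrank_lt (fun e => hv0 (by have : v0 ∈ LinearMap.ker N := e ▸ Submodule.mem_top; exact this))
  let B := (A - 1).domRestrict (LinearMap.ker N)
  have r4 := LinearMap.finrank_range_add_finrank_ker B
  have r5 : 0 < Module.finrank K (LinearMap.ker B) := by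
    rw [Module.finrank_pos_iff_exists_ne_zero]
    refine ⟨⟨⟨N v0, nn v0⟩, ?_⟩, fun e => hv0 (congrArg (fun x => x.1.1) e)⟩
    change (A - 1) (N v0) = 0
    rw [LinearMap.sub_apply, f1, Module.End.one_apply, sub_self]
  have f2 := sub_triv hr h2 h A hA (LinearMap.range B) (by omega) (by
    rintro _ ⟨w, rfl⟩
    refine ⟨⟨A w, ?_⟩, ?_⟩
    · have : N w = 0 := w.2
      rw [LinearMap.mem_ker, ← cc, this, map_zero]
    · change (A - 1) (A w) = A ((A - 1) w)
      simp)
  ext v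
  have k1 : (A - 1) v ∈ LinearMap.ker N := by
    rw [LinearMap.mem_ker, LinearMap.sub_apply, map_sub, ← cc, f1, Module.End.one_apply, sub_self]
  have k2 := f2 _ ⟨⟨_, k1⟩, rfl⟩
  change A ((A - 1) ((A - 1) v)) = (A - 1) ((A - 1) v) at k2
  rw [pow_three, Module.End.mul_apply, Module.End.mul_apply, LinearMap.zero_apply, LinearMap.sub_apply,
    k2, Module.End.one_apply, sub_self]

theorem card2 (F : Type*) [Field F] [CharP F 2] [Fintype F] : ∃ f, 0 < f ∧ Fintype.card F = 2 ^ f := by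
  obtain ⟨f, -, hf⟩ := FiniteField.card F 2
  exact ⟨f, f.2, hf⟩

theorem pr_nd {F : Type*} [Field F] [CharP F 2] [Fintype F] {r c : ℕ} (hr : r.Prime) (h2 : r ≠ 2)
    (h : ∀ d, 0 < d → 2 ^ d < Fintype.card F ^ c → ¬ r ∣ 2 ^ d - 1) :
    ¬ r ∣ Fintype.card F ∧ ∀ j, 0 < j → j < c → ¬ r ∣ Fintype.card F ^ j - 1 := by
  obtain ⟨f, f0, hf⟩ := card2 F
  refine ⟨fun k => h2 ?_, fun j j0 hj => ?_⟩
  · rw [hf] at k
    exact (Nat.prime_dvd_prime_iff_eq hr Nat.prime_two).1 (hr.dvd_of_dvd_pow k)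
  · have := h (f * j) (Nat.mul_pos f0 j0) (by
      rw [pow_mul, ← hf]; exact Nat.pow_lt_pow_right Fintype.one_lt_card hj)
    rwa [pow_mul, ← hf] at this

theorem aut_triv {F : Type*} [Field F] [CharP F 2] [Fintype F] {r c : ℕ} (hr : r.Prime) (h2 : r ≠ 2) (hc : 1 < c)
    (h : ∀ d, 0 < d → 2 ^ d < Fintype.card F ^ c → ¬ r ∣ 2 ^ d - 1) (φ : RingAut F) (o : φ ^ r = 1) : φ = 1 := by
  letI : Algebra (ZMod 2) F := ZMod.algebra F 2
  let T : F →ₗ[ZMod 2] F := AddMonoidHom.toZModLinearMap 2 (φ : F →+* F).toAddMonoidHom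
  have hT : ∀ k x, (T ^ k) x = (φ ^ k) x := by
    intro k
    induction k with
    | zero => intro x; rfl
    | succ k ih => intro x; rw [pow_succ, pow_succ, Module.End.mul_apply, ih]; rfl
  have hc2 : Fintype.card F = 2 ^ Module.finrank (ZMod 2) F := by
    rw [Module.card_eq_pow_finrank (K := ZMod 2) (V := F), ZMod.card]
  have := lin_triv (K := ZMod 2) hr (by
      rw [ZMod.card]; exact fun k => h2 ((Nat.prime_dvd_prime_iff_eq hr Nat.prime_two).1 k))
    (fun j j0 hj => by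
      rw [ZMod.card]
      refine h j j0 (lt_of_le_of_lt (Nat.pow_le_pow_right (by norm_num) hj) ?_)
      rw [← hc2]
      conv_lhs => rw [← pow_one (Fintype.card F)]
      exact Nat.pow_lt_pow_right Fintype.one_lt_card hc) T (LinearMap.ext fun x => by rw [hT, o]; rfl)
  exact RingEquiv.ext fun x => LinearMap.congr_fun this x

end IRR

universe u
variable {G : Type*} [Group G] [Finite G] {F : Type u} [Field F] [CharP F 2] [Fintype F] {n : ℕ} [Ok n F]
  {ι ψ χ : XX n F →* G} {t : G} {E : Subgroup G}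

local notation "X" => XX n F
local notation "I" => Fin (n + 3)
local notation "Mx" => Matrix (Fin (n + 3)) (Fin (n + 3)) F

theorem irr {r : ℕ} (hr : Pr n F r) {a : GX n F} (ha : orderOf a = r) {y : X} (y2 : y * y = 1) (y1 : y ≠ 1)
    (h : gc a y = y) : False := by
  obtain ⟨hp, h2, hd⟩ := hr
  rw [Nat.card_eq_fintype_card] at hd
  obtain ⟨k1, k2⟩ := IRR.pr_nd hp h2 hd
  let e : Mx ≃ₐ[F] ((I → F) →ₗ[F] (I → F)) := Matrix.toLinAlgEquiv'
  have c : a.1 * y.1 = y.1 * a.1 := by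
    conv_rhs => rw [← h, gc_val, mul_assoc, Units.inv_mul, mul_one]
  have yy : y.1 * y.1 = 1 := congrArg Subtype.val y2
  have two : ∀ M : Mx, M + M = 0 := fun M => by ext i j; exact CharTwo.add_self_eq_zero _
  have ar : a.1 ^ r = 1 := by rw [← Units.val_pow_eq_pow_val, ← ha, pow_orderOf_eq_one, Units.val_one]
  have := IRR.cube hp k1 (fun j j0 hj => k2 j j0 (Nat.lt_succ_of_le hj)) (Module.finrank_fin_fun F)
    (e a.1) (e (y.1 - 1)) (by rw [← map_pow, ar, map_one])
    (fun k => y1 (Subtype.ext (sub_eq_zero.1 (e.injective (k.trans (map_zero e).symm)))))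
    (by
      rw [← map_mul, ← map_zero e]
      congr 1
      have : (y.1 - 1) * (y.1 - 1) = y.1 * y.1 + 1 - (y.1 + y.1) := by noncomm_ring
      rw [this, yy, two, two, sub_zero])
    (by rw [← map_mul, ← map_mul, mul_sub, sub_mul, c, mul_one, one_mul])
  have h3 : (a.1 - 1) ^ 3 = 0 := e.injective (by rw [map_pow, map_sub, map_one, this, map_zero])
  have h4 : a.1 ^ 4 = 1 := by
    have e1 : (a.1 - 1) ^ 4 = 0 := by rw [pow_succ, h3, zero_mul]
    have e2 : a.1 ^ 4 = (a.1 - 1) ^ 4 + 1 + ((2 * a.1 ^ 3 - 3 * a.1 ^ 2 + 2 * a.1 - 1) +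
      (2 * a.1 ^ 3 - 3 * a.1 ^ 2 + 2 * a.1 - 1)) := by noncomm_ring
    rw [e2, two, e1, add_zero, zero_add]
  have : r ∣ 2 ^ 2 := ha ▸ orderOf_dvd_of_pow_eq_one (Units.ext (by rw [Units.val_pow_eq_pow_val]; exact h4))
  exact h2 ((Nat.prime_dvd_prime_iff_eq hp Nat.prime_two).1 (hp.dvd_of_dvd_pow this))

theorem irr' {r : ℕ} (hr : Pr n F r) {a y : X} (ha : orderOf a = r) (y2 : y * y = 1) (y1 : y ≠ 1)
    (h : a * y = y * a) : False := by
  refine irr hr (a := Matrix.SpecialLinearGroup.toGL a) ?_ y2 y1 ?_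
  · rw [orderOf_injective _ Matrix.SpecialLinearGroup.toGL_injective, ha]
  · rw [gc_sl, h, mul_inv_cancel_right]

namespace IRR

theorem act_one : Act ι (1 : G) (au 1 1 false) := fun x => by
  rw [au_false, fr_one, gc_one, one_mul, inv_one, mul_one]

theorem act_pow {ρ : G} {g : GX n F} {φ : RingAut F} {ε : Bool} (h : Act ι ρ (au g φ ε)) (k : ℕ) :
    ∃ g', Act ι (ρ ^ k) (au g' (φ ^ k) (ε && decide (Odd k))) := by
  induction k with
  | zero => exact ⟨1, by simpa using act_one⟩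
  | succ k ih =>
    obtain ⟨g', h'⟩ := ih
    obtain ⟨g'', e⟩ := au_comp g' g (φ ^ k) φ (ε && decide (Odd k)) ε
    refine ⟨g'', ?_⟩
    have := h'.mul h
    rw [e, ← pow_succ, ← pow_succ] at this
    convert this using 2
    cases ε <;> by_cases o : Odd k <;> simp [o, Nat.odd_add_one]

theorem act_pow' {ρ : G} {g : GX n F} (h : Act ι ρ (au g 1 false)) (k : ℕ) :
    Act ι (ρ ^ k) (au (g ^ k) 1 false) := by
  induction k with
  | zero => simpa using act_one
  | succ k ih =>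
    have := ih.mul h
    rw [← pow_succ] at this
    intro x
    rw [this x, MonoidHom.comp_apply, au_false, au_false, au_false, fr_one, fr_one, pow_succ, gc_mul]

theorem scalar {g : GX n F} (h : ∀ M : X, gc g M = M) : g ^ (Fintype.card F - 1) = 1 := by
  have k : ∀ M : X, g.1 * M.1 = M.1 * g.1 := by
    intro M
    conv_rhs => rw [← h M, gc_val, mul_assoc, Units.inv_mul, mul_one]
  obtain ⟨c, hc⟩ := Matrix.mem_range_scalar_of_commute_single (M := g.1) fun i j hij => by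
    have := k (xe i j 1)
    rw [xe_val hij, mul_add, add_mul, mul_one, one_mul, add_right_inj] at this
    exact this.symm
  have hc0 : c ≠ 0 := by
    rintro rfl
    have := g.mul_inv
    rw [← hc, map_zero, zero_mul] at this
    exact zero_ne_one this
  refine Units.ext ?_
  rw [Units.val_pow_eq_pow_val, ← hc, ← map_pow, FiniteField.pow_card_sub_one_eq_one c hc0, map_one,
    Units.val_one]

end IRR

theorem pra (e : Em ι) {r : ℕ} (hr : Pr n F r) {ρ : G} (h : ρ ∈ 𝐍(ι.range)) (o : ρ ^ r = 1) :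
    ρ ∈ 𝐂(ι.range) ∨ ∃ a, orderOf a = r ∧ Act ι ρ (au a 1 false) := by
  obtain ⟨hp, h2, hd⟩ := hr
  haveI : Fact r.Prime := ⟨hp⟩
  rw [Nat.card_eq_fintype_card] at hd
  obtain ⟨k1, k2⟩ := IRR.pr_nd hp h2 hd
  obtain ⟨g, φ, ε, ha⟩ := e.act h
  obtain ⟨g', h'⟩ := IRR.act_pow ha r
  rw [o] at h'
  obtain ⟨e1, e2⟩ := au_uniq (Act.uniq e h' IRR.act_one)
  obtain rfl := IRR.aut_triv hp h2 (by omega) hd φ e1
  have hodd : Odd r := hp.odd_of_ne_two h2
  obtain rfl : ε = false := by simpa [hodd] using e2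
  have h1 := IRR.act_pow' ha r
  rw [o] at h1
  have h3 := Act.uniq e h1 IRR.act_one
  have h4 : (g ^ r) ^ (Fintype.card F - 1) = 1 := IRR.scalar fun M => by
    have := DFunLike.congr_fun h3 M
    rwa [au_false, au_false, fr_one, gc_one] at this
  have nd : ¬ r ∣ Fintype.card F - 1 := by simpa using k2 1 one_pos (by omega)
  have hs : (Fintype.card F - 1) ^ (r - 1) ≡ 1 [MOD r] := by
    rw [← Nat.totient_prime hp]
    exact Nat.ModEq.pow_totient ((Nat.Prime.coprime_iff_not_dvd hp).2 nd).symm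
  have h5 := IRR.act_pow' ha ((Fintype.card F - 1) ^ (r - 1))
  have h6 : ρ ^ (Fintype.card F - 1) ^ (r - 1) = ρ := by
    conv_rhs => rw [← pow_one ρ]
    exact pow_eq_pow_iff_modEq.2 (hs.of_dvd (orderOf_dvd_of_pow_eq_one o))
  rw [h6] at h5
  have h7 : (g ^ (Fintype.card F - 1) ^ (r - 1)) ^ r = 1 := by
    obtain ⟨s, hs⟩ : Fintype.card F - 1 ∣ (Fintype.card F - 1) ^ (r - 1) :=
      dvd_pow_self _ (by have := hp.two_le; omega)
    rw [← pow_mul, mul_comm, pow_mul, hs, pow_mul, h4, one_pow]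
  by_cases h8 : g ^ (Fintype.card F - 1) ^ (r - 1) = 1
  · left
    rw [h8] at h5
    rw [mem_centralizer_iff]
    rintro _ ⟨x, rfl⟩
    have := h5 x
    rw [au_false, fr_one, gc_one, mul_inv_eq_iff_eq_mul] at this
    exact this.symm
  · exact Or.inr ⟨_, orderOf_eq_prime h7 h8, h5⟩

theorem pr_sq {K : Type*} (hK : Nat.card K = Nat.card F ^ 2) {r : ℕ} (hr : Pr n K r) :
    Pr n F r ∧ ∀ a : GX n F, orderOf a ≠ r := by
  obtain ⟨hp, h2, hd⟩ := hr
  rw [hK, ← pow_mul, Nat.card_eq_fintype_card] at hd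
  refine ⟨⟨hp, h2, fun d d0 k => hd d d0 (k.trans_le ?_)⟩, fun a ha => ?_⟩
  · rw [Nat.card_eq_fintype_card]
    exact Nat.pow_le_pow_right Fintype.card_pos (by omega)
  · obtain ⟨k1, k2⟩ := IRR.pr_nd hp h2 hd
    have := IRR.gl_triv hp k1 (d := n + 3) (fun j j0 hj => k2 j j0 (by omega)) a
      (ha ▸ pow_orderOf_eq_one a)
    rw [this, orderOf_one] at ha
    exact hp.one_lt.ne ha

end LMS
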