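import Cfsg.Agent.Lib.LMS.B4

set_option autoImplicit false
set_option linter.unusedSectionVars false

namespace LMS

open Subgroup H69 Cfsg Matrix U4S
open scoped MatrixGroups commutatorElement

universe u
variable {G : Type*} [Group G] [Finite G] {F : Type u} [Field F] [CharP F 2] [Fintype F] {n : ℕ} [Ok n F]
  {ι ψ χ : XX n F →* G} {t : G} {E : Subgroup G}

local notation "X" => XX n F
local notation "I" => Fin (n + 3)
local notation "Mx" => Matrix (Fin (n + 3)) (Fin (n + 3)) F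

namespace LN

local notation "V" => Fin (n + 3) → F
local infixl:75 " ⊗ " => vecMulVec

theorem aa (A : Mx) : A + A = 0 := by
  ext i j; simp [CharTwo.add_self_eq_zero]

theorem sq1 {A : Mx} (h : A * A = 0) : (1 + A) * (1 + A) = 1 := by
  rw [add_mul, mul_add, mul_add, h, one_mul, one_mul, mul_one, add_zero, add_assoc, aa, add_zero]

/-- the element `1 + A` -/
def mk (A : Mx) (h : A * A = 0) : X := ⟨1 + A, by
  have e : det (1 + A) * det (1 + A) = 1 := by rw [← det_mul, sq1 h, det_one]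
  rcases mul_self_eq_one_iff.1 e with e | e
  · exact e
  · rw [e, CharTwo.neg_eq]⟩

theorem inv1 {x : X} {A : Mx} (h : A * A = 0) (e : x.1 = 1 + A) : x * x = 1 :=
  Subtype.ext (by rw [Matrix.SpecialLinearGroup.coe_mul, e, sq1 h]; rfl)

/-- all products vanish -/
def Z0 (S : Submodule F Mx) : Prop := ∀ A ∈ S, ∀ B ∈ S, A * B = 0

theorem mul1 {A B : Mx} (h : A * B = 0) : (1 + A) * (1 + B) = 1 + (A + B) := by
  rw [add_mul, mul_add, mul_add, h]; simp only [one_mul, mul_one]; abel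

/-- the group `1 + S` -/
def GS (S : Submodule F Mx) (h : Z0 S) : Subgroup X where
  carrier := {x | ∃ A ∈ S, x.1 = 1 + A}
  one_mem' := ⟨0, S.zero_mem, by simp⟩
  mul_mem' := by
    rintro x y ⟨A, hA, e⟩ ⟨B, hB, f⟩
    exact ⟨A + B, S.add_mem hA hB, by rw [Matrix.SpecialLinearGroup.coe_mul, e, f, mul1 (h A hA B hB)]⟩
  inv_mem' := by
    rintro x ⟨A, hA, e⟩
    rw [inv_eq_of_mul_eq_one_right (inv1 (h A hA A hA) e)]
    exact ⟨A, hA, e⟩

theorem mem_GS {S : Submodule F Mx} {h : Z0 S} {x : X} : x ∈ GS S h ↔ ∃ A ∈ S, x.1 = 1 + A := Iff.rfl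

theorem el_GS {S : Submodule F Mx} (h : Z0 S) : El (GS S h) := by
  rintro x ⟨A, hA, e⟩
  exact inv1 (h A hA A hA) e

theorem card_GS {S : Submodule F Mx} (h : Z0 S) : Nat.card (GS S h) = Nat.card S := by
  symm
  refine Nat.card_eq_of_bijective (fun A : S => (⟨mk A.1 (h _ A.2 _ A.2), A.1, A.2, rfl⟩ : GS S h)) ⟨?_, ?_⟩
  · intro A B e
    have e' : (1 : Mx) + A.1 = 1 + B.1 := congrArg (fun x : GS S h => x.1.1) e
    exact Subtype.ext (add_left_cancel e')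
  · rintro ⟨x, A, hA, e⟩
    exact ⟨⟨A, hA⟩, Subtype.ext (Subtype.ext e.symm)⟩

theorem two_El {B : Subgroup X} (h : El B) : IsPGroup 2 B := fun g =>
  ⟨1, Subtype.ext (by simpa [pow_two] using h g.1 g.2)⟩

/-- vectors supported on `p` -/
def Sp (p : I → Prop) : Submodule F V where
  carrier := {a | ∀ i, ¬ p i → a i = 0}
  zero_mem' := fun _ _ => rfl
  add_mem' := fun ha hb i hi => by simp [ha i hi, hb i hi]
  smul_mem' := fun c a ha i hi => by simp [ha i hi]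

theorem mem_Sp {p : I → Prop} {a : V} : a ∈ Sp p ↔ ∀ i, ¬ p i → a i = 0 := Iff.rfl

theorem single_Sp {p : I → Prop} {i : I} (h : p i) (c : F) : (Pi.single i c : V) ∈ Sp p := fun j hj =>
  Pi.single_eq_of_ne (by rintro rfl; exact hj h) _

theorem card_Sp (p : I → Prop) [DecidablePred p] :
    Nat.card (Sp p : Submodule F V) = Nat.card F ^ Fintype.card {i // p i} := by
  have e : (Sp p : Submodule F V) ≃ ({i // p i} → F) :=
    { toFun := fun a i => a.1 i.1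
      invFun := fun b => ⟨fun i => if h : p i then b ⟨i, h⟩ else 0, fun i hi => dif_neg hi⟩
      left_inv := fun a => Subtype.ext (funext fun i => by
        by_cases h : p i
        · simp [h]
        · simp [h, a.2 i h])
      right_inv := fun b => funext fun i => by simp [i.2] }
  rw [Nat.card_congr e, Nat.card_fun, Nat.card_eq_fintype_card (α := {i // p i})]

theorem fin_Sp (p : I → Prop) [DecidablePred p] :
    Module.finrank F (Sp p : Submodule F V) = Fintype.card {i // p i} := by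
  have h := card_Sp (F := F) p
  rw [Module.natCard_eq_pow_finrank (K := F)] at h
  exact Nat.pow_right_injective (Finite.one_lt_card (α := F)) h

theorem ker_Sp (p : I → Prop) [DecidablePred p] {A : Mx} (h : A.rank < Fintype.card {i // p i}) :
    ∃ u ∈ (Sp p : Submodule F V), u ≠ 0 ∧ A *ᵥ u = 0 := by
  let f : (Sp p : Submodule F V) →ₗ[F] LinearMap.range A.mulVecLin :=
    A.mulVecLin.rangeRestrict.comp (Sp p).subtype
  have k : LinearMap.ker f ≠ ⊥ := LinearMap.ker_ne_bot_of_finrank_lt (by rw [fin_Sp]; exact h)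
  obtain ⟨u, hu, h0⟩ := Submodule.exists_mem_ne_zero_of_ne_bot k
  refine ⟨u.1, u.2, fun e => h0 (Subtype.ext e), ?_⟩
  exact congrArg Subtype.val (LinearMap.mem_ker.1 hu)

local notation "W" => (Sp (fun i : Fin (n + 3) => Fin.val i < kk n) : Submodule F (Fin (n + 3) → F))
local notation "W'" => (Sp (fun i : Fin (n + 3) => kk n ≤ Fin.val i) : Submodule F (Fin (n + 3) → F))

theorem kk_le : kk n ≤ n + 3 := by unfold kk; omega

theorem cW : Fintype.card {i : I // i.1 < kk n} = kk n := Fintype.card_fin_lt_of_le kk_le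

theorem cW' : Fintype.card {i : I // kk n ≤ i.1} = n + 3 - kk n := by
  have h := Fintype.card_subtype_compl (fun i : I => i.1 < kk n)
  rw [cW, Fintype.card_fin] at h
  rw [← h]
  exact Fintype.card_congr (Equiv.subtypeEquivRight fun i => not_lt.symm)

theorem dot0 {a b : V} (ha : a ∈ W) (hb : b ∈ W') : a ⬝ᵥ b = 0 := by
  refine Finset.sum_eq_zero fun i _ => ?_
  by_cases h : i.1 < kk n
  · rw [hb i (not_le.2 h), mul_zero]
  · rw [ha i h, zero_mul]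

theorem dot0' {a b : V} (ha : a ∈ W') (hb : b ∈ W) : a ⬝ᵥ b = 0 := by
  rw [dotProduct_comm]; exact dot0 hb ha

variable (n F) in
/-- the matrices of `J` -/
def Jm : Submodule F Mx where
  carrier := {N | ∀ i j, ¬ (i.1 < kk n ∧ kk n ≤ j.1) → N i j = 0}
  zero_mem' := fun _ _ _ => rfl
  add_mem' := fun ha hb i j hi => by simp [ha i j hi, hb i j hi]
  smul_mem' := fun c a ha i j hi => by simp [ha i j hi]

theorem Jm_row {N : Mx} (h : N ∈ Jm F n) (i : I) : N i ∈ W' := fun j hj => h i j fun k => hj k.2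

theorem Jm_mv {N : Mx} (h : N ∈ Jm F n) (v : V) : N *ᵥ v ∈ W := fun i hi => by
  change ∑ j, N i j * v j = 0
  refine Finset.sum_eq_zero fun j _ => ?_
  rw [h i j fun k => hi k.1, zero_mul]

theorem Jm_vm {N : Mx} (h : N ∈ Jm F n) (v : V) : v ᵥ* N ∈ W' := fun j hj => by
  change ∑ i, v i * N i j = 0
  refine Finset.sum_eq_zero fun i _ => ?_
  rw [h i j fun k => hj k.2, mul_zero]

theorem Jm_mv0 {N : Mx} (h : N ∈ Jm F n) {v : V} (hv : v ∈ W) : N *ᵥ v = 0 :=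
  funext fun i => dot0' (Jm_row h i) hv

theorem Jm_vm0 {N : Mx} (h : N ∈ Jm F n) {v : V} (hv : v ∈ W') : v ᵥ* N = 0 :=
  funext fun j => dot0' hv (b := fun i => N i j) fun i hi => h i j fun k => hi k.1

theorem vv_Jm {a b : V} (ha : a ∈ W) (hb : b ∈ W') : a ⊗ b ∈ Jm F n := fun i j h => by
  rw [vecMulVec_apply]
  by_cases k : i.1 < kk n
  · rw [hb j fun e => h ⟨k, e⟩, mul_zero]
  · rw [ha i k, zero_mul]

theorem Z0_Jm : Z0 (Jm F n) := fun A hA B hB => by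
  ext i j
  exact congrFun (Jm_vm0 hB (Jm_row hA i)) j

theorem mem_J {x : X} : x ∈ JJ n F (kk n) ↔ ∃ N ∈ Jm F n, x.1 = 1 + N := by
  rw [mem_JJ]
  refine ⟨fun h => ⟨x.1 - 1, fun i j k => ?_, by abel⟩, ?_⟩
  · rw [Matrix.sub_apply, h i j k, sub_self]
  · rintro ⟨N, hN, e⟩ i j k
    rw [e, Matrix.add_apply, hN i j k, add_zero]

theorem cj_val {x v : X} {T M : Mx} (hT : T * T = 0) (e : x.1 = 1 + T) (f : v.1 = 1 + M) :
    (x * v * x⁻¹).1 = 1 + (M + T * M + M * T + T * M * T) := by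
  rw [inv_eq_of_mul_eq_one_right (inv1 hT e), Matrix.SpecialLinearGroup.coe_mul,
    Matrix.SpecialLinearGroup.coe_mul, e, f]
  have : (1 + T) * (1 + M) * (1 + T) = (1 + T) * (1 + T) + (M + T * M + M * T + T * M * T) := by noncomm_ring
  rw [this, sq1 hT]

/-- multiplication preserves `Jm` -/
def Nm (T : Mx) : Prop := ∀ M ∈ Jm F n, T * M ∈ Jm F n ∧ M * T ∈ Jm F n

theorem nJ {x : X} {T : Mx} (hT : T * T = 0) (e : x.1 = 1 + T) (h : Nm T) : x ∈ 𝐍(JJ n F (kk n)) := by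
  refine mem_normalizer_fintype fun v hv => ?_
  obtain ⟨M, hM, f⟩ := mem_J.1 hv
  refine mem_J.2 ⟨_, ?_, cj_val hT e f⟩
  exact add_mem (add_mem (add_mem hM (h M hM).1) (h M hM).2) (h _ (h M hM).1).2

theorem Nm_col {a b : V} (hb : b ∈ W') : Nm (a ⊗ b) := fun M hM =>
  ⟨by rw [vecMulVec_mul, Jm_vm0 hM hb, vecMulVec_zero]; exact zero_mem _,
    by rw [mul_vecMulVec]; exact vv_Jm (Jm_mv hM a) hb⟩

theorem Nm_row {a b : V} (ha : a ∈ W) : Nm (a ⊗ b) := fun M hM =>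
  ⟨by rw [vecMulVec_mul]; exact vv_Jm ha (Jm_vm hM b),
    by rw [mul_vecMulVec, Jm_mv0 hM ha, zero_vecMulVec]; exact zero_mem _⟩

theorem Nm.add {A B : Mx} (h : Nm A) (k : Nm B) : Nm (A + B) := fun M hM =>
  ⟨by rw [add_mul]; exact add_mem (h M hM).1 (k M hM).1, by rw [mul_add]; exact add_mem (h M hM).2 (k M hM).2⟩

theorem cm_val {x v : X} {T M : Mx} (hT : T * T = 0) (e : x.1 = 1 + T) (f : v.1 = 1 + M) (hM : M ∈ Jm F n)
    (h : Nm T) (h0 : T * M * T = 0) : (v * (x * v * x⁻¹)).1 = 1 + (T * M + M * T) := by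
  rw [Matrix.SpecialLinearGroup.coe_mul, cj_val hT e f, f, h0, add_zero,
    mul1 (Z0_Jm _ hM _ (add_mem (add_mem hM (h M hM).1) (h M hM).2)), add_assoc M, ← add_assoc M M, aa, zero_add]

/-- `A ⊗ b` -/
def col (A : Submodule F V) (b : V) : Submodule F Mx := A.map ((vecMulVecBilin F F).flip b)
/-- `a ⊗ B` -/
def row (a : V) (B : Submodule F V) : Submodule F Mx := B.map (vecMulVecBilin F F a)

theorem mem_col {A : Submodule F V} {b : V} {M : Mx} : M ∈ col A b ↔ ∃ a ∈ A, a ⊗ b = M := Submodule.mem_map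
theorem mem_row {B : Submodule F V} {a : V} {M : Mx} : M ∈ row a B ↔ ∃ b ∈ B, a ⊗ b = M := Submodule.mem_map

theorem card_col (A : Submodule F V) {b : V} (h : b ≠ 0) : Nat.card (col A b) = Nat.card A := by
  refine (Nat.card_congr (Submodule.equivMapOfInjective _ ?_ A).toEquiv).symm
  rw [injective_iff_map_eq_zero]
  intro a e
  exact ((vecMulVec_eq_zero (a := a) (b := b)).1 e).resolve_right h

theorem card_row (B : Submodule F V) {a : V} (h : a ≠ 0) : Nat.card (row a B) = Nat.card B := by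
  refine (Nat.card_congr (Submodule.equivMapOfInjective _ ?_ B).toEquiv).symm
  rw [injective_iff_map_eq_zero]
  intro b e
  exact ((vecMulVec_eq_zero (a := a) (b := b)).1 e).resolve_left h

theorem Z0_col {A : Submodule F V} {b : V} (h : ∀ a ∈ A, b ⬝ᵥ a = 0) : Z0 (col A b) := by
  intro M hM M' hM'
  obtain ⟨a, -, rfl⟩ := mem_col.1 hM
  obtain ⟨a', ha, rfl⟩ := mem_col.1 hM'
  rw [vecMulVec_mul_vecMulVec, h a' ha, zero_smul, vecMulVec_zero]

theorem Z0_row {B : Submodule F V} {a : V} (h : ∀ b ∈ B, b ⬝ᵥ a = 0) : Z0 (row a B) := by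
  intro M hM M' hM'
  obtain ⟨b, hb, rfl⟩ := mem_row.1 hM
  obtain ⟨b', -, rfl⟩ := mem_row.1 hM'
  rw [vecMulVec_mul_vecMulVec, h b hb, zero_smul, vecMulVec_zero]

theorem dual {p : I → Prop} {u : V} (hu : u ∈ Sp p) (h : u ≠ 0) : ∃ η ∈ (Sp p : Submodule F V), η ⬝ᵥ u = 1 := by
  obtain ⟨j, hj⟩ := Function.ne_iff.1 h
  refine ⟨Pi.single j (u j)⁻¹, single_Sp (by by_contra k; exact hj (hu j k)) _, ?_⟩
  rw [single_dotProduct, inv_mul_cancel₀ hj]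

theorem ne_bot {R : Subgroup X} (h : 2 ≤ Nat.card R) : R ≠ ⊥ := by
  rintro rfl
  rw [Subgroup.card_bot] at h
  omega

theorem ln_col {A : Submodule F V} {b : V} (hA : A ≤ W') (hb : b ∈ W') (h0 : b ≠ 0) (h : ∀ a ∈ A, b ⬝ᵥ a = 0)
    (hc : Nat.card F ≤ Nat.card A) :
    Ln (JJ n F (kk n)) (GS (col A b) (Z0_col h)) (GS (col W b) (Z0_col fun _ ha => dot0' hb ha)) := by
  have h2 : 2 ≤ Nat.card F := Finite.one_lt_card
  refine ⟨el_GS _, ne_bot ?_, fun hn => ?_, ?_, ?_, ?_, ?_⟩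
  · rw [card_GS, card_col _ h0]; omega
  · rw [card_GS, card_col _ h0]; exact (Ok.h (n := n) (by omega)).trans hc
  · rintro x ⟨T, hT, e⟩
    obtain ⟨a, ha, rfl⟩ := mem_col.1 hT
    exact nJ (Z0_col h _ hT _ hT) e (Nm_col hb)
  · rintro x ⟨T, hT, e⟩
    obtain ⟨a, ha, rfl⟩ := mem_col.1 hT
    exact mem_J.2 ⟨_, vv_Jm ha hb, e⟩
  · rw [card_GS, card_col _ h0, card_Sp, cW]
  · rintro x ⟨T, hT, e⟩ h1 y
    obtain ⟨a, ha, rfl⟩ := mem_col.1 hT
    have a0 : a ≠ 0 := by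
      rintro rfl
      exact h1 (Subtype.ext (by rw [e, zero_vecMulVec, add_zero]; rfl))
    have key : ∀ {v : X} {M : Mx}, v.1 = 1 + M → M ∈ Jm F n → (v * (x * v * x⁻¹)).1 = 1 + (M *ᵥ a) ⊗ b := by
      intro v M f hM
      have z : a ⊗ b * M = 0 := by rw [vecMulVec_mul, Jm_vm0 hM hb, vecMulVec_zero]
      rw [cm_val (Z0_col h _ hT _ hT) e f hM (Nm_col hb) (by rw [z, zero_mul]), z, zero_add, mul_vecMulVec]
    constructor
    · rintro ⟨C, hC, f⟩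
      obtain ⟨w, hw, rfl⟩ := mem_col.1 hC
      obtain ⟨η, hη, d⟩ := dual (hA ha) a0
      have hM := vv_Jm hw hη
      refine ⟨mk _ (Z0_Jm _ hM _ hM), mem_J.2 ⟨_, hM, rfl⟩, Subtype.ext ?_⟩
      rw [key rfl hM, f, vecMulVec_mulVec, d, MulOpposite.op_one, one_smul]
    · rintro ⟨v, hv, rfl⟩
      obtain ⟨M, hM, f⟩ := mem_J.1 hv
      exact ⟨_, mem_col.2 ⟨_, Jm_mv hM a, rfl⟩, key f hM⟩

theorem ln_row (hk : n + 3 - kk n = kk n) {B : Submodule F V} {a : V} (hB : B ≤ W) (ha : a ∈ W) (h0 : a ≠ 0)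
    (h : ∀ b ∈ B, b ⬝ᵥ a = 0) (hc : Nat.card F ≤ Nat.card B) :
    Ln (JJ n F (kk n)) (GS (row a B) (Z0_row h)) (GS (row a W') (Z0_row fun _ hb => dot0' hb ha)) := by
  have h2 : 2 ≤ Nat.card F := Finite.one_lt_card
  refine ⟨el_GS _, ne_bot ?_, fun hn => ?_, ?_, ?_, ?_, ?_⟩
  · rw [card_GS, card_row _ h0]; omega
  · rw [card_GS, card_row _ h0]; exact (Ok.h (n := n) (by omega)).trans hc
  · rintro x ⟨T, hT, e⟩
    obtain ⟨b, hb, rfl⟩ := mem_row.1 hT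
    exact nJ (Z0_row h _ hT _ hT) e (Nm_row ha)
  · rintro x ⟨T, hT, e⟩
    obtain ⟨b, hb, rfl⟩ := mem_row.1 hT
    exact mem_J.2 ⟨_, vv_Jm ha hb, e⟩
  · rw [card_GS, card_row _ h0, card_Sp, cW', hk]
  · rintro x ⟨T, hT, e⟩ h1 y
    obtain ⟨b, hb, rfl⟩ := mem_row.1 hT
    have b0 : b ≠ 0 := by
      rintro rfl
      exact h1 (Subtype.ext (by rw [e, vecMulVec_zero, add_zero]; rfl))
    have key : ∀ {v : X} {M : Mx}, v.1 = 1 + M → M ∈ Jm F n → (v * (x * v * x⁻¹)).1 = 1 + a ⊗ (b ᵥ* M) := by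
      intro v M f hM
      have z : M * a ⊗ b = 0 := by rw [mul_vecMulVec, Jm_mv0 hM ha, zero_vecMulVec]
      rw [cm_val (Z0_row h _ hT _ hT) e f hM (Nm_row ha) (by rw [mul_assoc, z, mul_zero]), z, add_zero,
        vecMulVec_mul]
    constructor
    · rintro ⟨C, hC, f⟩
      obtain ⟨w, hw, rfl⟩ := mem_row.1 hC
      obtain ⟨η, hη, d⟩ := dual (hB hb) b0
      have hM := vv_Jm hη hw
      refine ⟨mk _ (Z0_Jm _ hM _ hM), mem_J.2 ⟨_, hM, rfl⟩, Subtype.ext ?_⟩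
      rw [key rfl hM, f, vecMul_vecMulVec, dotProduct_comm, d, one_smul]
    · rintro ⟨v, hv, rfl⟩
      obtain ⟨M, hM, f⟩ := mem_J.1 hv
      exact ⟨_, mem_row.2 ⟨_, Jm_vm hM b, rfl⟩, key f hM⟩

/-- the matrices of `J ⊓ D` -/
def DS (D : Subgroup X) : AddSubgroup Mx where
  carrier := {M | M ∈ Jm F n ∧ ∃ x ∈ D, x.1 = 1 + M}
  zero_mem' := ⟨zero_mem _, 1, D.one_mem, by simp⟩
  add_mem' := by
    rintro A B ⟨hA, x, hx, e⟩ ⟨hB, y, hy, f⟩
    exact ⟨add_mem hA hB, x * y, D.mul_mem hx hy, by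
      rw [Matrix.SpecialLinearGroup.coe_mul, e, f, mul1 (Z0_Jm A hA B hB)]⟩
  neg_mem' := by
    intro A h
    rwa [neg_eq_of_add_eq_zero_right (aa A)]

theorem DS.mem {D : Subgroup X} {x : X} {M : Mx} (h : M ∈ DS D) (e : x.1 = 1 + M) : x ∈ D := by
  obtain ⟨-, y, hy, f⟩ := h
  rwa [show x = y from Subtype.ext (e.trans f.symm)]

theorem DS.of {D : Subgroup X} {S : Submodule F Mx} {h : Z0 S} (k : GS S h ≤ D) {M : Mx} (hM : M ∈ S)
    (hJ : M ∈ Jm F n) : M ∈ DS D := ⟨hJ, mk M (h M hM M hM), k ⟨M, hM, rfl⟩, rfl⟩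

theorem DS.zero {D D' : Subgroup X} (h : D ⊓ D' ⊓ JJ n F (kk n) = ⊥) {M : Mx} (k : M ∈ DS D) (k' : M ∈ DS D') :
    M = 0 := by
  have hM := Z0_Jm M k.1 M k.1
  have e : mk M hM ∈ D ⊓ D' ⊓ JJ n F (kk n) := ⟨⟨DS.mem k rfl, DS.mem k' rfl⟩, mem_J.2 ⟨M, k.1, rfl⟩⟩
  rw [h, Subgroup.mem_bot] at e
  have e' : (1 : Mx) + M = 1 := congrArg Subtype.val e
  simpa using e'

/-- the `a` with `a ⊗ B ≤ T` -/
def LS (T : AddSubgroup Mx) (B : Submodule F V) : AddSubgroup V where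
  carrier := {a | ∀ b ∈ B, a ⊗ b ∈ T}
  zero_mem' := fun b _ => by rw [zero_vecMulVec]; exact zero_mem _
  add_mem' := fun ha hb c hc => by rw [add_vecMulVec]; exact add_mem (ha c hc) (hb c hc)
  neg_mem' := fun ha c hc => by rw [neg_vecMulVec]; exact neg_mem (ha c hc)

/-- the `b` with `A ⊗ b ≤ T` -/
def RS (T : AddSubgroup Mx) (A : Submodule F V) : AddSubgroup V where
  carrier := {b | ∀ a ∈ A, a ⊗ b ∈ T}
  zero_mem' := fun b _ => by rw [vecMulVec_zero]; exact zero_mem _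
  add_mem' := fun ha hb c hc => by rw [vecMulVec_add]; exact add_mem (ha c hc) (hb c hc)
  neg_mem' := fun ha c hc => by rw [vecMulVec_neg]; exact neg_mem (ha c hc)

theorem sideL {T T' : AddSubgroup Mx} {A B : Submodule F V}
    (h : ∀ a ∈ A, (∀ b ∈ B, a ⊗ b ∈ T) ∨ ∀ b ∈ B, a ⊗ b ∈ T') :
    (∀ a ∈ A, ∀ b ∈ B, a ⊗ b ∈ T) ∨ ∀ a ∈ A, ∀ b ∈ B, a ⊗ b ∈ T' :=
  (AddSubgroupClass.subset_union (H := A.toAddSubgroup) (K := LS T B) (L := LS T' B)).1 h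

theorem sideR {T T' : AddSubgroup Mx} {A B : Submodule F V}
    (h : ∀ b ∈ B, (∀ a ∈ A, a ⊗ b ∈ T) ∨ ∀ a ∈ A, a ⊗ b ∈ T') :
    (∀ b ∈ B, ∀ a ∈ A, a ⊗ b ∈ T) ∨ ∀ b ∈ B, ∀ a ∈ A, a ⊗ b ∈ T' :=
  (AddSubgroupClass.subset_union (H := B.toAddSubgroup) (K := RS T A) (L := RS T' A)).1 h

theorem rows {T : AddSubgroup Mx} {B : Submodule F V} (h : ∀ b ∈ B, ∀ a ∈ W, a ⊗ b ∈ T) {M : Mx}
    (hM : M ∈ Jm F n) (k : ∀ i, M i ∈ B) : M ∈ T := by
  have e : M = ∑ i, (Pi.single i 1 : V) ⊗ M i := by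
    ext i j
    simp [Matrix.sum_apply, vecMulVec_apply, Pi.single_apply]
  rw [e]
  refine sum_mem fun i _ => ?_
  by_cases hi : i.1 < kk n
  · exact h _ (k i) _ (single_Sp (p := fun i : I => i.1 < kk n) hi 1)
  · rw [show M i = 0 from funext fun j => hM i j fun k => hi k.1, vecMulVec_zero]
    exact zero_mem _

theorem rk_val {x : X} {M : Mx} (e : x.1 = 1 + M) : rk x = M.rank := by
  unfold rk; rw [e, add_sub_cancel_left]

theorem dual2 {p : I → Prop} {u v : V} (hu : u ∈ Sp p) (h : u ≠ 0) (hv : v ∈ Sp p) (k : v ≠ 0) :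
    ∃ η ∈ (Sp p : Submodule F V), η ⬝ᵥ u = 1 ∧ η ⬝ᵥ v ≠ 0 := by
  obtain ⟨a, ha, d⟩ := dual hu h
  obtain ⟨b, hb, d'⟩ := dual hv k
  by_cases h1 : a ⬝ᵥ v = 0
  · by_cases h2 : b ⬝ᵥ u = 0
    · exact ⟨a + b, add_mem ha hb, by rw [add_dotProduct, d, h2, add_zero],
        by rw [add_dotProduct, d', h1, zero_add]; exact one_ne_zero⟩
    · exact ⟨(b ⬝ᵥ u)⁻¹ • b, Submodule.smul_mem _ _ hb, by rw [smul_dotProduct, smul_eq_mul, inv_mul_cancel₀ h2],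
        by rw [smul_dotProduct, d', smul_eq_mul, mul_one]; exact inv_ne_zero h2⟩
  · exact ⟨a, ha, d, h1⟩

theorem move {u v : V} (hu : u ∈ W') (h : u ≠ 0) (hv : v ∈ W') (k : v ≠ 0) {M : Mx} (hM : M ∈ Jm F n) :
    ∃ M' ∈ Jm F n, M'.rank = M.rank ∧ M' *ᵥ u = M *ᵥ v := by
  obtain ⟨η, hη, d, d'⟩ := dual2 hu h hv k
  have q : (1 + (v - u) ⊗ η) * (1 - (η ⬝ᵥ v)⁻¹ • (v - u) ⊗ η) = 1 := by
    rw [add_mul, mul_sub, mul_sub, one_mul, one_mul, mul_one, Matrix.mul_smul, vecMulVec_mul_vecMulVec,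
      vecMulVec_smul, dotProduct_sub, d, smul_smul, mul_sub, inv_mul_cancel₀ d', mul_one, sub_smul, one_smul]
    abel
  refine ⟨M * (1 + (v - u) ⊗ η), ?_, le_antisymm (rank_mul_le_left _ _) ?_, ?_⟩
  · rw [mul_add, mul_one]
    exact add_mem hM (Nm_col hη M hM).2
  · conv_lhs => rw [← mul_one M, ← q, ← mul_assoc]
    exact rank_mul_le_left _ _
  · rw [← mulVec_mulVec, add_mulVec, one_mulVec, vecMulVec_mulVec, d, MulOpposite.op_one, one_smul, add_sub_cancel]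

/-- orthogonal complement inside `A` -/
def Pp (A : Submodule F V) (u : V) : Submodule F V where
  carrier := {b | b ∈ A ∧ b ⬝ᵥ u = 0}
  zero_mem' := ⟨zero_mem _, zero_dotProduct _⟩
  add_mem' := fun ha hb => ⟨add_mem ha.1 hb.1, by rw [add_dotProduct, ha.2, hb.2, add_zero]⟩
  smul_mem' := fun c a ha => ⟨A.smul_mem c ha.1, by rw [smul_dotProduct, ha.2, smul_zero]⟩

theorem card_span {u : V} (h : u ≠ 0) : Nat.card F ≤ Nat.card (Submodule.span F {u}) := by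
  rw [(Module.natCard_eq_pow_finrank (K := F) : Nat.card (Submodule.span F {u}) = _), finrank_span_singleton h,
    pow_one]

theorem ex_Pp (p : I → Prop) [DecidablePred p] (h : 2 ≤ Fintype.card {i // p i}) (u : V) :
    ∃ b ∈ Pp (Sp p) u, b ≠ 0 := by
  obtain ⟨b, hb, h0, e⟩ := ker_Sp p (A := (fun _ => 1 : V) ⊗ u) ((rank_vecMulVec_le _ _).trans_lt h)
  refine ⟨b, ⟨hb, ?_⟩, h0⟩
  rw [vecMulVec_mulVec] at e
  simpa [dotProduct_comm] using congrFun e 0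

theorem ln3' {T T' : AddSubgroup Mx} (h : ∀ a ∈ W, ∀ b ∈ W', a ⊗ b ∈ T ∨ a ⊗ b ∈ T') :
    (∀ M ∈ Jm F n, M ∈ T) ∨ ∀ M ∈ Jm F n, M ∈ T' := by
  have k : ∀ b ∈ W', (∀ a ∈ W, a ⊗ b ∈ T) ∨ ∀ a ∈ W, a ⊗ b ∈ T' := by
    intro b hb
    exact (AddSubgroupClass.subset_union (H := (W).toAddSubgroup)
      (K := T.comap ((vecMulVecBilin F F).flip b).toAddMonoidHom)
      (L := T'.comap ((vecMulVecBilin F F).flip b).toAddMonoidHom)).1 fun a ha => h a ha b hb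
  exact (sideR k).imp (fun e M hM => rows e hM (Jm_row hM)) fun e M hM => rows e hM (Jm_row hM)

theorem eL_W : (Pi.single iL 1 : V) ∈ W' :=
  single_Sp (p := fun i : I => kk n ≤ i.1) (by unfold kk; simp only [Fin.val_last]; omega) 1

theorem eL_ne : (Pi.single iL 1 : V) ≠ 0 := fun e => by simpa using congrFun e iL

theorem UU_W {u : X} (hu : u ∈ UU n F) {w : V} (hw : w ∈ W) : u.1 *ᵥ w ∈ W := fun i hi => by
  change ∑ j, u.1 i j * w j = 0
  refine Finset.sum_eq_zero fun j _ => ?_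
  by_cases h : j.1 < kk n
  · have k : j < i := by rw [Fin.lt_def]; omega
    rw [mem_UU.1 hu i j k.le, one_apply_ne k.ne', zero_mul]
  · rw [hw j h, mul_zero]

theorem UU_L {u : X} (hu : u ∈ UU n F) : (Pi.single iL 1 : V) ᵥ* u.1 = Pi.single iL 1 := by
  funext j
  rw [single_one_vecMul, row_apply, mem_UU.1 hu iL j (Fin.le_last j), one_apply, Pi.single_apply]
  simp only [eq_comm]

theorem ln1' : ∃ R C : Subgroup X, Ln (JJ n F (kk n)) R C ∧ 4 ≤ Nat.card R ∧ R ≤ UU n F ∧ RR F 0 iL ≤ C ∧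
    UU n F ≤ 𝐍(C) := by
  let p : I → Prop := fun i => kk n ≤ i.1 ∧ i ≠ iL
  have h2 : 2 ≤ Nat.card F := Finite.one_lt_card
  have hA : (Sp p : Submodule F V) ≤ W' := fun a ha i hi => ha i fun k => hi k.1
  have h : ∀ a ∈ (Sp p : Submodule F V), (Pi.single iL 1 : V) ⬝ᵥ a = 0 := fun a ha => by
    rw [single_dotProduct, ha iL fun k => k.2 rfl, mul_zero]
  have p1 : p ⟨n + 1, by omega⟩ := ⟨by unfold kk; simp only []; omega, fun e => by
    have := congrArg Fin.val e; simp at this⟩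
  have c1 : 1 ≤ Fintype.card {i // p i} := Fintype.card_pos_iff.2 ⟨⟨_, p1⟩⟩
  have hc : Nat.card F ≤ Nat.card (Sp p : Submodule F V) := by
    rw [card_Sp]; exact Nat.le_self_pow (by omega) _
  refine ⟨_, _, ln_col hA eL_W eL_ne h hc, ?_, ?_, ?_, ?_⟩
  · rw [card_GS, card_col _ eL_ne]
    by_cases hn : n ≤ 1
    · exact (Ok.h hn).trans hc
    · have p2 : p ⟨n, by omega⟩ := ⟨by unfold kk; simp only []; omega, fun e => by
        have := congrArg Fin.val e; simp at this⟩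
      have c2 : 2 ≤ Fintype.card {i // p i} := Fintype.one_lt_card_iff.2 ⟨⟨_, p1⟩, ⟨_, p2⟩, fun e => by
        have := congrArg (fun x => x.1.1) e; simp at this⟩
      rw [card_Sp]
      calc 4 = 2 ^ 2 := rfl
        _ ≤ Nat.card F ^ 2 := Nat.pow_le_pow_left h2 2
        _ ≤ _ := Nat.pow_le_pow_right (by omega) c2
  · rintro x ⟨T, hT, e⟩
    obtain ⟨a, ha, rfl⟩ := mem_col.1 hT
    refine mem_UU.2 fun i j hij => ?_
    rw [e, Matrix.add_apply, vecMulVec_apply, add_eq_left]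
    by_cases k : j = iL
    · have : i = iL := le_antisymm (Fin.le_last i) (k ▸ hij)
      rw [ha i fun k => k.2 this, zero_mul]
    · rw [Pi.single_eq_of_ne k, mul_zero]
  · intro x hx
    obtain ⟨c, rfl⟩ := mem_RR.1 hx
    refine ⟨_, mem_col.2 ⟨Pi.single 0 c, single_Sp (p := fun i : I => i.1 < kk n)
      (by unfold kk; simp only [Fin.val_zero]; omega) c, rfl⟩, ?_⟩
    rw [xe_val (fun e => by have := congrArg Fin.val e; simp at this)]
    congr 1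
    ext i j
    by_cases a : i = 0 <;> by_cases b : j = iL <;>
      simp [vecMulVec_apply, Pi.single_apply, Matrix.single, eq_comm, a, b]
  · intro u hu
    refine mem_normalizer_fintype ?_
    rintro x ⟨T, hT, e⟩
    obtain ⟨a, ha, rfl⟩ := mem_col.1 hT
    refine ⟨_, mem_col.2 ⟨_, UU_W hu ha, rfl⟩, ?_⟩
    rw [Matrix.SpecialLinearGroup.coe_mul, Matrix.SpecialLinearGroup.coe_mul, e, mul_add, add_mul, mul_one,
      ← Matrix.SpecialLinearGroup.coe_mul, mul_inv_cancel, mul_vecMulVec, vecMulVec_mul, UU_L (inv_mem hu)]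
    rfl

theorem Z0_T {u μ : V} (hu : u ∈ W') (hμ : μ ∈ W) : Z0 (row u (Pp W' u) ⊔ col (Pp W μ) μ) := by
  intro A hA B hB
  obtain ⟨_, h1, _, h2, rfl⟩ := Submodule.mem_sup.1 hA
  obtain ⟨_, k1, _, k2, rfl⟩ := Submodule.mem_sup.1 hB
  obtain ⟨b, hb, rfl⟩ := mem_row.1 h1
  obtain ⟨a, ha, rfl⟩ := mem_col.1 h2
  obtain ⟨b', hb', rfl⟩ := mem_row.1 k1
  obtain ⟨a', ha', rfl⟩ := mem_col.1 k2
  simp only [add_mul, mul_add, vecMulVec_mul_vecMulVec]
  rw [hb.2, dot0 hμ hu, dot0' hb.1 ha'.1, dotProduct_comm μ, ha'.2]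
  simp

/-- the conclusion of `ln2` on one side -/
theorem fin2 {T T' : AddSubgroup Mx} (h0 : ∀ M ∈ T, M ∈ T' → M = 0) {N : Mx} (hN : N ∈ Jm F n) {u μ : V}
    (hu : u ∈ W') (u0 : u ≠ 0) (hμ : μ ∈ W) (e : N *ᵥ u = 0) {r : ℕ} (h2 : r ≤ kk n)
    (c : ∀ b ∈ Pp W' u, ∀ a ∈ W, a ⊗ b ∈ T)
    (d : n + 3 - kk n = kk n → (∀ a ∈ Pp W μ, ∀ b ∈ W', a ⊗ b ∈ T) ∨ ∀ a ∈ Pp W μ, ∀ b ∈ W', a ⊗ b ∈ T') :
    N ∈ T ∧ ∃ M ∈ Jm F n, M.rank = r ∧ M ∈ T := by
  have H : ∀ M ∈ Jm F n, M *ᵥ u = 0 → M ∈ T := fun M hM k =>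
    rows c hM fun i => ⟨Jm_row hM i, congrFun k i⟩
  refine ⟨H N hN e, ?_⟩
  obtain ⟨x, hx, rx⟩ := ex_rk (F := F) h2
  obtain ⟨M, hM, f⟩ := mem_J.1 hx
  rw [rk_val f] at rx
  by_cases hk : n + 3 - kk n = kk n
  · have k2 : 2 ≤ kk n := by unfold kk at hk ⊢; omega
    have d' : ∀ a ∈ Pp W μ, ∀ b ∈ W', a ⊗ b ∈ T := by
      refine (d hk).resolve_right fun d' => ?_
      obtain ⟨a, ha, a0⟩ := ex_Pp (F := F) (fun i : I => i.1 < kk n) (by rw [cW]; exact k2) μ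
      obtain ⟨b, hb, b0⟩ := ex_Pp (F := F) (fun i : I => kk n ≤ i.1) (by rw [cW', hk]; exact k2) u
      exact (vecMulVec_eq_zero.1 (h0 _ (c b hb a ha.1) (d' a ha b hb.1))).elim a0 b0
    obtain ⟨v, hv, v0⟩ := ex_Pp (F := F) (fun i : I => kk n ≤ i.1) (by rw [cW', hk]; exact k2) (μ ᵥ* M)
    obtain ⟨M', hM', rM, g⟩ := move hu u0 hv.1 v0 hM
    obtain ⟨η, hη, dη⟩ := dual hu u0
    refine ⟨M', hM', rM.trans rx, ?_⟩
    have ha : M' *ᵥ u ∈ Pp W μ := ⟨Jm_mv hM' u, by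
      rw [g, dotProduct_comm, dotProduct_mulVec, dotProduct_comm]; exact hv.2⟩
    rw [← sub_add_cancel M' ((M' *ᵥ u) ⊗ η)]
    refine add_mem (H _ (sub_mem hM' (vv_Jm ha.1 hη)) ?_) (d' _ ha η hη)
    rw [sub_mulVec, vecMulVec_mulVec, dη, MulOpposite.op_one, one_smul, sub_self]
  · obtain ⟨v, hv, v0, g'⟩ := ker_Sp (fun i : I => kk n ≤ i.1) (A := M) (by
      rw [cW', rx]; unfold kk at hk h2 ⊢; omega)
    obtain ⟨M', hM', rM, g⟩ := move hu u0 hv v0 hM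
    exact ⟨M', hM', rM.trans rx, H M' hM' (g.trans g')⟩

theorem ln2' {y : X} (hy : y ∈ JJ n F (kk n)) {r : ℕ} (h1 : rk y < r) (h2 : r ≤ kk n) :
    ∃ P : Subgroup X, IsPGroup 2 P ∧ JJ n F (kk n) ≤ P ∧ (∀ p ∈ P, p * y = y * p) ∧
      ∀ D D' : Subgroup X, D ⊓ D' ⊓ JJ n F (kk n) = ⊥ →
        (∀ R C, R ≤ P → Ln (JJ n F (kk n)) R C → C ≤ D ∨ C ≤ D') →
        ∃ a ∈ JJ n F (kk n), rk a = r ∧ ((y ∈ D ∧ a ∈ D) ∨ (y ∈ D' ∧ a ∈ D')) := by
  obtain ⟨N, hN, f⟩ := mem_J.1 hy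
  rw [rk_val f] at h1
  obtain ⟨u, hu, u0, eu⟩ := ker_Sp (fun i : I => kk n ≤ i.1) (A := N) (by
    rw [cW']; unfold kk at h2 ⊢; omega)
  obtain ⟨μ, hμ, μ0, eμ⟩ := ker_Sp (fun i : I => i.1 < kk n) (A := Nᵀ) (by rw [cW, rank_transpose]; omega)
  rw [mulVec_transpose] at eμ
  have comm : ∀ {x : X} {A : Mx}, x.1 = 1 + A → A * N = 0 → N * A = 0 → x * y = y * x := fun e a b =>
    Subtype.ext (by rw [Matrix.SpecialLinearGroup.coe_mul, Matrix.SpecialLinearGroup.coe_mul, e, f, mul1 a, mul1 b,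
      add_comm N])
  refine ⟨JJ n F (kk n) ⊔ GS _ (Z0_T hu hμ), IsPGroup.to_sup_of_normal_left' (two_El (el_JJ _)) (two_El (el_GS _)) ?_,
    le_sup_left, ?_, ?_⟩
  · rintro x ⟨T, hT, e⟩
    refine nJ (Z0_T hu hμ T hT T hT) e ?_
    obtain ⟨_, h1, _, h2, rfl⟩ := Submodule.mem_sup.1 hT
    obtain ⟨b, hb, rfl⟩ := mem_row.1 h1
    obtain ⟨a, ha, rfl⟩ := mem_col.1 h2
    exact (Nm_col hb.1).add (Nm_row ha.1)
  · have : JJ n F (kk n) ⊔ GS _ (Z0_T hu hμ) ≤ centralizer {y} := by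
      refine sup_le (fun x hx => ?_) ?_
      · obtain ⟨M, hM, e⟩ := mem_J.1 hx
        exact mem_centralizer_singleton_iff.2 (comm e (Z0_Jm _ hM _ hN) (Z0_Jm _ hN _ hM))
      · rintro x ⟨T, hT, e⟩
        obtain ⟨_, h1, _, h2, rfl⟩ := Submodule.mem_sup.1 hT
        obtain ⟨b, hb, rfl⟩ := mem_row.1 h1
        obtain ⟨a, ha, rfl⟩ := mem_col.1 h2
        refine mem_centralizer_singleton_iff.2 (comm e ?_ ?_)
        · rw [add_mul, vecMulVec_mul, vecMulVec_mul, Jm_vm0 hN hb.1, eμ]; simp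
        · rw [mul_add, mul_vecMulVec, mul_vecMulVec, Jm_mv0 hN ha.1, eu]; simp
    exact fun p hp => mem_centralizer_singleton_iff.1 (this hp)
  · intro D D' hD hL
    have c : ∀ b ∈ Pp W' u, (∀ a ∈ W, a ⊗ b ∈ DS D) ∨ ∀ a ∈ W, a ⊗ b ∈ DS D' := by
      intro b hb
      by_cases b0 : b = 0
      · left; intro a _; rw [b0, vecMulVec_zero]; exact zero_mem _
      have h : ∀ a ∈ Submodule.span F {u}, b ⬝ᵥ a = 0 := fun a ha => by
        obtain ⟨c, rfl⟩ := Submodule.mem_span_singleton.1 ha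
        rw [dotProduct_smul, hb.2, smul_zero]
      refine (hL _ _ ?_ (ln_col ((Submodule.span_singleton_le_iff_mem _ _).2 hu) hb.1 b0 h (card_span u0))).imp
        (fun k a ha => DS.of k (mem_col.2 ⟨a, ha, rfl⟩) (vv_Jm ha hb.1))
        fun k a ha => DS.of k (mem_col.2 ⟨a, ha, rfl⟩) (vv_Jm ha hb.1)
      rintro x ⟨T, hT, e⟩
      obtain ⟨a, ha, rfl⟩ := mem_col.1 hT
      obtain ⟨c, rfl⟩ := Submodule.mem_span_singleton.1 ha
      refine mem_sup_right ⟨_, Submodule.mem_sup_left ?_, e⟩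
      rw [smul_vecMulVec]
      exact Submodule.smul_mem _ _ (mem_row.2 ⟨b, hb, rfl⟩)
    have d : n + 3 - kk n = kk n →
        (∀ a ∈ Pp W μ, ∀ b ∈ W', a ⊗ b ∈ DS D) ∨ ∀ a ∈ Pp W μ, ∀ b ∈ W', a ⊗ b ∈ DS D' := by
      refine fun hk => sideL fun a ha => ?_
      by_cases a0 : a = 0
      · left; intro b _; rw [a0, zero_vecMulVec]; exact zero_mem _
      have h : ∀ b ∈ Submodule.span F {μ}, b ⬝ᵥ a = 0 := fun b hb => by
        obtain ⟨c, rfl⟩ := Submodule.mem_span_singleton.1 hb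
        rw [smul_dotProduct, dotProduct_comm, ha.2, smul_zero]
      refine (hL _ _ ?_ (ln_row hk ((Submodule.span_singleton_le_iff_mem _ _).2 hμ) ha.1 a0 h (card_span μ0))).imp
        (fun k b hb => DS.of k (mem_row.2 ⟨b, hb, rfl⟩) (vv_Jm ha.1 hb))
        fun k b hb => DS.of k (mem_row.2 ⟨b, hb, rfl⟩) (vv_Jm ha.1 hb)
      rintro x ⟨T, hT, e⟩
      obtain ⟨b, hb, rfl⟩ := mem_row.1 hT
      obtain ⟨c, rfl⟩ := Submodule.mem_span_singleton.1 hb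
      refine mem_sup_right ⟨_, Submodule.mem_sup_right ?_, e⟩
      rw [vecMulVec_smul]
      exact Submodule.smul_mem _ _ (mem_col.2 ⟨a, ha, rfl⟩)
    rcases sideR c with c | c
    · obtain ⟨k, M, hM, rM, k'⟩ := fin2 (fun M => DS.zero hD) hN hu u0 hμ eu h2 c d
      exact ⟨mk M (Z0_Jm M hM M hM), mem_J.2 ⟨M, hM, rfl⟩, (rk_val rfl).trans rM,
        Or.inl ⟨DS.mem k f, DS.mem k' rfl⟩⟩
    · obtain ⟨k, M, hM, rM, k'⟩ := fin2 (fun M a b => DS.zero hD b a) hN hu u0 hμ eu h2 c fun hk => (d hk).symm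
      exact ⟨mk M (Z0_Jm M hM M hM), mem_J.2 ⟨M, hM, rfl⟩, (rk_val rfl).trans rM,
        Or.inr ⟨DS.mem k f, DS.mem k' rfl⟩⟩

theorem ln3'' {D D' : Subgroup X} (k : ∀ x ∈ JJ n F (kk n), rk x = 1 → x ∈ D ∨ x ∈ D') :
    JJ n F (kk n) ≤ D ∨ JJ n F (kk n) ≤ D' := by
  have key : ∀ {D : Subgroup X}, (∀ M ∈ Jm F n, M ∈ DS D) → JJ n F (kk n) ≤ D := fun h x hx => by
    obtain ⟨M, hM, e⟩ := mem_J.1 hx
    exact DS.mem (h M hM) e
  refine (ln3' (T := DS D) (T' := DS D') fun a ha b hb => ?_).imp key key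
  have hM := vv_Jm ha hb
  by_cases h0 : a ⊗ b = 0
  · left; rw [h0]; exact zero_mem _
  have r1 : rk (mk _ (Z0_Jm _ hM _ hM)) = 1 := by
    refine le_antisymm ((rk_val rfl).trans_le (rank_vecMulVec_le _ _)) (Nat.pos_of_ne_zero fun e => h0 ?_)
    have e' : (1 : Mx) + a ⊗ b = 1 := congrArg Subtype.val (rk_zero.1 e)
    simpa using e'
  exact (k _ (mem_J.2 ⟨_, hM, rfl⟩) r1).imp (fun h => ⟨hM, _, h, rfl⟩) fun h => ⟨hM, _, h, rfl⟩

end LN

theorem ln1 : ∃ R C : Subgroup X, Ln (JJ n F (kk n)) R C ∧ 4 ≤ Nat.card R ∧ R ≤ UU n F ∧ RR F 0 iL ≤ C ∧ UU n F ≤ 𝐍(C) := by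
  exact LN.ln1'

theorem ln2 {y : X} (hy : y ∈ JJ n F (kk n)) {r : ℕ} (h1 : rk y < r) (h2 : r ≤ kk n) :
    ∃ P : Subgroup X, IsPGroup 2 P ∧ JJ n F (kk n) ≤ P ∧ (∀ p ∈ P, p * y = y * p) ∧
      ∀ D D' : Subgroup X, D ⊓ D' ⊓ JJ n F (kk n) = ⊥ →
        (∀ R C, R ≤ P → Ln (JJ n F (kk n)) R C → C ≤ D ∨ C ≤ D') →
        ∃ a ∈ JJ n F (kk n), rk a = r ∧ ((y ∈ D ∧ a ∈ D) ∨ (y ∈ D' ∧ a ∈ D')) := by
  exact LN.ln2' hy h1 h2

theorem ln3 {D D' : Subgroup X} (h : D ⊓ D' ⊓ JJ n F (kk n) = ⊥)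
    (k : ∀ x ∈ JJ n F (kk n), rk x = 1 → x ∈ D ∨ x ∈ D') : JJ n F (kk n) ≤ D ∨ JJ n F (kk n) ≤ D' := by
  exact LN.ln3'' k

end LMS
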