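import Cfsg.Agent.Lib.LMS.RKS
import Cfsg.Agent.Lib.LMS.B5
import Cfsg.Agent.Lib.LMS.NFb

set_option autoImplicit false
set_option linter.unusedSectionVars false

namespace LMS

open Subgroup H69 Cfsg Matrix U4S
open scoped MatrixGroups commutatorElement

universe u
variable {G : Type*} [Group G] [Finite G] {F : Type u} [Field F] [CharP F 2] [Fintype F] {n : ℕ} [Ok n F]
  {ι ψ χ : XX n F →* G} {t : G} {E : Subgroup G}

local notation "X" => XX n F
local notation "I" => Fin (n + 3)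
local notation "Mx" => Matrix (Fin (n + 3)) (Fin (n + 3)) F

theorem RKB.add_self (a : Mx) : a + a = 0 := by
  ext i j
  exact CharTwo.add_self_eq_zero _

theorem RKB.inv_eq {W : Subgroup X} (h : El W) {x : X} (hx : x ∈ W) : x⁻¹ = x :=
  inv_eq_of_mul_eq_one_right (h x hx)

theorem RKB.comm {W : Subgroup X} (h : El W) {x y : X} (hx : x ∈ W) (hy : y ∈ W) : x * y = y * x := by
  rw [← RKB.inv_eq h (mul_mem hx hy), _root_.mul_inv_rev, RKB.inv_eq h hx, RKB.inv_eq h hy]

/-- the span of the `x - 1` -/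
theorem RKB.alg {W : Subgroup X} (h : El W) : ∃ A : Submodule F Mx, (∀ a ∈ A, ∀ b ∈ A, a * b ∈ A) ∧
    (∀ a ∈ A, ∀ b ∈ A, a * b = b * a) ∧ (∀ a ∈ A, a * a = 0) ∧ (∀ x ∈ W, x.1 - 1 ∈ A) ∧
    ∀ B : Submodule F Mx, (∀ x ∈ W, x.1 - 1 ∈ B) → A ≤ B := by
  have hg : ∀ x ∈ W, x.1 - 1 ∈ Submodule.span F ((fun x : X => x.1 - 1) '' W) := fun x hx =>
    Submodule.subset_span ⟨x, hx, rfl⟩
  have hc : ∀ a ∈ Submodule.span F ((fun x : X => x.1 - 1) '' W),
      ∀ b ∈ Submodule.span F ((fun x : X => x.1 - 1) '' W), a * b = b * a := fun a ha b hb => by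
    induction ha, hb using Submodule.span_induction₂ with
    | mem_mem a b ha hb =>
      obtain ⟨x, hx, rfl⟩ := ha
      obtain ⟨y, hy, rfl⟩ := hb
      have e : x.1 * y.1 = y.1 * x.1 := congrArg Subtype.val (RKB.comm h hx hy)
      simp only [sub_mul, mul_sub, one_mul, mul_one, e]
      abel
    | zero_left => simp
    | zero_right => simp
    | add_left a b c _ _ _ h1 h2 => rw [add_mul, mul_add, h1, h2]
    | add_right a b c _ _ _ h1 h2 => rw [add_mul, mul_add, h1, h2]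
    | smul_left r a b _ _ h1 => rw [smul_mul_assoc, mul_smul_comm, h1]
    | smul_right r a b _ _ h1 => rw [smul_mul_assoc, mul_smul_comm, h1]
  refine ⟨_, fun a ha b hb => ?_, hc, fun a ha => ?_, hg, fun B hB => Submodule.span_le.2 ?_⟩
  · induction ha, hb using Submodule.span_induction₂ with
    | mem_mem a b ha hb =>
      obtain ⟨x, hx, rfl⟩ := ha
      obtain ⟨y, hy, rfl⟩ := hb
      have e : (x.1 - 1) * (y.1 - 1) = ((x * y).1 - 1) - (x.1 - 1) - (y.1 - 1) := by
        rw [Matrix.SpecialLinearGroup.coe_mul]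
        simp only [sub_mul, mul_sub, one_mul, mul_one]
        abel
      rw [e]
      exact sub_mem (sub_mem (hg _ (mul_mem hx hy)) (hg _ hx)) (hg _ hy)
    | zero_left => simp
    | zero_right => simp
    | add_left a b c _ _ _ h1 h2 => rw [add_mul]; exact add_mem h1 h2
    | add_right a b c _ _ _ h1 h2 => rw [mul_add]; exact add_mem h1 h2
    | smul_left r a b _ _ h1 => rw [smul_mul_assoc]; exact Submodule.smul_mem _ _ h1
    | smul_right r a b _ _ h1 => rw [mul_smul_comm]; exact Submodule.smul_mem _ _ h1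
  · induction ha using Submodule.span_induction with
    | mem a ha =>
      obtain ⟨x, hx, rfl⟩ := ha
      have e : x.1 * x.1 = 1 := congrArg Subtype.val (h x hx)
      have e2 : (x.1 - 1) * (x.1 - 1) = (1 + 1) - (x.1 + x.1) := by
        simp only [sub_mul, mul_sub, one_mul, mul_one, e]
        abel
      rw [e2, RKB.add_self, RKB.add_self, sub_zero]
    | zero => simp
    | add a b ha hb h1 h2 =>
      rw [add_mul, mul_add, mul_add, h1, h2, hc b hb a ha, zero_add, add_zero, RKB.add_self]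
    | smul r a _ h1 => rw [smul_mul_assoc, mul_smul_comm, h1, smul_zero, smul_zero]
  · rintro _ ⟨x, hx, rfl⟩
    exact hB x hx

theorem RKB.card_A (A : Submodule F Mx) : Nat.card A = Nat.card F ^ Module.finrank F A :=
  Module.natCard_eq_pow_finrank

theorem RKB.le1 {W : Subgroup X} {A : Submodule F Mx} (hA : ∀ x ∈ W, x.1 - 1 ∈ A) :
    Nat.card W ≤ Nat.card F ^ Module.finrank F A := by
  rw [← RKB.card_A]
  refine Nat.card_le_card_of_injective (fun x : W => (⟨x.1.1 - 1, hA x x.2⟩ : A)) fun x y e => ?_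
  exact Subtype.ext (Subtype.ext (sub_left_injective (congrArg Subtype.val e)))

theorem RKB.fix {W : Subgroup X} (h : El W) {g : GX n F} {φ : RingAut F} {ε : Bool}
    (f : ∀ x ∈ W, au g φ ε x = x) : ∃ T : Mx →+ Mx, (∀ c a, T (c • a) = φ c • T a) ∧
      (∀ x ∈ W, T (x.1 - 1) = x.1 - 1) ∧ (ε = true → ∀ a, T a = g.1 * aᵀ.map φ * (g⁻¹).1) := by
  have h1 : g.1 * (1 : Mx).map φ * (g⁻¹).1 = 1 := by
    rw [Matrix.map_one _ (map_zero φ) (map_one φ), mul_one, Units.mul_inv]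
  have hs : ∀ (c : F) (a : Mx), (c • a).map φ = φ c • a.map φ := fun c a => by
    ext i j
    simp
  cases ε
  · refine ⟨AddMonoidHom.mk' (fun a => g.1 * a.map φ * (g⁻¹).1) fun a b => ?_, fun c a => ?_,
      fun x hx => ?_, fun e => absurd e (by simp)⟩
    · rw [Matrix.map_add _ (map_add φ), mul_add, add_mul]
    · simp only [AddMonoidHom.mk'_apply]
      rw [hs, mul_smul_comm, smul_mul_assoc]
    · rw [map_sub]
      simp only [AddMonoidHom.mk'_apply]
      rw [h1]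
      exact congrArg (fun y : X => y.1 - 1) (f x hx)
  · refine ⟨AddMonoidHom.mk' (fun a => g.1 * aᵀ.map φ * (g⁻¹).1) fun a b => ?_, fun c a => ?_,
      fun x hx => ?_, fun _ _ => rfl⟩
    · rw [transpose_add, Matrix.map_add _ (map_add φ), mul_add, add_mul]
    · simp only [AddMonoidHom.mk'_apply]
      rw [transpose_smul, hs, mul_smul_comm, smul_mul_assoc]
    · rw [map_sub]
      simp only [AddMonoidHom.mk'_apply]
      rw [transpose_one, h1]
      have := congrArg (fun y : X => y.1 - 1) (f x hx)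
      simp only [au_true, gc_val, fr_val, it_val, RKB.inv_eq h hx] at this
      exact this

theorem RKB.le2 {W : Subgroup X} (h : El W) {A : Submodule F Mx} (hA : ∀ x ∈ W, x.1 - 1 ∈ A)
    {g : GX n F} {φ : RingAut F} {ε : Bool} (o : Ou g φ ε) (h1 : φ ≠ 1)
    (f : ∀ x ∈ W, au g φ ε x = x) : Nat.card W ^ 2 ≤ Nat.card F ^ Module.finrank F A := by
  obtain ⟨T, hT, hf, -⟩ := RKB.fix h f
  obtain ⟨ω, hω⟩ := sg_free ⟨h1, o.sq⟩
  rw [← RKB.card_A, sq, ← Nat.card_prod]
  refine Nat.card_le_card_of_injective (fun x : W × W => (⟨(x.1.1.1 - 1) + ω • (x.2.1.1 - 1),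
    add_mem (hA _ x.1.2) (A.smul_mem _ (hA _ x.2.2))⟩ : A)) fun x y e => ?_
  have e1 : (x.1.1.1 - 1) + ω • (x.2.1.1 - 1) = (y.1.1.1 - 1) + ω • (y.2.1.1 - 1) := congrArg Subtype.val e
  have e2 := congrArg T e1
  rw [map_add, map_add, hT, hT, hf _ x.1.2, hf _ x.2.2, hf _ y.1.2, hf _ y.2.2] at e2
  have e3 : x.2.1.1 - 1 = y.2.1.1 - 1 := by
    have := congrArg₂ (· + ·) e1 e2
    rwa [add_add_add_comm, RKB.add_self, ← add_smul, hω, one_smul, add_add_add_comm, RKB.add_self,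
      ← add_smul, hω, one_smul, zero_add, zero_add] at this
  rw [e3, add_left_inj] at e1
  exact Prod.ext (Subtype.ext (Subtype.ext (sub_left_injective e1)))
    (Subtype.ext (Subtype.ext (sub_left_injective e3)))

theorem RKB.sym {W : Subgroup X} (h : El W) {g : GX n F} (o : Ou g 1 true)
    (f : ∀ x ∈ W, au g 1 true x = x) : ∃ A : Submodule F Mx, (∀ x ∈ W, x.1 - 1 ∈ A) ∧
      Module.finrank F A + 1 ≤ MM n ∧ (2 ≤ n → Module.finrank F A + 2 ≤ MM n) := by
  obtain ⟨A, hm, hc, hs, hA, hmin⟩ := RKB.alg h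
  obtain ⟨T, hT, hf, hv⟩ := RKB.fix h f
  let B : Submodule F Mx :=
    { carrier := {a | T a = a}
      zero_mem' := map_zero T
      add_mem' := fun {a b} ha hb => by
        simp only [Set.mem_ofPred_eq] at *
        rw [map_add, ha, hb]
      smul_mem' := fun c a ha => by
        simp only [Set.mem_ofPred_eq] at *
        rw [hT, ha]
        rfl }
  refine ⟨A, hA, rkS A hm hc hs (lg_sym o) fun a ha => ?_⟩
  have e : T a = a := hmin B hf ha
  rw [hv rfl] at e
  have e' : g.1 * aᵀ * (g⁻¹).1 = a := e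
  rw [← Units.mul_inv_eq_iff_eq_mul]
  exact e'

theorem RKB.pw {a b : ℕ} (h : a ≤ b) : Nat.card F ^ a ≤ Nat.card F ^ b :=
  Nat.pow_le_pow_right Nat.card_pos h

theorem rk0 {W : Subgroup X} (h : El W) : Nat.card W ≤ Nat.card F ^ MM n ∧ (Nat.card F ^ MM n ≤ Nat.card W → IsJ W) := by
  obtain ⟨A, hm, hc, hs, hA, -⟩ := RKB.alg h
  obtain ⟨h1, h2⟩ := rkA A hm hc hs
  refine ⟨(RKB.le1 hA).trans (RKB.pw h1), fun k => ?_⟩
  obtain ⟨J, hJ, hx⟩ := h2 ((Nat.pow_le_pow_iff_right Finite.one_lt_card).1 (k.trans (RKB.le1 hA)))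
  have e : W = J := Subgroup.eq_of_le_of_card_ge (fun x k => (hx x).2 (hA x k)) (hJ.card.le.trans k)
  rw [e]
  exact hJ

theorem rk_sg {W : Subgroup X} (h : El W) {g : GX n F} {φ : RingAut F} {ε : Bool} (o : Ou g φ ε) (h1 : φ ≠ 1)
    (f : ∀ x ∈ W, au g φ ε x = x) : Nat.card W ^ 2 ≤ Nat.card F ^ MM n := by
  obtain ⟨A, hm, hc, hs, hA, -⟩ := RKB.alg h
  exact (RKB.le2 h hA o h1 f).trans (RKB.pw (rkA A hm hc hs).1)

theorem rk_lg {W : Subgroup X} (h : El W) {g : GX n F} (o : Ou g 1 true) (f : ∀ x ∈ W, au g 1 true x = x) :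
    Nat.card W * Nat.card F ≤ Nat.card F ^ MM n ∧ (2 ≤ n → Nat.card W * Nat.card F ^ 2 ≤ Nat.card F ^ MM n) := by
  obtain ⟨A, hA, h1, h2⟩ := RKB.sym h o f
  refine ⟨le_trans ?_ (RKB.pw h1), fun k => le_trans ?_ (RKB.pw (h2 k))⟩
  · rw [pow_succ]
    exact Nat.mul_le_mul_right _ (RKB.le1 hA)
  · rw [pow_add]
    exact Nat.mul_le_mul_right _ (RKB.le1 hA)

theorem rk_both {W : Subgroup X} (h : El W) {g g' : GX n F} {φ : RingAut F} {ε : Bool} (o : Ou g 1 true)
    (o' : Ou g' φ ε) (h1 : φ ≠ 1) (f : ∀ x ∈ W, au g 1 true x = x) (f' : ∀ x ∈ W, au g' φ ε x = x) :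
    Nat.card W ^ 2 * Nat.card F ≤ Nat.card F ^ MM n := by
  obtain ⟨A, hA, k, -⟩ := RKB.sym h o f
  refine le_trans ?_ (RKB.pw k)
  rw [pow_succ (Nat.card F)]
  exact Nat.mul_le_mul_right _ (RKB.le2 h hA o' h1 f')

end LMS
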