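import Cfsg.Agent.Lib.LMS.B4
import Cfsg.Agent.Lib.LMS.B6b
import Cfsg.Agent.Lib.LMS.RKB

set_option autoImplicit false
set_option linter.unusedSectionVars false

namespace LMS

open Subgroup H69 Cfsg Matrix U4S
open scoped MatrixGroups commutatorElement

universe u
variable {G : Type*} [Group G] [Finite G] {F : Type u} [Field F] [CharP F 2] [Fintype F] {n : ℕ} [Ok n F]
  {ι ψ χ : XX n F →* G} {t : G} {E : Subgroup G}

local notation "X" => XX n F
local notation "I" => Fin (n + 3)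
local notation "Mx" => Matrix (Fin (n + 3)) (Fin (n + 3)) F

namespace M4

/-- two by two matrices -/
abbrev M2 (F : Type*) : Type _ := Matrix (Fin 2) (Fin 2) F

theorem idx2 {A : Set G} (p : G → Prop) (h : ∀ a ∈ A, ∀ b ∈ A, ¬ p a → ¬ p b → a * b ∈ A ∧ p (a * b)) :
    A.ncard ≤ 2 * {a ∈ A | p a}.ncard := by
  have e := Set.ncard_inter_add_ncard_sdiff_eq_ncard A {a | p a}
  have : (A \ {a | p a}).ncard ≤ (A ∩ {a | p a}).ncard := by
    rcases (A \ {a | p a}).eq_empty_or_nonempty with k | ⟨a, ha⟩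
    · simp [k]
    · exact Set.ncard_le_ncard_of_injOn (a * ·) (fun b hb => h a ha.1 b hb.1 ha.2 hb.2)
        (mul_right_injective a).injOn
  change _ ≤ 2 * (A ∩ {a | p a}).ncard
  omega

theorem scal {M : M2 F} (h : ∀ B, M * B = B * M) : ∃ s : F, M = s • 1 := by
  obtain ⟨s, e⟩ := mem_range_scalar_of_commute_single (M := M) fun i j _ => (h _).symm
  exact ⟨s, by rw [← e, scalar_apply, smul_one_eq_diagonal]⟩

theorem sm1 {s r : F} (h : s • (1 : M2 F) = r • 1) : s = r := by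
  simpa using congrFun (congrFun h 0) 0

theorem lemS {a a' : M2 F} (h : a * a = 1) (h' : a' * a' = 1) (k : ∀ B, a * B * a = a' * B * a') : a = a' := by
  obtain ⟨s, e⟩ := scal (M := a' * a) fun B => by
    calc a' * a * B = a' * (a * B * a) * a := by simp only [mul_assoc, h, mul_one]
      _ = (a' * a') * B * (a' * a) := by rw [k]; simp only [mul_assoc]
      _ = _ := by rw [h', one_mul]
  have e1 : a = s • a' := by rw [← one_mul a, ← h', mul_assoc, e, mul_smul_comm, mul_one]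
  have e2 : s * s = 1 := sm1 (by rw [e1, smul_mul_smul_comm, h'] at h; rw [h, one_smul])
  have e3 : s = 1 := (mul_self_eq_one_iff.1 e2).elim id fun k => k.trans (CharTwo.neg_eq _)
  rw [e1, e3, one_smul]

theorem lemN {M N : M2 F} (h0 : N ≠ 0) (hN : N * N = 0) (hM : M * M = 0) (c : M * N = N * M) : ∃ s : F, M = s • N := by
  have two := CharTwo.two_eq_zero (R := F)
  have k : ∀ {A : M2 F}, A * A = 0 → A 1 1 = A 0 0 ∧ A 0 0 * A 0 0 = A 0 1 * A 1 0 := fun {A} h => by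
    have a := congrFun (congrFun h 0) 0
    have b := congrFun (congrFun h 1) 1
    simp only [mul_apply, Fin.sum_univ_two, Matrix.zero_apply] at a b
    exact ⟨sub_eq_zero.1 (mul_self_eq_zero.1 (by
      linear_combination a + b - (A 0 1 * A 1 0 + A 1 1 * A 0 0) * two)),
      by linear_combination a - A 0 1 * A 1 0 * two⟩
  obtain ⟨n1, n2⟩ := k hN
  obtain ⟨m1, m2⟩ := k hM
  have c0 := congrFun (congrFun c 0) 0
  simp only [mul_apply, Fin.sum_univ_two] at c0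
  have fin : ∀ s, M 0 1 = s * N 0 1 → M 1 0 = s * N 1 0 → M = s • N := fun s a b => by
    have d : M 0 0 = s * N 0 0 := sub_eq_zero.1 (mul_self_eq_zero.1 (by
      rw [a, b] at m2
      linear_combination m2 + s * s * n2 + (s * s * N 0 1 * N 1 0 - M 0 0 * s * N 0 0) * two))
    ext i j
    fin_cases i <;> fin_cases j <;> simp [a, b, d, m1, n1]
  by_cases q : N 0 1 = 0
  · have p : N 0 0 = 0 := mul_self_eq_zero.1 (by rw [n2, q, zero_mul])
    have r : N 1 0 ≠ 0 := fun r => h0 (by ext i j; fin_cases i <;> fin_cases j <;> simp [q, p, r, n1])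
    exact ⟨M 1 0 / N 1 0, fin _ (mul_right_cancel₀ r (by rw [q] at c0 ⊢; linear_combination c0)) (by field_simp)⟩
  · exact ⟨M 0 1 / N 0 1, fin _ (by field_simp) (by field_simp; linear_combination -c0)⟩

/-- `c` acts semilinearly on the parametrised set -/
def Rl (θ : M2 F → G) (c : G) (a a' : M2 F) (φ : RingAut F) : Prop :=
  a * a' = 1 ∧ ∀ B, c * θ B * c⁻¹ = θ (a * φ.mapMatrix B * a')

variable {θ : M2 F → G} {c d : G} {a a' b b' : M2 F} {φ φ' : RingAut F}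

theorem Rl.mul (h : Rl θ c a a' φ) (k : Rl θ d b b' φ') :
    Rl θ (c * d) (a * φ.mapMatrix b) (φ.mapMatrix b' * a') (φ * φ') := by
  refine ⟨by rw [mul_assoc, ← mul_assoc _ _ a', ← map_mul, k.1, map_one, one_mul, h.1], fun B => ?_⟩
  rw [show c * d * θ B * (c * d)⁻¹ = c * (d * θ B * d⁻¹) * c⁻¹ by group, k.2, h.2, map_mul, map_mul]
  simp only [mul_assoc]
  rfl

theorem mp_smul (s : F) (B : M2 F) : φ.mapMatrix (s • B) = φ s • φ.mapMatrix B := by
  ext i j; simp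

theorem Rl.triv (i : Function.Injective θ) (h : Rl θ 1 a a' φ) (B : M2 F) : a * φ.mapMatrix B * a' = B :=
  i (by rw [← h.2]; group)

theorem Rl.sq (i : Function.Injective θ) (h : Rl θ c a a' φ) (c2 : c * c = 1) (s : F) : φ (φ s) = s := by
  have k := h.mul h
  rw [c2] at k
  have e := k.triv i (s • 1)
  rw [mp_smul, map_one, mul_smul_comm, mul_one, smul_mul_assoc, k.1] at e
  exact sm1 e

theorem Rl.norm (i : Function.Injective θ) (h : Rl θ c a a' 1) (c2 : c * c = 1) : ∃ a, Rl θ c a a 1 := by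
  have k := h.mul h
  rw [c2] at k
  have e : ∀ B, a * a * B * (a' * a') = B := k.triv i
  have l : a' * a = 1 := mul_eq_one_comm.1 h.1
  obtain ⟨s, es⟩ := scal (M := a * a) fun B => by
    conv_rhs => rw [← e B, mul_assoc, mul_assoc a', ← mul_assoc a' a, l, one_mul, l, mul_one]
  obtain ⟨r, rfl⟩ := sq_surj s
  have r0 : r ≠ 0 := fun r0 => by
    have := e 1
    rw [es, r0, zero_mul, zero_smul, zero_mul, zero_mul] at this
    exact zero_ne_one this
  have e1 : (r⁻¹ • a) * (r⁻¹ • a) = 1 := by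
    rw [smul_mul_smul_comm, es, smul_smul, show r⁻¹ * r⁻¹ * (r * r) = 1 by field_simp, one_smul]
  refine ⟨r⁻¹ • a, e1, fun B => ?_⟩
  rw [h.2, ← mul_one a', ← e1, smul_mul_smul_comm, mul_smul_comm, ← mul_assoc a', l, one_mul, smul_mul_assoc,
    smul_mul_smul_comm, mul_smul_comm]

theorem Rl.fix (i : Function.Injective θ) (h : Rl θ d b b' φ) (k : Rl θ c a a 1) (e : d * c = c * d) :
    b * φ.mapMatrix a * b' = a := by
  have l : b' * b = 1 := mul_eq_one_comm.1 h.1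
  refine lemS ?_ k.1 fun C => ?_
  · calc _ = b * (φ.mapMatrix a * (b' * b) * φ.mapMatrix a) * b' := by simp only [mul_assoc]
      _ = 1 := by rw [l, mul_one, ← map_mul, k.1, map_one, mul_one, h.1]
  · obtain ⟨B, hB⟩ := (φ.mapMatrix (m := Fin 2)).surjective (b' * C * b)
    have e1 := (h.mul k).2 B
    rw [e, (k.mul h).2 B, one_mul, mul_one, hB] at e1
    have e2 : a * b * (b' * C * b) * (b' * a) = _ := i e1
    calc _ = b * φ.mapMatrix a * (b' * C * b) * (φ.mapMatrix a * b') := by simp only [mul_assoc]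
      _ = a * (b * b') * C * (b * b') * a := by rw [← e2]; simp only [mul_assoc]
      _ = _ := by rw [h.1, mul_one, mul_one]

theorem key {T : Subgroup G} (hT : El T) (i : Function.Injective θ) (q4 : 4 ≤ Nat.card F)
    (f : ∀ c ∈ T, (∀ B, c * θ B * c⁻¹ = θ B) → c = 1)
    (ng : ∀ c ∈ T, ∀ d ∈ T, (¬ ∃ a a' φ, Rl θ c a a' φ) → (¬ ∃ a a' φ, Rl θ d a a' φ) →
      ∃ a a' φ, Rl θ (c * d) a a' φ) : Nat.card T < Nat.card F ^ 2 := by
  have i1 := idx2 (A := T) _ fun c hc d hd k l => ⟨T.mul_mem hc hd, ng c hc d hd k l⟩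
  generalize e1 : {c ∈ (T : Set G) | ∃ a a' φ, Rl θ c a a' φ} = T1 at i1
  have m1 : ∀ c, c ∈ T1 ↔ c ∈ T ∧ ∃ a a' φ, Rl θ c a a' φ := fun c => by rw [← e1]; rfl
  have i2 := idx2 (A := T1) (fun c => ∃ a a', Rl θ c a a' 1) fun c hc d hd k l => by
    obtain ⟨hc, a, a', φ, h⟩ := (m1 c).1 hc
    obtain ⟨hd, b, b', φ', h'⟩ := (m1 d).1 hd
    have s : Sg φ := ⟨fun e => k ⟨a, a', e ▸ h⟩, h.sq i (hT c hc)⟩
    obtain rfl := aut_inv s ⟨fun e => l ⟨b, b', e ▸ h'⟩, h'.sq i (hT d hd)⟩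
    have := h.mul h'
    rw [show φ * φ = 1 from RingEquiv.ext s.2] at this
    exact ⟨(m1 _).2 ⟨T.mul_mem hc hd, _, _, _, this⟩, _, _, this⟩
  generalize e0 : {c ∈ T1 | ∃ a a', Rl θ c a a' 1} = T0 at i2
  have m0 : ∀ c, c ∈ T0 ↔ c ∈ T1 ∧ ∃ a a', Rl θ c a a' 1 := fun c => by rw [← e0]; rfl
  have mT : ∀ c ∈ T0, c ∈ T := fun c h => ((m1 c).1 ((m0 c).1 h).1).1
  have ex : ∀ c ∈ T0, ∃ a, Rl θ c a a 1 := fun c h => by
    obtain ⟨-, a, a', k⟩ := (m0 c).1 h
    exact k.norm i (hT c (mT c h))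
  choose! A hA using ex
  have iA : Set.InjOn A T0 := fun c hc d hd e => by
    have := f _ (T.mul_mem (T.inv_mem (mT c hc)) (mT d hd)) fun B => by
      rw [show c⁻¹ * d * θ B * (c⁻¹ * d)⁻¹ = c⁻¹ * (d * θ B * d⁻¹) * c by group, (hA d hd).2, ← e, ← (hA c hc).2]
      group
    exact inv_mul_eq_one.1 this
  obtain ⟨τ, iτ, fτ⟩ : ∃ τ : G → F, Set.InjOn τ T0 ∧ ∀ d ∈ T, ∀ b b' φ, Rl θ d b b' φ → ∀ c ∈ T0, φ (τ c) = τ c := by
    by_cases h : ∀ c ∈ T0, A c - 1 = 0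
    · exact ⟨0, fun c hc d hd _ => iA hc hd (by rw [sub_eq_zero.1 (h c hc), sub_eq_zero.1 (h d hd)]),
        fun _ _ _ _ φ _ _ _ => map_zero φ⟩
    push Not at h
    obtain ⟨c0, h0, n0⟩ := h
    have nil : ∀ c ∈ T0, (A c - 1) * (A c - 1) = 0 := fun c hc => by
      rw [show (A c - 1) * (A c - 1) = A c * A c + 1 - (A c + A c) by noncomm_ring, (hA c hc).1,
        CharTwo.add_self_eq_zero, CharTwo.add_self_eq_zero, sub_zero]
    have ex : ∀ c ∈ T0, ∃ s : F, A c - 1 = s • (A c0 - 1) := fun c hc => lemN n0 (nil _ h0) (nil _ hc) (by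
      have e : A c0 * A c * A c0 = A c := (hA _ h0).fix i (hA _ hc) (hT.comm (mT _ h0) (mT _ hc))
      have e' : A c * A c0 = A c0 * A c := by
        conv_lhs => rw [← e, mul_assoc, (hA _ h0).1, mul_one]
      simp only [mul_sub, sub_mul, e', mul_one, one_mul]
      abel)
    choose! τ hτ using ex
    refine ⟨τ, fun c hc d hd e => iA hc hd (sub_left_injective (b := 1) ?_), fun d hd b b' φ h c hc => ?_⟩
    · exact (hτ c hc).trans (e ▸ (hτ d hd).symm)
    · have k : ∀ c ∈ T0, b * φ.mapMatrix (A c - 1) * b' = A c - 1 := fun c hc => by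
        rw [map_sub, map_one, mul_sub, sub_mul, mul_one, h.1, h.fix i (hA c hc) (hT.comm hd (mT c hc))]
      have := k c hc
      rw [hτ c hc, mp_smul, mul_smul_comm, smul_mul_assoc, k c0 h0] at this
      exact smul_left_injective F n0 this
  change (T : Set G).ncard < _
  by_cases h : T1 ⊆ T0
  · have j1 := Set.ncard_le_ncard h
    have j2 := Set.ncard_le_ncard_of_injOn (t := Set.univ) τ (fun _ _ => trivial) iτ
    rw [Set.ncard_univ] at j2
    nlinarith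
  · obtain ⟨d, hd, nd⟩ := Set.not_subset.1 h
    obtain ⟨hd', b, b', φ, k⟩ := (m1 d).1 hd
    have j2 := Set.ncard_le_ncard_of_injOn (t := {s | φ s = s}) τ (fτ d hd' b b' φ k) iτ
    have j3 : {s | φ s = s}.ncard < (Set.univ : Set F).ncard := Set.ncard_lt_ncard (Set.ssubset_univ_iff.2 fun e =>
      nd ((m0 d).2 ⟨hd, b, b', (show φ = 1 from RingEquiv.ext (Set.eq_univ_iff_forall.1 e)) ▸ k⟩))
    rw [Set.ncard_univ] at j3
    nlinarith

variable (F) in
/-- the first two coordinates -/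
def P4 : Matrix (Fin (1 + 3)) (Fin 2) F := !![1, 0; 0, 1; 0, 0; 0, 0]
variable (F) in
/-- the last two coordinates -/
def Q4 : Matrix (Fin 2) (Fin (1 + 3)) F := !![0, 0, 1, 0; 0, 0, 0, 1]

theorem QP : Q4 F * P4 F = 0 := by
  ext i j; fin_cases i <;> fin_cases j <;> simp [P4, Q4, mul_apply, Fin.sum_univ_succ]
theorem PP' : (P4 F)ᵀ * P4 F = 1 := by
  ext i j; fin_cases i <;> fin_cases j <;> simp [P4, mul_apply, Fin.sum_univ_succ]
theorem QQ' : Q4 F * (Q4 F)ᵀ = 1 := by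
  ext i j; fin_cases i <;> fin_cases j <;> simp [Q4, mul_apply, Fin.sum_univ_succ]
theorem PQ : P4 F * (P4 F)ᵀ + (Q4 F)ᵀ * Q4 F = 1 := by
  ext i j
  simp only [Matrix.add_apply, mul_apply, Fin.sum_univ_two, transpose_apply]
  fin_cases i <;> fin_cases j <;> simp [P4, Q4]

/-- elements of `J` -/
def jm (A : M2 F) : XX 1 F := ⟨1 + P4 F * A * Q4 F, by
  rw [det_one_add_mul_comm, ← Matrix.mul_assoc, QP, Matrix.zero_mul, add_zero, det_one]⟩

theorem jm_val (A : M2 F) : (jm A).1 = 1 + P4 F * A * Q4 F := rfl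

theorem jm_sq (A : M2 F) : jm A * jm A = 1 := Subtype.ext (by
  change (1 + P4 F * A * Q4 F) * (1 + P4 F * A * Q4 F) = 1
  rw [add_mul, mul_add, mul_add, one_mul, one_mul, mul_one, show P4 F * A * Q4 F * (P4 F * A * Q4 F) =
    P4 F * A * (Q4 F * P4 F) * A * Q4 F by simp only [Matrix.mul_assoc], QP, Matrix.mul_zero, Matrix.zero_mul,
    Matrix.zero_mul, add_zero, add_assoc, CharTwo.add_self_eq_zero, add_zero])

theorem jm_inj {A B : M2 F} (h : jm A = jm B) : A = B := by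
  have e := congrArg (fun M => (P4 F)ᵀ * M * (Q4 F)ᵀ) (add_left_cancel (congrArg Subtype.val h))
  simpa only [Matrix.mul_assoc, QQ', Matrix.mul_one, ← Matrix.mul_assoc (P4 F)ᵀ, PP', Matrix.one_mul] using e

theorem fr_jm (φ : RingAut F) (A : M2 F) : fr φ (jm A) = jm (φ.mapMatrix A) := Subtype.ext (by
  rw [fr_val, jm_val, jm_val]
  ext i j
  simp only [Matrix.add_apply, mul_apply, Fin.sum_univ_two, map_apply, RingEquiv.mapMatrix_apply]
  fin_cases i <;> fin_cases j <;> simp [P4, Q4])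

theorem ex_jm [Ok 1 F] {x : XX 1 F} (h : x ∈ JJ 1 F 2) : ∃ A, x = jm A := by
  refine ⟨(P4 F)ᵀ * x.1 * (Q4 F)ᵀ, Subtype.ext ?_⟩
  have k := mem_JJ.1 h
  rw [jm_val]
  ext i j
  have := k i j
  simp only [Matrix.add_apply, mul_apply, Fin.sum_univ_succ, transpose_apply]
  fin_cases i <;> fin_cases j <;> simp [P4, Q4] at this ⊢ <;> exact this

theorem blk {g g' : Matrix (Fin (1 + 3)) (Fin (1 + 3)) F} (hg : g' * g = 1) {Y Y' Z : M2 F} (hY : Y' * Y = 1)
    (h : g * (P4 F * Z * Q4 F) * g' = P4 F * Y * Q4 F) :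
    ∃ a a' : M2 F, a * a' = 1 ∧ ∀ C, g * (P4 F * (C * Z) * Q4 F) * g' = P4 F * (a * C * a' * Y) * Q4 F := by
  have k0 : Q4 F * g * P4 F = 0 := by
    calc _ = Y' * ((P4 F)ᵀ * P4 F) * Y * (Q4 F * g * P4 F) := by rw [PP', Matrix.mul_one, hY, Matrix.one_mul]
      _ = Y' * (P4 F)ᵀ * (P4 F * Y * Q4 F) * (g * P4 F) := by simp only [Matrix.mul_assoc]
      _ = Y' * (P4 F)ᵀ * g * P4 F * Z * (Q4 F * (g' * g) * P4 F) := by rw [← h]; simp only [Matrix.mul_assoc]
      _ = 0 := by rw [hg, Matrix.mul_one, QP, Matrix.mul_zero]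
  obtain ⟨a, ha⟩ : ∃ a, g * P4 F = P4 F * a := ⟨(P4 F)ᵀ * g * P4 F, by
    conv_lhs => rw [← Matrix.one_mul (g * P4 F), ← PQ, Matrix.add_mul, Matrix.mul_assoc (Q4 F)ᵀ,
      ← Matrix.mul_assoc (Q4 F), k0, Matrix.mul_zero, add_zero]
    simp only [Matrix.mul_assoc]⟩
  have l : (P4 F)ᵀ * g' * P4 F * a = 1 := by
    rw [Matrix.mul_assoc, ← ha, Matrix.mul_assoc, ← Matrix.mul_assoc g', hg, Matrix.one_mul, PP']
  generalize (P4 F)ᵀ * g' * P4 F = a' at l
  have m : Z * (Q4 F * g') = a' * (Y * Q4 F) := by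
    calc _ = a' * ((P4 F)ᵀ * P4 F) * a * (Z * (Q4 F * g')) := by rw [PP', Matrix.mul_one, l, Matrix.one_mul]
      _ = a' * (P4 F)ᵀ * ((P4 F * a) * Z * Q4 F * g') := by simp only [Matrix.mul_assoc]
      _ = a' * (P4 F)ᵀ * (g * (P4 F * Z * Q4 F) * g') := by rw [← ha]; simp only [Matrix.mul_assoc]
      _ = a' * ((P4 F)ᵀ * P4 F) * (Y * Q4 F) := by rw [h]; simp only [Matrix.mul_assoc]
      _ = _ := by rw [PP', Matrix.mul_one]
  refine ⟨a, a', mul_eq_one_comm.1 l, fun C => ?_⟩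
  calc _ = (g * P4 F) * C * (Z * (Q4 F * g')) := by simp only [Matrix.mul_assoc]
    _ = _ := by rw [ha, m]; simp only [Matrix.mul_assoc]

theorem rk1 {Y : M2 F} (h : Y.det = 0) : Y.rank ≤ 1 := by
  obtain ⟨v, hv, e⟩ := Matrix.exists_mulVec_eq_zero_iff.2 h
  have := LinearMap.finrank_range_add_finrank_ker Y.mulVecLin
  have k : 0 < Module.finrank F (LinearMap.ker Y.mulVecLin) :=
    Module.finrank_pos_iff_exists_ne_zero.2 ⟨⟨v, e⟩, fun k => hv (congrArg Subtype.val k)⟩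
  rw [Module.finrank_fin_fun] at this
  unfold Matrix.rank
  omega

theorem core [Ok 1 F] {ι : XX 1 F →* G} (e : Em ι) {T : Subgroup G} (hT : El T) (h1 : T ≤ 𝐍(ι.range))
    (f : ∀ c ∈ T, Cn ι (JJ 1 F 2) c → c = 1) (c : Nat.card F ^ 2 ≤ Nat.card T) {y : XX 1 F} (hy : y ∈ JJ 1 F 2)
    (k : ∀ c ∈ T, c * ι y = ι y * c) : rk y ≤ 1 := by
  obtain ⟨Y, rfl⟩ := ex_jm hy
  by_cases h : Y.det = 0
  · rw [rk, jm_val, add_sub_cancel_left]
    exact (rank_mul_le_left _ _).trans ((rank_mul_le_right _ _).trans (rk1 h))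
  have hY : Y⁻¹ * Y = 1 := nonsing_inv_mul _ (Ne.isUnit h)
  have ng : ∀ c ∈ T, NG ι c → ∃ a a' φ, Rl (fun B => ι (jm (B * Y))) c a a' φ := by
    rintro c hc ⟨g, φ, a⟩
    have e1 := congrArg Subtype.val (a.fix' e (.of_sq (jm_sq Y)) (k c hc))
    rw [au_false, fr_jm, gc_val, jm_val, jm_val, mul_add, add_mul, mul_one, Units.mul_inv] at e1
    obtain ⟨b, b', h1, h2⟩ := blk g.inv_mul hY (add_left_cancel e1)
    refine ⟨b, b', φ, h1, fun B => (a _).trans (congrArg ι (Subtype.ext ?_))⟩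
    rw [au_false, fr_jm, gc_val, jm_val, jm_val, mul_add, add_mul, mul_one, Units.mul_inv, map_mul, h2]
  refine absurd c (not_le.2 (key (θ := fun B => ι (jm (B * Y))) hT (fun A B l => ?_) (Ok.h (n := 1) le_rfl)
    (fun c hc l => f c hc fun x hx => ?_) fun c hc d hd l m => ng _ (T.mul_mem hc hd)
      (e.ng_mul (h1 hc) (h1 hd) (fun o => l (ng c hc o)) fun o => m (ng d hd o))))
  · have := jm_inj (e.inj2 (.of_sq (jm_sq _)) (.of_sq (jm_sq _)) l)
    rw [← mul_one A, ← mul_eq_one_comm.1 hY, ← mul_assoc, this, mul_assoc, mul_eq_one_comm.1 hY, mul_one]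
  · obtain ⟨A, rfl⟩ := ex_jm hx
    have := l (A * Y⁻¹)
    rw [mul_assoc A, hY, mul_one] at this
    exact mul_inv_eq_iff_eq_mul.1 this

end M4

theorem m4 (hn : n = 1) (e : Em ι) {J : Subgroup X} (hJ : IsJ J) {T : Subgroup G} (hT : El T)
    (h1 : T ≤ 𝐍(ι.range)) (h2 : T ≤ 𝐍(J.map ι)) (f : ∀ c ∈ T, Cn ι J c → c = 1)
    (c : Nat.card F ^ 2 ≤ Nat.card T) {y : X} (hy : y ∈ J) (k : ∀ c ∈ T, c * ι y = ι y * c) : rk y ≤ 1 := by
  subst hn
  obtain ⟨d, hd, x, rfl⟩ := hJ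
  obtain rfl : d = 2 := hd.elim id id
  obtain ⟨y, hy', rfl⟩ := mem_cj'.1 hy
  rw [rk_cj]
  obtain ⟨e', r⟩ := e.comp (α := cn x) (MulAut.conj x).bijective
  refine M4.core e' hT (r ▸ h1) (fun c hc l => f c hc fun w hw => ?_) c hy' k
  obtain ⟨w, hw', rfl⟩ := mem_cj'.1 hw
  exact l w hw'

theorem ln4 (hn : n = 1) : ∃ T : Subgroup X, El T ∧ T ≤ UU n F ∧ Nat.card T = Nat.card F ^ 2 ∧
    ∀ c ∈ T, (∀ x ∈ JJ n F (kk n), c * x = x * c) → c = 1 := by
  subst hn
  have c0 : ∀ a b : F, (xe 0 1 a : XX 1 F) * xe 2 3 b = xe 2 3 b * xe 0 1 a := xe_c0 (by decide) (by decide)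
  let f : Multiplicative (F × F) →* XX 1 F := MonoidHom.mk' (fun v => xe 0 1 v.toAdd.1 * xe 2 3 v.toAdd.2)
    fun v w => by
      rw [toAdd_mul, Prod.fst_add, Prod.snd_add, ← xe_mul, ← xe_mul, mul_assoc, mul_assoc,
        ← mul_assoc (xe 0 1 w.toAdd.1), c0, mul_assoc]
  have i : Function.Injective f := (injective_iff_map_eq_one f).2 fun v hv => by
    obtain ⟨a, b⟩ := xe2_cen (n := 1) (i := 0) (j := 1) (k := 2) (l := 3) (a := v.toAdd.1) (b := v.toAdd.2)
      (by decide) (by decide) (.inl (by decide)) (by change f v ∈ _; rw [hv]; exact one_mem _)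
    exact Prod.ext a b
  refine ⟨f.range, ?_, ?_, ?_, ?_⟩
  · rintro _ ⟨v, rfl⟩
    rw [← map_mul, show v * v = 1 from CharTwo.add_self_eq_zero v.toAdd, map_one]
  · rintro _ ⟨v, rfl⟩
    exact mul_mem (subset_closure ⟨0, 1, _, by decide, rfl⟩) (subset_closure ⟨2, 3, _, by decide, rfl⟩)
  · rw [← Nat.card_congr (MonoidHom.ofInjective i).toEquiv, Nat.card_congr Multiplicative.toAdd, Nat.card_prod, sq]
  · rintro _ ⟨v, rfl⟩ h
    have e := congrArg Subtype.val (h (xe 1 2 1) (subset_closure ⟨1, 2, 1, by decide, by decide, rfl⟩))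
    change (xe 0 1 _ * xe 2 3 _ * _ : XX 1 F).1 = (_ * (xe 0 1 _ * xe 2 3 _) : XX 1 F).1 at e
    simp only [Matrix.SpecialLinearGroup.coe_mul, xe_val (show (0 : Fin (1 + 3)) ≠ 1 by decide),
      xe_val (show (2 : Fin (1 + 3)) ≠ 3 by decide), xe_val (show (1 : Fin (1 + 3)) ≠ 2 by decide)] at e
    have a := congrFun (congrFun e 0) 2
    have b := congrFun (congrFun e 1) 3
    simp [mul_apply, Fin.sum_univ_succ, one_apply, single_apply] at a b
    rw [show v = 1 from Prod.ext a b.symm, map_one]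

end LMS
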