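import Cfsg.Agent.Lib.LMS.B5
import Cfsg.Agent.Lib.U4S.H9

set_option autoImplicit false
set_option linter.unusedSectionVars false

namespace LMS

open Subgroup H69 Cfsg Matrix U4S
open scoped MatrixGroups commutatorElement

universe u
variable {G : Type*} [Group G] [Finite G] {F : Type u} [Field F] [CharP F 2] [Fintype F] {n : ℕ} [Ok n F]
  {ι ψ χ : XX n F →* G} {t : G} {E : Subgroup G}

local notation "X" => XX n F
local notation "I" => Fin (n + 3)
local notation "Mx" => Matrix (Fin (n + 3)) (Fin (n + 3)) F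

namespace NFa

theorem ne_id {σ : RingAut F} (hσ : Sg σ) : (σ : F →+* F) ≠ RingHom.id F := fun e =>
  hσ.1 (RingEquiv.ext fun x => DFunLike.congr_fun e x)

theorem map_smul' (σ : RingAut F) {m : ℕ} (c : F) (A : Matrix (Fin m) (Fin m) F) :
    (c • A).map σ = σ c • A.map σ := by
  ext i j; simp

theorem map_mul' (σ : RingAut F) {m : ℕ} (A B : Matrix (Fin m) (Fin m) F) :
    (A * B).map σ = A.map σ * B.map σ := Matrix.map_mul (f := (σ : F →+* F))

theorem map_one' (σ : RingAut F) {m : ℕ} : (1 : Matrix (Fin m) (Fin m) F).map σ = 1 :=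
  Matrix.map_one _ (map_zero _) (map_one _)

theorem map_map' {σ : RingAut F} (h : ∀ a, σ (σ a) = a) {m : ℕ} (A : Matrix (Fin m) (Fin m) F) :
    (A.map σ).map σ = A := by
  ext i j; simp [h]

theorem it_fr (φ : RingAut F) (M : X) : it (fr φ M) = fr φ (it M) :=
  Subtype.ext (by rw [it_val, ← map_inv, fr_val, fr_val, it_val, transpose_map])

theorem fi_gc (φ : RingAut F) (g : GX n F) : ∃ g' : GX n F, g'.1 = (g⁻¹).1ᵀ.map φ ∧
    ∀ M : X, fr φ (it (gc g M)) = gc g' (fr φ (it M)) := by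
  refine ⟨⟨(g⁻¹).1ᵀ.map φ, g.1ᵀ.map φ, ?_, ?_⟩, rfl, fun M => Subtype.ext ?_⟩
  · rw [← map_mul', ← transpose_mul, Units.mul_inv, transpose_one, map_one']
  · rw [← map_mul', ← transpose_mul, Units.inv_mul, transpose_one, map_one']
  · rw [fr_val, it_val, ← map_inv, gc_val, transpose_mul, transpose_mul, map_mul', map_mul', ← mul_assoc]
    rfl

end NFa

theorem hil {σ : RingAut F} (hσ : Sg σ) {m : ℕ} (g : GL (Fin m) F) (h : g.1 * g.1.map σ = 1) :
    ∃ C : GL (Fin m) F, g.1 * C.1.map σ = C.1 := by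
  have hmv : ∀ (M : Matrix (Fin m) (Fin m) F) (v : Fin m → F),
      (fun k => σ ((M *ᵥ v) k)) = M.map σ *ᵥ fun k => σ (v k) := by
    intro M v; ext k; simp [mulVec, dotProduct]
  have hT : ∀ v : Fin m → F, v + g.1 *ᵥ (fun k => σ (v k)) ∈
      {v : Fin m → F | g.1 *ᵥ (fun k => σ (v k)) = v} := by
    intro v
    have e : (fun k => σ ((v + g.1 *ᵥ (fun k => σ (v k))) k)) =
        (fun k => σ (v k)) + g.1.map σ *ᵥ v := by
      have := hmv g.1 fun k => σ (v k)
      simp only [hσ.2] at this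
      rw [← this]; ext k; simp
    change g.1 *ᵥ _ = _
    rw [e, mulVec_add, mulVec_mulVec, h, one_mulVec, add_comm]
  obtain ⟨C, hC⟩ := H67.exists_GL_cols (F := F) (ι := Fin m)
    (s := {v : Fin m → F | g.1 *ᵥ (fun k => σ (v k)) = v}) (by
      rw [eq_top_iff]
      intro v _
      obtain ⟨w, hw⟩ : ∃ w, σ w ≠ w := not_forall.1 fun e => hσ.1 (RingEquiv.ext e)
      have h1 := Submodule.subset_span (R := F) (hT v)
      have h2 := Submodule.subset_span (R := F) (hT (w • v))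
      have e : (fun k => σ ((w • v) k)) = σ w • fun k => σ (v k) := by ext k; simp
      rw [e, mulVec_smul] at h2
      have h3 := Submodule.smul_mem _ (σ w - w)⁻¹ (Submodule.sub_mem _ (Submodule.smul_mem _ (σ w) h1) h2)
      rwa [smul_add, add_sub_add_right_eq_sub, ← sub_smul, inv_smul_smul₀ (sub_ne_zero.2 hw)] at h3)
  exact ⟨C, Matrix.ext fun i j => congrFun (hC j) i⟩

theorem her {σ : RingAut F} (hσ : Sg σ) {m : ℕ} (H : GL (Fin m) F) (h : H.1ᵀ.map σ = H.1) :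
    ∃ C : GL (Fin m) F, H.1 = C.1 * C.1ᵀ.map σ := by
  have hK : (H⁻¹).1ᵀ.map σ = (H⁻¹).1 := by
    have e : (H⁻¹).1ᵀ.map σ * H.1 = 1 := by
      conv_lhs => rw [← h]
      rw [← NFa.map_mul', ← transpose_mul, Units.mul_inv, transpose_one, NFa.map_one']
    rw [← mul_one ((H⁻¹).1ᵀ.map σ), ← Units.mul_inv H, ← mul_assoc, e, one_mul]
  have hK' : ∀ i j, σ ((H⁻¹).1 j i) = (H⁻¹).1 i j := fun i j => congrFun (congrFun hK i) j
  let B := Matrix.toLinearMapₛₗ₂' F (σ : F →+* F) (RingHom.id F) (H⁻¹).1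
  have hB : ∀ x y, B x y = (fun k => σ (x k)) ⬝ᵥ ((H⁻¹).1 *ᵥ y) := by
    intro x y
    simp only [B, Matrix.toLinearMapₛₗ₂'_apply, dotProduct, mulVec, smul_eq_mul, RingHom.id_apply,
      Finset.mul_sum, RingHom.coe_coe]
    exact Finset.sum_congr rfl fun i _ => Finset.sum_congr rfl fun j _ => by ring
  obtain ⟨b, hb⟩ := H28.exists_orthonormal_basis_herm (σ := (σ : F →+* F)) (NFa.ne_id hσ) hσ.2 B (fun x y => by
    simp only [B, Matrix.toLinearMapₛₗ₂'_apply, smul_eq_mul, RingHom.id_apply, map_sum, map_mul,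
      RingHom.coe_coe, hσ.2, hK']
    rw [Finset.sum_comm]
    exact Finset.sum_congr rfl fun i _ => Finset.sum_congr rfl fun j _ => by ring) (fun x hx => by
    ext j
    have := hx (H.1 *ᵥ Pi.single j 1)
    rw [hB, mulVec_mulVec, Units.inv_mul, one_mulVec, dotProduct_single, mul_one] at this
    exact (map_eq_zero_iff σ σ.injective).1 this)
  have hn : m = Module.finrank F (Fin m → F) := (Module.finrank_fin_fun F).symm
  let C : Matrix (Fin m) (Fin m) F := Matrix.of fun i j => b (Fin.cast hn j) i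
  have e : Cᵀ.map σ * (H⁻¹).1 * C = 1 := by
    ext i j
    have := hb (Fin.cast hn i) (Fin.cast hn j)
    rw [hB] at this
    rw [mul_assoc, Matrix.one_apply]
    simp only [Fin.cast_inj] at this
    exact this
  have e' : C * (Cᵀ.map σ * (H⁻¹).1) = 1 := mul_eq_one_comm.1 e
  refine ⟨⟨C, _, e', e⟩, ?_⟩
  change H.1 = C * Cᵀ.map σ
  rw [← one_mul H.1, ← e', mul_assoc, mul_assoc, Units.inv_mul, mul_one]

theorem hil1 {σ : RingAut F} (hσ : Sg σ) {c : F} (h : c * σ c = 1) : ∃ b, b ≠ 0 ∧ c * σ b = b := by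
  obtain ⟨b, h0, e⟩ := H28.exists_div_conj_of_norm_one (NFa.ne_id hσ) hσ.2 (a := c) ((mul_comm _ _).trans h)
  exact ⟨b, h0, e.symm⟩

theorem norm_surj {σ : RingAut F} (hσ : Sg σ) {c : F} (h : σ c = c) : ∃ b, b * σ b = c := by
  obtain ⟨b, e⟩ := H28.exists_norm_eq (NFa.ne_id hσ) hσ.2 (t := c) h
  exact ⟨b, (mul_comm _ _).trans e⟩

theorem nfA {g : GX n F} {φ : RingAut F} (o : Ou g φ false) : Cj (au g φ false) (fr φ) := by
  have hσ : Sg φ := ⟨o.out.resolve_right (by simp), o.sq⟩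
  have hn : 2 ≤ n + 3 := by omega
  obtain ⟨g1, e1, k1⟩ := h9_fr φ g
  obtain ⟨-, c, hc⟩ := gc_fr_eq hn (g := g * g1) (φ := φ * φ) fun M => by
    rw [gc_mul, ← fr_fr, ← k1, ← au_false, ← au_false, o.inv]
  have c0 := h9_ne0 hn hc
  rw [Units.val_mul, e1] at hc
  have hcc : φ c = c := by
    have e := congrArg (·.map φ) hc
    simp only [NFa.map_mul', NFa.map_map' o.sq, NFa.map_smul', NFa.map_one'] at e
    refine h9_ne hn (g := g) ?_
    calc φ c • g.1 = g.1 * (g.1.map φ * g.1) := by rw [e, mul_smul_comm, mul_one]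
      _ = c • g.1 := by rw [← mul_assoc, hc, smul_mul_assoc, one_mul]
  obtain ⟨x, hx⟩ := norm_surj hσ hcc
  have x0 : x ≠ 0 := by rintro rfl; exact c0 (by rw [← hx, zero_mul])
  obtain ⟨g', e, -, k⟩ := h9_smul (inv_ne_zero x0) g
  obtain ⟨C, hC⟩ := hil hσ g' (by
    rw [e, NFa.map_smul', smul_mul_smul_comm, hc, smul_smul, map_inv₀, ← mul_inv, hx,
      inv_mul_cancel₀ c0, one_smul])
  obtain ⟨C1, e1', k1'⟩ := h9_fr φ C
  refine ⟨C, fun M => ?_⟩
  rw [au_false, k, k1', ← gc_mul, show g' * C1 = C from Units.ext (by rw [Units.val_mul, e1']; exact hC)]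

theorem nfB0 {g : GX n F} {φ : RingAut F} (o : Ou g φ true) (h : φ ≠ 1) : Cj (au g φ true) ((fr φ).comp it) := by
  have hσ : Sg φ := ⟨h, o.sq⟩
  have hn : 2 ≤ n + 3 := by omega
  obtain ⟨g1, e1, k1⟩ := NFa.fi_gc φ g
  obtain ⟨-, c, hc⟩ := gc_fr_eq hn (g := g * g1) (φ := φ * φ) fun M => by
    conv_rhs => rw [← o.inv M, au_true, au_true, k1, NFa.it_fr, it_it, fr_fr, ← gc_mul]
  have c0 := h9_ne0 hn hc
  rw [Units.val_mul, e1] at hc
  have e2 : g.1 = c • g.1ᵀ.map φ := by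
    have := congrArg (· * g.1ᵀ.map φ) hc
    simp only [smul_mul_assoc, one_mul] at this
    rwa [mul_assoc, ← NFa.map_mul', ← transpose_mul, Units.mul_inv, transpose_one, NFa.map_one',
      mul_one] at this
  have e3 : g.1ᵀ.map φ = φ c • g.1 := by
    conv_lhs => rw [e2]
    rw [transpose_smul, NFa.map_smul', ← transpose_map, NFa.map_map' o.sq, transpose_transpose]
  have hcc : c * φ c = 1 := h9_ne hn (g := g) (by rw [mul_smul, ← e3, ← e2, one_smul])
  obtain ⟨x, x0, hx⟩ := hil1 hσ hcc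
  obtain ⟨g', e, -, k⟩ := h9_smul ((map_ne_zero φ).2 x0) g
  obtain ⟨C, hC⟩ := her hσ g' (by
    rw [e, transpose_smul, NFa.map_smul', e3, smul_smul, ← map_mul, mul_comm, hx])
  obtain ⟨C1, e1', k1'⟩ := NFa.fi_gc φ C
  refine ⟨C, fun M => ?_⟩
  rw [au_true, k, k1', ← gc_mul, show g' * C1 = C from Units.ext (by
    rw [Units.val_mul, e1', hC, mul_assoc, ← NFa.map_mul', ← transpose_mul, Units.inv_mul,
      transpose_one, NFa.map_one', mul_one])]
  rfl

theorem nfB {g : GX n F} {φ : RingAut F} (o : Ou g φ true) (h : φ ≠ 1) : Cj (au g φ true) (tw.comp (fr φ)) := by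
  obtain ⟨w, hw⟩ := tw_au (n := n) φ
  have e : ((tw : X →* X).comp (fr φ)).comp (tw.comp (fr φ)) = MonoidHom.id _ := hom_ext_xe fun i j _ c => by
    simp only [MonoidHom.comp_apply, fr_xe, tw_xe, Fin.rev_rev, o.sq, MonoidHom.id_apply]
  obtain ⟨C, hC⟩ := nfB0 o h
  obtain ⟨D, hD⟩ := nfB0 (g := w) ⟨fun x => hw ▸ DFunLike.congr_fun e x, o.sq, o.out⟩ h
  refine ⟨C * D⁻¹, fun M => ?_⟩
  have k : ∀ M : X, gc D (gc D⁻¹ M) = M := fun M => by rw [← gc_mul, mul_inv_cancel, gc_one]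
  have k' : ∀ M : X, gc D⁻¹ (gc D M) = M := fun M => by rw [← gc_mul, inv_mul_cancel, gc_one]
  rw [gc_mul, hC, gc_mul, hw]
  conv_rhs => rw [← k M, hD, k']

end LMS
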