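import Cfsg.Agent.Lib.LMS.B2

set_option autoImplicit false
set_option linter.unusedSectionVars false

namespace LMS

open Subgroup H69 Cfsg Matrix U4S
open scoped MatrixGroups commutatorElement

universe u
variable {G : Type*} [Group G] [Finite G] {F : Type u} [Field F] [CharP F 2] [Fintype F] {n : ℕ} [Ok n F]
  {ι ψ χ : XX n F →* G} {t : G} {E : Subgroup G}

local notation "X" => XX n F
local notation "I" => Fin (n + 3)
local notation "Mx" => Matrix (Fin (n + 3)) (Fin (n + 3)) F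

namespace RKA

theorem exists_fixed (A : Submodule F Mx) (hc : ∀ a ∈ A, ∀ b ∈ A, a * b = b * a) (hs : ∀ a ∈ A, a * a = 0)
    {a : Mx} (ha : a ∈ A) (h0 : a ≠ 0) : ∃ w : I → F, a *ᵥ w ≠ 0 ∧ ∀ b ∈ A, b *ᵥ (a *ᵥ w) = 0 := by
  have ne : {w : I → F | a *ᵥ w ≠ 0}.Nonempty := by
    by_contra h
    apply h0
    rw [Set.not_nonempty_iff_eq_empty, Set.eq_empty_iff_forall_notMem] at h
    ext i j
    have := h (Pi.single j 1)
    have := congrFun (not_not.1 this) i
    simpa using this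
  obtain ⟨w, hw, hmax⟩ := Set.Finite.exists_maximalFor
    (fun w : I → F => {b : Mx | b ∈ A ∧ b *ᵥ (a *ᵥ w) = 0}) _ (Set.toFinite _) ne
  refine ⟨w, hw, fun b hb => ?_⟩
  by_contra h
  have e : ∀ c ∈ A, ∀ v : I → F, c *ᵥ (a *ᵥ (b *ᵥ v)) = b *ᵥ (c *ᵥ (a *ᵥ v)) := by
    intro c hc' v
    simp only [mulVec_mulVec]
    rw [hc a ha b hb, ← mul_assoc, hc c hc' b hb, mul_assoc]
  have h1 : b *ᵥ w ∈ {w : I → F | a *ᵥ w ≠ 0} := by
    change a *ᵥ (b *ᵥ w) ≠ 0
    rwa [mulVec_mulVec, hc a ha b hb, ← mulVec_mulVec]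
  have h2 := hmax h1 (fun c hc' => ⟨hc'.1, by rw [e c hc'.1, hc'.2, mulVec_zero]⟩)
  have h3 : b ∈ {c : Mx | c ∈ A ∧ c *ᵥ (a *ᵥ (b *ᵥ w)) = 0} :=
    ⟨hb, by rw [e b hb, mulVec_mulVec, hs b hb, zero_mulVec]⟩
  exact h (h2 h3).2

theorem le_MM {e : ℕ} (h : e ≤ n + 3) :
    e * (n + 3 - e) ≤ MM n ∧ (MM n ≤ e * (n + 3 - e) → e = kk n ∨ e = n + 3 - kk n) := by
  unfold MM
  have hk : n + 3 = 2 * kk n ∨ n + 3 = 2 * kk n + 1 := by unfold kk; omega
  generalize kk n = k at *
  generalize n + 3 = m at *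
  obtain ⟨f, rfl⟩ := Nat.exists_eq_add_of_le h
  rw [Nat.add_sub_cancel_left]
  rcases hk with hk | hk
  · have : e + f - k = k := by omega
    rw [this]
    zify at hk ⊢
    have e1 : (f : ℤ) = 2 * k - e := by omega
    rw [e1]
    refine ⟨by nlinarith [sq_nonneg ((e : ℤ) - k)], fun h => Or.inl ?_⟩
    nlinarith [sq_nonneg ((e : ℤ) - k)]
  · have : e + f - k = k + 1 := by omega
    rw [this]
    zify at hk ⊢
    have e1 : (f : ℤ) = 2 * k + 1 - e := by omega
    rw [e1]
    rcases le_or_gt (e : ℤ) k with h1 | h1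
    · refine ⟨by nlinarith, fun h => Or.inl ?_⟩
      nlinarith
    · refine ⟨by nlinarith, fun h => Or.inr ?_⟩
      nlinarith

theorem card_lt {d : ℕ} (h : d ≤ n + 3) : Fintype.card {i : I // i.1 < d} = d := Fintype.card_fin_lt_of_le h

theorem card_ge {d : ℕ} (h : d ≤ n + 3) : Fintype.card {i : I // d ≤ i.1} = n + 3 - d := by
  have := Fintype.card_subtype_compl (fun i : I => i.1 < d)
  rw [card_lt h, Fintype.card_fin] at this
  rw [← this]
  exact Fintype.card_congr (Equiv.subtypeEquivRight fun i => not_lt.symm)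

/-- the upper right block -/
def blk (A : Submodule F Mx) (d : ℕ) : A →ₗ[F] ({i : I // i.1 < d} × {i : I // d ≤ i.1} → F) where
  toFun a p := a.1 p.1.1 p.2.1
  map_add' _ _ := rfl
  map_smul' _ _ := rfl

theorem core (A : Submodule F Mx) (hc : ∀ a ∈ A, ∀ b ∈ A, a * b = b * a) (hs : ∀ a ∈ A, a * a = 0)
    {d : ℕ} (hd : d ≤ n + 3) (hK : ∀ v : I → F, (∀ a ∈ A, a *ᵥ v = 0) ↔ ∀ j : I, d ≤ j.1 → v j = 0) :
    Module.finrank F A ≤ MM n ∧ (MM n ≤ Module.finrank F A → (d = kk n ∨ d = n + 3 - kk n) ∧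
      ∀ c : Mx, c ∈ A ↔ ∀ i j : I, ¬ (i.1 < d ∧ d ≤ j.1) → c i j = 0) := by
  have col : ∀ a ∈ A, ∀ i j : I, j.1 < d → a i j = 0 := by
    intro a ha i j hj
    have := (hK (Pi.single j 1)).2 (fun l hl => Pi.single_eq_of_ne (by rintro rfl; omega) _) a ha
    simpa using congrFun this i
  have inj : Function.Injective (blk A d) := by
    rw [injective_iff_map_eq_zero]
    intro a h
    by_contra h0
    obtain ⟨w, hw, hf⟩ := exists_fixed A hc hs a.2 (fun e => h0 (Subtype.ext e))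
    apply hw
    ext i
    rcases lt_or_ge i.1 d with hi | hi
    · change ∑ j, a.1 i j * w j = 0
      refine Finset.sum_eq_zero fun j _ => ?_
      rcases lt_or_ge j.1 d with hj | hj
      · rw [col a a.2 i j hj, zero_mul]
      · have : a.1 i j = 0 := congrFun h (⟨i, hi⟩, ⟨j, hj⟩)
        rw [this, zero_mul]
    · exact (hK _).1 hf i hi
  have fr : Module.finrank F ({i : I // i.1 < d} × {i : I // d ≤ i.1} → F) = d * (n + 3 - d) := by
    rw [Module.finrank_fintype_fun_eq_card, Fintype.card_prod, card_lt hd, card_ge hd]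
  have le1 := LinearMap.finrank_le_finrank_of_injective inj
  rw [fr] at le1
  obtain ⟨m1, m2⟩ := le_MM hd
  refine ⟨le1.trans m1, fun h => ?_⟩
  have hdk := m2 (h.trans le1)
  have sur : Function.Surjective (blk A d) :=
    (LinearMap.injective_iff_surjective_of_finrank_eq_finrank (by rw [fr]; omega)).1 inj
  have ex : ∀ c : Mx, ∃ a ∈ A, ∀ i j : I, i.1 < d → d ≤ j.1 → a i j = c i j := by
    intro c
    obtain ⟨a, ha⟩ := sur (fun p => c p.1.1 p.2.1)
    exact ⟨a.1, a.2, fun i j hi hj => congrFun ha (⟨i, hi⟩, ⟨j, hj⟩)⟩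
  have r0 : ∀ a ∈ A, ∀ i0 : I, i0.1 < d → (∀ j : I, d ≤ j.1 → a i0 j = 0) → ∀ i j : I, d ≤ i.1 → a i j = 0 := by
    intro a ha i0 h0 hz i j hi
    obtain ⟨b, hb, hb'⟩ := ex (single i0 i 1)
    have e1 : (b * a) i0 j = a i j := by
      rw [mul_apply, Finset.sum_eq_single i]
      · rw [hb' i0 i h0 hi, single_apply_same, one_mul]
      · intro l _ hl
        rcases lt_or_ge l.1 d with h1 | h1
        · rw [col b hb i0 l h1, zero_mul]
        · rw [hb' i0 l h0 h1, single_apply_of_col_ne _ _ hl.symm, zero_mul]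
      · simp
    rw [← e1, hc b hb a ha, mul_apply]
    refine Finset.sum_eq_zero fun l _ => ?_
    rcases lt_or_ge l.1 d with h1 | h1
    · rw [col a ha i0 l h1, zero_mul]
    · rw [hz l h1, zero_mul]
  have row : ∀ a ∈ A, ∀ i j : I, d ≤ i.1 → a i j = 0 := by
    intro a ha i j hi
    rcases le_or_gt 2 d with h2 | h2
    · obtain ⟨b, hb, hb'⟩ := ex (of fun k l => if k = 0 then 0 else a k l)
      have e1 := r0 b hb 0 (by change 0 < d; omega)
        (fun l hl => by rw [hb' 0 l (by change 0 < d; omega) hl]; simp) i j hi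
      have e2 := r0 (a - b) (A.sub_mem ha hb) 1 (by change 1 < d; omega)
        (fun l hl => by rw [Matrix.sub_apply, hb' 1 l (by change 1 < d; omega) hl]; simp) i j hi
      rwa [Matrix.sub_apply, e1, sub_zero] at e2
    · have n0 : n = 0 := by unfold kk at hdk; omega
      by_cases h0 : a = 0
      · rw [h0]; rfl
      obtain ⟨w, hw, hf⟩ := exists_fixed A hc hs ha h0
      have q1 := LinearMap.finrank_range_add_finrank_ker (toLin' a)
      have q2 : LinearMap.range (toLin' a) ≤ LinearMap.ker (toLin' a) := by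
        rintro _ ⟨v, rfl⟩
        rw [LinearMap.mem_ker, toLin'_apply, toLin'_apply, mulVec_mulVec, hs a ha, zero_mulVec]
      have q3 := Submodule.finrank_mono q2
      rw [Module.finrank_fintype_fun_eq_card, Fintype.card_fin] at q1
      have q4 : Submodule.span F {a *ᵥ w} = LinearMap.range (toLin' a) :=
        Submodule.eq_of_le_of_finrank_le (by
          rw [Submodule.span_singleton_le_iff_mem]; exact ⟨w, rfl⟩) (by
          rw [finrank_span_singleton hw]; omega)
      have q5 : a *ᵥ Pi.single j 1 ∈ Submodule.span F {a *ᵥ w} := by rw [q4]; exact ⟨_, rfl⟩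
      obtain ⟨c, hc'⟩ := Submodule.mem_span_singleton.1 q5
      have q6 := congrFun hc' i
      rw [Pi.smul_apply, (hK _).1 hf i hi, smul_zero] at q6
      simpa using q6.symm
  have sup : ∀ a ∈ A, ∀ i j : I, ¬ (i.1 < d ∧ d ≤ j.1) → a i j = 0 := by
    intro a ha i j hij
    rcases lt_or_ge i.1 d with hi | hi
    · exact col a ha i j (by omega)
    · exact row a ha i j hi
  refine ⟨hdk, fun c => ⟨sup c, fun hz => ?_⟩⟩
  obtain ⟨a, ha, ha'⟩ := ex c
  have : c = a := by
    ext i j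
    by_cases hij : i.1 < d ∧ d ≤ j.1
    · exact (ha' i j hij.1 hij.2).symm
    · rw [hz i j hij, sup a ha i j hij]
  rwa [this]

theorem ex_C (K : Submodule F (I → F)) :
    ∃ C : GX n F, ∀ v : I → F, C.1 *ᵥ v ∈ K ↔ ∀ j : I, Module.finrank F K ≤ j.1 → v j = 0 := by
  have hd : Module.finrank F K ≤ n + 3 := by simpa using K.finrank_le
  set d := Module.finrank F K with hdef
  let π := LinearMap.funLeft F F (Subtype.val : {j : I // d ≤ j.1} → I)
  have q1 := LinearMap.finrank_range_add_finrank_ker π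
  rw [LinearMap.range_eq_top.2 (LinearMap.funLeft_surjective_of_injective F F _ Subtype.val_injective),
    finrank_top, Module.finrank_fintype_fun_eq_card, Module.finrank_fintype_fun_eq_card, card_ge hd,
    Fintype.card_fin] at q1
  let f : LinearMap.ker π ≃ₗ[F] K := LinearEquiv.ofFinrankEq _ _ (by omega)
  obtain ⟨g, hg⟩ := Submodule.exists_linearEquiv_restrict_eq f
  refine ⟨⟨LinearMap.toMatrix' g.toLinearMap, LinearMap.toMatrix' g.symm.toLinearMap, ?_, ?_⟩, fun v => ?_⟩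
  · rw [← LinearMap.toMatrix'_comp]; simp
  · rw [← LinearMap.toMatrix'_comp]; simp
  · change LinearMap.toMatrix' g.toLinearMap *ᵥ v ∈ K ↔ _
    rw [LinearMap.toMatrix'_mulVec]
    have mk : v ∈ LinearMap.ker π ↔ ∀ j : I, d ≤ j.1 → v j = 0 :=
      ⟨fun h j hj => congrFun h ⟨j, hj⟩, fun h => funext fun j => h j.1 j.2⟩
    rw [← mk]
    constructor
    · intro h
      have e := hg (f.symm ⟨_, h⟩)
      rw [LinearEquiv.apply_symm_apply] at e
      have : v = (f.symm ⟨_, h⟩).1 := g.injective e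
      rw [this]; exact Subtype.property _
    · intro h
      have e := hg ⟨v, h⟩
      change g v ∈ K
      rw [← e]; exact Subtype.property _

/-- conjugation of matrices -/
def cjL (C : GX n F) : Mx ≃ₗ[F] Mx where
  toFun c := (C⁻¹).1 * c * C.1
  invFun c := C.1 * c * (C⁻¹).1
  map_add' a b := by rw [mul_add, add_mul]
  map_smul' c a := by simp
  left_inv c := by
    change C.1 * ((C⁻¹).1 * c * C.1) * (C⁻¹).1 = c
    rw [← mul_assoc, ← mul_assoc, Units.mul_inv, one_mul, mul_assoc, Units.mul_inv, mul_one]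
  right_inv c := by
    change (C⁻¹).1 * (C.1 * c * (C⁻¹).1) * C.1 = c
    rw [← mul_assoc, ← mul_assoc, Units.inv_mul, one_mul, mul_assoc, Units.inv_mul, mul_one]

/-- the common kernel -/
def cK (A : Submodule F Mx) : Submodule F (I → F) where
  carrier := {v | ∀ a ∈ A, a *ᵥ v = 0}
  add_mem' hv hw a ha := by rw [mulVec_add, hv a ha, hw a ha, add_zero]
  zero_mem' a _ := mulVec_zero a
  smul_mem' c v hv a ha := by rw [mulVec_smul, hv a ha, smul_zero]

end RKA

open RKA in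
theorem rkA (A : Submodule F Mx) (hm : ∀ a ∈ A, ∀ b ∈ A, a * b ∈ A) (hc : ∀ a ∈ A, ∀ b ∈ A, a * b = b * a)
    (hs : ∀ a ∈ A, a * a = 0) : Module.finrank F A ≤ MM n ∧
      (MM n ≤ Module.finrank F A → ∃ J : Subgroup X, IsJ J ∧ ∀ x, x ∈ J ↔ x.1 - 1 ∈ A) := by
  obtain ⟨C, hC⟩ := ex_C (cK A)
  have hd : Module.finrank F (cK A) ≤ n + 3 := by simpa using (cK A).finrank_le
  set d := Module.finrank F (cK A)
  have mul : ∀ a b : Mx, cjL C a * cjL C b = cjL C (a * b) := by
    intro a b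
    change (C⁻¹).1 * a * C.1 * ((C⁻¹).1 * b * C.1) = (C⁻¹).1 * (a * b) * C.1
    simp only [mul_assoc]
    rw [← mul_assoc C.1, Units.mul_inv, one_mul]
  have key := core (A.map (cjL C : Mx →ₗ[F] Mx)) (d := d)
    (by
      rintro _ ⟨a, ha, rfl⟩ _ ⟨b, hb, rfl⟩
      change cjL C a * cjL C b = cjL C b * cjL C a
      rw [mul, mul, hc a ha b hb])
    (by
      rintro _ ⟨a, ha, rfl⟩
      change cjL C a * cjL C a = 0
      rw [mul, hs a ha, map_zero]) hd
    (by
      intro v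
      rw [← hC]
      constructor
      · intro h a ha
        have : ((C⁻¹).1 * a * C.1) *ᵥ v = 0 := h _ ⟨a, ha, rfl⟩
        have e := congrArg (fun z => C.1 *ᵥ z) this
        simp only [mulVec_mulVec, mulVec_zero] at e
        rw [← mul_assoc, ← mul_assoc, Units.mul_inv, one_mul] at e
        rw [mulVec_mulVec, e]
      · rintro h _ ⟨a, ha, rfl⟩
        change ((C⁻¹).1 * a * C.1) *ᵥ v = 0
        rw [← mulVec_mulVec, ← mulVec_mulVec, h a ha, mulVec_zero])
  rw [LinearEquiv.finrank_map_eq] at key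
  refine ⟨key.1, fun h => ?_⟩
  obtain ⟨hdk, hA⟩ := key.2 h
  have hJ : IsJ (JJ n F d) := by
    rcases hdk with e | e <;> rw [e]
    exacts [isJ_kk, isJ_kk']
  refine ⟨_, hJ.au C 1 false, fun x => ?_⟩
  have e0 : ∀ y : X, au C 1 false y = gc C y := fun y => by rw [au_false, U4S.fr_one]
  have e1 : x ∈ (JJ n F d).map (au C 1 false) ↔ (gc C).symm x ∈ JJ n F d := by
    constructor
    · rintro ⟨y, hy, rfl⟩
      rwa [e0, MulEquiv.symm_apply_apply]
    · intro hy
      exact ⟨_, hy, by rw [e0, MulEquiv.apply_symm_apply]⟩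
  have e2 : x.1 - 1 ∈ A ↔ cjL C (x.1 - 1) ∈ A.map (cjL C : Mx →ₗ[F] Mx) := by
    rw [Submodule.mem_map_equiv, LinearEquiv.symm_apply_apply]
  have e3 : cjL C (x.1 - 1) = ((gc C).symm x).1 - 1 := by
    change (C⁻¹).1 * (x.1 - 1) * C.1 = (C⁻¹).1 * x.1 * (C⁻¹⁻¹).1 - 1
    rw [inv_inv, mul_sub, sub_mul, mul_one, Units.inv_mul]
  rw [e1, e2, hA, e3, mem_JJ]
  simp only [Matrix.sub_apply, sub_eq_zero]

end LMS
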