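import Cfsg.Agent.Lib.LMS.RKA

set_option autoImplicit false
set_option linter.unusedSectionVars false

namespace LMS

open Subgroup H69 Cfsg Matrix U4S
open scoped MatrixGroups commutatorElement

universe u
variable {G : Type*} [Group G] [Finite G] {F : Type u} [Field F] [CharP F 2] [Fintype F] {n : ℕ} [Ok n F]
  {ι ψ χ : XX n F →* G} {t : G} {E : Subgroup G}

local notation "X" => XX n F
local notation "I" => Fin (n + 3)
local notation "Mx" => Matrix (Fin (n + 3)) (Fin (n + 3)) F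

namespace RKS

open RKA

theorem ex_dual {B : Type*} [AddCommGroup B] [Module F B] [FiniteDimensional F B] (R : Submodule F B)
    (h : Module.finrank F B ≤ Module.finrank F R + 1) : ∃ φ : B →ₗ[F] F, ∀ c, φ c = 0 → c ∈ R := by
  rcases eq_or_lt_of_le (le_top : R ≤ ⊤) with e | e
  · exact ⟨0, fun c _ => by rw [e]; trivial⟩
  · obtain ⟨φ, h0, h1⟩ := R.exists_le_ker_of_lt_top e
    have q := Module.Dual.finrank_ker_add_one_of_ne_zero h0
    have : R = LinearMap.ker φ := Submodule.eq_of_le_of_finrank_le h1 (by omega)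
    exact ⟨φ, fun c hc => by rw [this]; exact hc⟩

/-- the upper right block of a matrix -/
def blM (n : ℕ) (F : Type u) [Field F] (d : ℕ) : Matrix (Fin (n + 3)) (Fin (n + 3)) F →ₗ[F]
    ({i : Fin (n + 3) // i.1 < d} × {i : Fin (n + 3) // d ≤ i.1} → F) where
  toFun a p := a p.1.1 p.2.1
  map_add' _ _ := rfl
  map_smul' _ _ := rfl

/-- the lower right block of a product -/
def blL (A : Submodule F Mx) (h : Mx) (d : ℕ) : A →ₗ[F] ({i : I // d ≤ i.1} × {i : I // d ≤ i.1} → F) where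
  toFun a p := (h * a.1) p.1.1 p.2.1
  map_add' a b := by ext p; simp [mul_add]
  map_smul' c a := by ext p; simp

/-- a matrix with one row -/
def rw1 (i0 : I) (d : ℕ) : ({i : I // d ≤ i.1} → F) →ₗ[F] Mx where
  toFun l := of fun i j => if i = i0 then if h : d ≤ j.1 then l ⟨j, h⟩ else 0 else 0
  map_add' a b := by ext i j; simp only [of_apply, Matrix.add_apply]; split_ifs <;> simp
  map_smul' c a := by ext i j; simp only [of_apply, Matrix.smul_apply]; split_ifs <;> simp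

theorem core2 (A : Submodule F Mx) (hc : ∀ a ∈ A, ∀ b ∈ A, a * b = b * a) (hs : ∀ a ∈ A, a * a = 0)
    {d : ℕ} (hd : d ≤ n + 3) (hK : ∀ v : I → F, (∀ a ∈ A, a *ᵥ v = 0) ↔ ∀ j : I, d ≤ j.1 → v j = 0)
    (h : Mx) (hh : ∀ v : I → F, h *ᵥ v = 0 → v = 0) (hy : ∀ a ∈ A, (h * a)ᵀ = h * a) :
    Module.finrank F A + 1 ≤ MM n ∧ (2 ≤ n → Module.finrank F A + 2 ≤ MM n) := by
  have col : ∀ a ∈ A, ∀ i j : I, j.1 < d → a i j = 0 := by
    intro a ha i j hj
    have := (hK (Pi.single j 1)).2 (fun l hl => Pi.single_eq_of_ne (by rintro rfl; omega) _) a ha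
    simpa using congrFun this i
  have inj : Function.Injective (blk A d) := by
    rw [injective_iff_map_eq_zero]
    intro a h
    by_contra h0
    obtain ⟨w, hw, hf⟩ := exists_fixed A hc hs a.2 (fun e => h0 (Subtype.ext e))
    apply hw
    ext i
    rcases lt_or_ge i.1 d with hi | hi
    · change ∑ j, a.1 i j * w j = 0
      refine Finset.sum_eq_zero fun j _ => ?_
      rcases lt_or_ge j.1 d with hj | hj
      · rw [col a a.2 i j hj, zero_mul]
      · have : a.1 i j = 0 := congrFun h (⟨i, hi⟩, ⟨j, hj⟩)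
        rw [this, zero_mul]
    · exact (hK _).1 hf i hi
  have fr : Module.finrank F ({i : I // i.1 < d} × {i : I // d ≤ i.1} → F) = d * (n + 3 - d) := by
    rw [Module.finrank_fintype_fun_eq_card, Fintype.card_prod, card_lt hd, card_ge hd]
  have le1 := LinearMap.finrank_le_finrank_of_injective inj
  rw [fr] at le1
  have col' : ∀ a ∈ A, ∀ i j : I, j.1 < d → (h * a) i j = 0 := fun a ha i j hj => by
    rw [mul_apply]
    exact Finset.sum_eq_zero fun l _ => by rw [col a ha l j hj, mul_zero]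
  have inj2 : Function.Injective (blL A h d) := by
    rw [injective_iff_map_eq_zero]
    intro a hz
    have e : h * a.1 = 0 := by
      ext i j
      rcases lt_or_ge j.1 d with hj | hj
      · exact col' a a.2 i j hj
      rcases lt_or_ge i.1 d with hi | hi
      · rw [← hy a a.2, transpose_apply]; exact col' a a.2 j i hi
      · exact congrFun hz (⟨i, hi⟩, ⟨j, hj⟩)
    ext i j
    have := hh (a.1 *ᵥ Pi.single j 1) (by rw [mulVec_mulVec, e, zero_mulVec])
    simpa using congrFun this i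
  have le2 := LinearMap.finrank_le_finrank_of_injective inj2
  rw [Module.finrank_fintype_fun_eq_card, Fintype.card_prod, card_ge hd] at le2
  have m1 := (le_MM hd).1
  have m2 : 2 * (n + 1) ≤ MM n := (le_MM (n := n) (e := 2) (by omega)).1
  have nz : ∀ i : I, ∃ x, h x i ≠ 0 := by
    intro i
    by_contra hn
    simp only [not_exists, not_not] at hn
    have := hh (Pi.single i 1) (by ext x; simpa using hn x)
    simpa using congrFun this i
  have rk1 : ∀ a ∈ A, ∀ i0 : I, (∀ i j, i ≠ i0 → a i j = 0) → ∀ x, h x i0 ≠ 0 → a i0 x = 0 → ∀ y, a i0 y = 0 := by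
    intro a ha i0 hz x hx h0 y
    have e : ∀ p q, (h * a) p q = h p i0 * a i0 q := fun p q => by
      rw [mul_apply, Finset.sum_eq_single i0]
      · intro l _ hl; rw [hz l q hl, mul_zero]
      · simp
    have := congrFun (congrFun (hy a ha) x) y
    rw [transpose_apply, e, e, h0, mul_zero] at this
    exact (mul_eq_zero.1 this.symm).resolve_left hx
  refine ⟨?_, fun hn => ?_⟩
  · by_contra hlt
    obtain ⟨hdk, hA⟩ := (core A hc hs hd hK).2 (by omega)
    have d1 : 0 < d := by unfold kk at hdk; omega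
    rcases le_or_gt (n + 3 - d) 1 with h1 | h1
    · have := Nat.mul_le_mul h1 h1
      omega
    obtain ⟨x, hx⟩ := nz 0
    obtain ⟨j, hj, hjx⟩ : ∃ j : I, d ≤ j.1 ∧ j ≠ x := by
      by_cases e : x.1 = d
      · exact ⟨⟨d + 1, by omega⟩, Nat.le_succ d, fun e' => by have := congrArg Fin.val e'; simp at this; omega⟩
      · exact ⟨⟨d, by omega⟩, le_rfl, fun e' => e (by rw [← e'])⟩
    have ha : (single 0 j 1 : Mx) ∈ A := (hA _).2 fun p q hpq =>
      single_apply_of_ne _ _ _ _ _ (by rintro ⟨rfl, rfl⟩; exact hpq ⟨d1, hj⟩)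
    have := rk1 _ ha 0 (fun p q hp => single_apply_of_row_ne hp.symm _ _ _) x hx
      (single_apply_of_col_ne _ _ hjx _) j
    simp at this
  by_contra hlt
  rcases le_or_gt (n + 3 - d) 2 with h1 | h1
  · have := Nat.mul_le_mul h1 h1
    omega
  rcases le_or_gt d 1 with h2 | h2
  · have : d * (n + 3 - d) ≤ n + 2 := by
      rcases Nat.le_one_iff_eq_zero_or_eq_one.1 h2 with rfl | rfl <;> omega
    omega
  obtain ⟨φ, hφ⟩ := ex_dual (LinearMap.range (blk A d))
    (by rw [fr, LinearMap.finrank_range_of_inj inj]; omega)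
  have ex : ∀ c : Mx, φ (blM n F d c) = 0 → ∃ a ∈ A, ∀ i j : I, i.1 < d → d ≤ j.1 → a i j = c i j := by
    intro c h0
    obtain ⟨a, ha⟩ := hφ _ h0
    exact ⟨a.1, a.2, fun i j hi hj => congrFun ha (⟨i, hi⟩, ⟨j, hj⟩)⟩
  have z0 : (0 : I).1 < d := by change 0 < d; omega
  have z1 : (1 : I).1 < d := by change 1 < d; omega
  obtain ⟨i0, i1, h0, h1', hne, hb⟩ : ∃ i0 i1 : I, i0.1 < d ∧ i1.1 < d ∧ i1 ≠ i0 ∧
      ∀ j : I, ∃ c : Mx, φ (blM n F d c) = 0 ∧ ∀ l, c i1 l = (single i1 j 1 : Mx) i1 l := by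
    by_cases hz : ∀ j : I, φ (blM n F d (single 0 j 1)) = 0
    · exact ⟨1, 0, z1, z0, zero_ne_one, fun j => ⟨_, hz j, fun _ => rfl⟩⟩
    · obtain ⟨j0, hj0⟩ := not_forall.1 hz
      refine ⟨0, 1, z0, z1, one_ne_zero, fun j => ⟨single 1 j 1 -
        (φ (blM n F d (single 1 j 1)) / φ (blM n F d (single 0 j0 1))) • single 0 j0 1, ?_, fun l => ?_⟩⟩
      · rw [map_sub, map_sub, map_smul, map_smul, smul_eq_mul, div_mul_cancel₀ _ hj0, sub_self]
      · rw [Matrix.sub_apply, Matrix.smul_apply, single_apply_of_row_ne zero_ne_one, smul_zero, sub_zero]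
  have r0 : ∀ a ∈ A, (∀ j : I, d ≤ j.1 → a i1 j = 0) → ∀ i j : I, d ≤ i.1 → a i j = 0 := by
    intro a ha hz i j hi
    obtain ⟨c, hc0, hc1⟩ := hb i
    obtain ⟨b, hb, hb'⟩ := ex c hc0
    have e1 : (b * a) i1 j = a i j := by
      rw [mul_apply, Finset.sum_eq_single i]
      · rw [hb' i1 i h1' hi, hc1, single_apply_same, one_mul]
      · intro l _ hl
        rcases lt_or_ge l.1 d with h1 | h1
        · rw [col b hb i1 l h1, zero_mul]
        · rw [hb' i1 l h1' h1, hc1, single_apply_of_col_ne _ _ hl.symm, zero_mul]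
      · simp
    rw [← e1, hc b hb a ha, mul_apply]
    refine Finset.sum_eq_zero fun l _ => ?_
    rcases lt_or_ge l.1 d with h1 | h1
    · rw [col a ha i1 l h1, zero_mul]
    · rw [hz l h1, zero_mul]
  obtain ⟨x, hx⟩ := nz i0
  let T : ({i : I // d ≤ i.1} → F) →ₗ[F] F × F :=
    ((φ.comp (blM n F d)).prod (Matrix.entryLinearMap F F i0 x)).comp (rw1 i0 d)
  have kT : LinearMap.ker T ≠ ⊥ := LinearMap.ker_ne_bot_of_finrank_lt (by
    rw [Module.finrank_fintype_fun_eq_card, card_ge hd, Module.finrank_prod, Module.finrank_self]; omega)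
  obtain ⟨l, hl, l0⟩ := (Submodule.ne_bot_iff _).1 kT
  have t1 : φ (blM n F d (rw1 i0 d l)) = 0 := congrArg Prod.fst hl
  have t2 : rw1 i0 d l i0 x = 0 := congrArg Prod.snd hl
  obtain ⟨a, ha, ha'⟩ := ex _ t1
  have s1 : ∀ i j : I, i ≠ i0 → rw1 i0 d l i j = 0 := fun i j hi => if_neg hi
  have s2 := r0 a ha fun j hj => by rw [ha' i1 j h1' hj, s1 i1 j hne]
  have s3 := rk1 a ha i0 (fun i j hi => by
      rcases lt_or_ge i.1 d with p | p
      · rcases lt_or_ge j.1 d with q | q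
        · exact col a ha i j q
        · rw [ha' i j p q, s1 i j hi]
      · exact s2 i j p) x hx (by
      rcases lt_or_ge x.1 d with q | q
      · exact col a ha i0 x q
      · rw [ha' i0 x h0 q, t2])
  apply l0
  ext j
  have := s3 j.1
  rw [ha' i0 j.1 h0 j.2] at this
  change (if i0 = i0 then if h : d ≤ j.1.1 then l ⟨j.1, h⟩ else 0 else 0) = 0 at this
  rwa [if_pos rfl, dif_pos j.2] at this

end RKS

open RKA RKS in
theorem rkS (A : Submodule F Mx) (hm : ∀ a ∈ A, ∀ b ∈ A, a * b ∈ A) (hc : ∀ a ∈ A, ∀ b ∈ A, a * b = b * a)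
    (hs : ∀ a ∈ A, a * a = 0) {g : GX n F} (hg : g.1ᵀ = g.1) (ha : ∀ a ∈ A, g.1 * aᵀ = a * g.1) :
    Module.finrank F A + 1 ≤ MM n ∧ (2 ≤ n → Module.finrank F A + 2 ≤ MM n) := by
  obtain ⟨C, hC⟩ := ex_C (cK A)
  have hd : Module.finrank F (cK A) ≤ n + 3 := by simpa using (cK A).finrank_le
  set d := Module.finrank F (cK A)
  have mul : ∀ a b : Mx, cjL C a * cjL C b = cjL C (a * b) := by
    intro a b
    change (C⁻¹).1 * a * C.1 * ((C⁻¹).1 * b * C.1) = (C⁻¹).1 * (a * b) * C.1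
    simp only [mul_assoc]
    rw [← mul_assoc C.1, Units.mul_inv, one_mul]
  have hg' : (g⁻¹).1ᵀ = (g⁻¹).1 := by
    have e : (g⁻¹).1ᵀ * g.1 = 1 := by
      conv_lhs => rw [← hg]
      rw [← transpose_mul, Units.mul_inv, transpose_one]
    calc (g⁻¹).1ᵀ = (g⁻¹).1ᵀ * g.1 * (g⁻¹).1 := by rw [mul_assoc, Units.mul_inv, mul_one]
      _ = _ := by rw [e, one_mul]
  have key := core2 (A.map (cjL C : Mx →ₗ[F] Mx)) (d := d)
    (by
      rintro _ ⟨a, ha, rfl⟩ _ ⟨b, hb, rfl⟩
      change cjL C a * cjL C b = cjL C b * cjL C a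
      rw [mul, mul, hc a ha b hb])
    (by
      rintro _ ⟨a, ha, rfl⟩
      change cjL C a * cjL C a = 0
      rw [mul, hs a ha, map_zero]) hd
    (by
      intro v
      rw [← hC]
      constructor
      · intro h a ha
        have : ((C⁻¹).1 * a * C.1) *ᵥ v = 0 := h _ ⟨a, ha, rfl⟩
        have e := congrArg (fun z => C.1 *ᵥ z) this
        simp only [mulVec_mulVec, mulVec_zero] at e
        rw [← mul_assoc, ← mul_assoc, Units.mul_inv, one_mul] at e
        rw [mulVec_mulVec, e]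
      · rintro h _ ⟨a, ha, rfl⟩
        change ((C⁻¹).1 * a * C.1) *ᵥ v = 0
        rw [← mulVec_mulVec, ← mulVec_mulVec, h a ha, mulVec_zero])
    (C.1ᵀ * (g⁻¹).1 * C.1)
    (by
      intro v hv
      have e := congrArg (fun z => ((C⁻¹).1 * g.1 * (C⁻¹).1ᵀ) *ᵥ z) hv
      simp only [mulVec_mulVec, mulVec_zero] at e
      have : (C⁻¹).1 * g.1 * (C⁻¹).1ᵀ * (C.1ᵀ * (g⁻¹).1 * C.1) = 1 := by
        simp only [mul_assoc]
        rw [← mul_assoc (C⁻¹).1ᵀ, ← transpose_mul, Units.mul_inv, transpose_one, one_mul, ← mul_assoc g.1,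
          Units.mul_inv, one_mul, Units.inv_mul]
      rwa [this, one_mulVec] at e)
    (by
      rintro _ ⟨a, haA, rfl⟩
      have e1 : C.1ᵀ * (g⁻¹).1 * C.1 * ((C⁻¹).1 * a * C.1) = C.1ᵀ * ((g⁻¹).1 * a) * C.1 := by
        simp only [mul_assoc]
        rw [← mul_assoc C.1, Units.mul_inv, one_mul]
      have e2 : aᵀ * (g⁻¹).1 = (g⁻¹).1 * a := by
        calc aᵀ * (g⁻¹).1 = (g⁻¹).1 * (g.1 * aᵀ) * (g⁻¹).1 := by rw [← mul_assoc, Units.inv_mul, one_mul]
          _ = _ := by rw [ha a haA, mul_assoc, mul_assoc, Units.mul_inv, mul_one]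
      change (C.1ᵀ * (g⁻¹).1 * C.1 * ((C⁻¹).1 * a * C.1))ᵀ = C.1ᵀ * (g⁻¹).1 * C.1 * ((C⁻¹).1 * a * C.1)
      rw [e1, transpose_mul, transpose_mul, transpose_mul, transpose_transpose, hg', e2, mul_assoc C.1ᵀ])
  rwa [LinearEquiv.finrank_map_eq] at key

end LMS
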