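import Cfsg.Agent.Lib.LMS.B2

set_option autoImplicit false
set_option linter.unusedSectionVars false

namespace LMS

open Subgroup H69 Cfsg Matrix U4S
open scoped MatrixGroups commutatorElement

universe u
variable {G : Type*} [Group G] [Finite G] {F : Type u} [Field F] [CharP F 2] [Fintype F] {n : ℕ} [Ok n F]
  {ι ψ χ : XX n F →* G} {t : G} {E : Subgroup G}

local notation "X" => XX n F
local notation "I" => Fin (n + 3)
local notation "Mx" => Matrix (Fin (n + 3)) (Fin (n + 3)) F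

namespace SPL

variable {d : ℕ} {h : GX n F}

/-- block triangular -/
def BT (d : ℕ) (h : Mx) : Prop := ∀ i j : I, d ≤ i.1 → j.1 < d → h i j = 0

theorem bt_iff {h : Mx} : BT d h ↔ h.BlockTriangular fun i : I => if i.1 < d then 0 else 1 := by
  refine ⟨fun a i j e => ?_, fun a i j h1 h2 => a (by simp [h2, not_lt.2 h1])⟩
  dsimp only at e
  split_ifs at e <;> first | omega | exact a i j (by omega) (by omega)

theorem BT.inv (a : BT d h.1) : BT d (h⁻¹).1 := by
  rw [bt_iff] at a ⊢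
  rw [Matrix.coe_units_inv]
  have := h.invertible
  exact blockTriangular_inv_of_blockTriangular a

theorem BT.mem (a : BT d h.1) {y : X} (hy : y ∈ JJ n F d) : gc h y ∈ JJ n F d := by
  rw [mem_JJ] at hy ⊢
  intro i j e
  have h1 : (gc h y).1 = h.1 * (y.1 - 1) * (h⁻¹).1 + 1 := by
    rw [gc_val, mul_sub, sub_mul, mul_one, Units.mul_inv, sub_add_cancel]
  rw [h1, Matrix.add_apply, add_eq_right, mul_apply]
  refine Finset.sum_eq_zero fun l _ => ?_
  rw [mul_apply, Finset.sum_mul]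
  refine Finset.sum_eq_zero fun k _ => ?_
  by_cases c : k.1 < d ∧ d ≤ l.1
  · by_cases c' : d ≤ i.1
    · rw [a i k c' c.1, zero_mul, zero_mul]
    · rw [a.inv l j c.2 (by omega), mul_zero]
  · rw [Matrix.sub_apply, hy k l c, sub_self, mul_zero, zero_mul]

theorem gc_mul' (C D : GX n F) (M : X) : gc (C * D) M = gc C (gc D M) :=
  Subtype.ext (by simp only [gc_val, _root_.mul_inv_rev, Units.val_mul, mul_assoc])

/-- the conjugate of `JJ` -/
def Jm (d : ℕ) (A : GX n F) : Subgroup X := (JJ n F d).map (gc A).toMonoidHom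

theorem mem_Jm {A : GX n F} {y : X} : y ∈ Jm d A ↔ ∃ a ∈ JJ n F d, gc A a = y := Iff.rfl

theorem Jm_le (A : GX n F) (a : BT d h.1) : Jm d (A * h) ≤ Jm d A := by
  rintro _ ⟨y, hy, rfl⟩
  exact ⟨gc h y, a.mem hy, (gc_mul' A h y).symm⟩

theorem Jm_mul (A : GX n F) (a : BT d h.1) : Jm d (A * h) = Jm d A :=
  le_antisymm (Jm_le A a) (by simpa using Jm_le (A * h) a.inv)

theorem Jm_map (A g : GX n F) : (Jm d A).map (au g 1 false) = Jm d (g * A) := by
  rw [Jm, Jm, Subgroup.map_map]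
  congr 1
  exact MonoidHom.ext fun y => (gc_mul' g A y).symm

theorem Jm_cj (x : X) : JJ n F d ^ᶜ x = Jm d (Matrix.SpecialLinearGroup.toGL x) := by
  ext y
  rw [mem_cj', mem_Jm]
  refine exists_congr fun a => and_congr_right fun _ => ?_
  rw [show gc (Matrix.SpecialLinearGroup.toGL x) a = x * a * x⁻¹ from
    Subtype.ext (by rw [gc_val, ← map_inv]; rfl), eq_comm]

theorem entry {a b : X} (ha : a ∈ JJ n F d) (hb : b ∈ JJ n F d) (M : Mx) {i j : I} (hi : d ≤ i.1) (hj : j.1 < d) :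
    (a.1 * M * b.1) i j = M i j := by
  have h1 : ∀ l, (a.1 * M) i l = M i l := fun l => by
    rw [mul_apply]
    conv_rhs => rw [← one_mul M, mul_apply]
    exact Finset.sum_congr rfl fun k _ => by rw [mem_JJ.1 ha i k (by omega)]
  rw [mul_apply]
  conv_rhs => rw [← mul_one M, mul_apply]
  exact Finset.sum_congr rfl fun k _ => by rw [h1, mem_JJ.1 hb k j (by omega)]

theorem main (A B C : GX n F) (e : ∀ y ∈ Jm d A, ∃ a ∈ Jm d B, ∃ b ∈ Jm d C, y = a * b) :
    Jm d B = Jm d A ∨ Jm d C = Jm d A := by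
  by_cases h1 : BT d (B⁻¹ * A).1
  · exact Or.inl (by simpa using (Jm_mul B h1).symm)
  by_cases h2 : BT d (A⁻¹ * C).1
  · exact Or.inr (by simpa using Jm_mul A h2)
  exfalso
  simp only [BT, not_forall] at h1 h2
  obtain ⟨i', j', hi', hj', h1⟩ := h1
  obtain ⟨i, j, hi, hj, h2⟩ := h2
  have hne : j' ≠ i := fun c => by subst c; omega
  obtain ⟨_, ⟨a, ha, rfl⟩, _, ⟨b, hb, rfl⟩, e⟩ :=
    e _ ⟨xe j' i 1, subset_closure ⟨j', i, 1, hj', hi, rfl⟩, rfl⟩
  have e1 : A.1 * (1 + single j' i 1) * (A⁻¹).1 = B.1 * a.1 * (B⁻¹).1 * (C.1 * b.1 * (C⁻¹).1) := by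
    rw [← xe_val hne]; exact congrArg Subtype.val e
  have e2 : (B⁻¹ * C).1 + (B⁻¹ * A).1 * single j' i 1 * (A⁻¹ * C).1 = a.1 * (B⁻¹ * C).1 * b.1 := by
    have := congrArg (fun M => (B⁻¹).1 * M * C.1) e1
    simp only [mul_add, add_mul, mul_one, mul_assoc, Units.inv_mul_cancel_left, Units.mul_inv_cancel_left,
      Units.inv_mul, Units.mul_inv, one_mul] at this
    simpa only [Units.val_mul, mul_assoc] using this
  have e3 := congrFun (congrFun e2 i') j
  rw [entry ha hb _ hi' hj, Matrix.add_apply, add_eq_left, mul_apply, Finset.sum_eq_single i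
    (fun l _ hl => by rw [mul_single_apply_of_ne _ _ _ _ _ hl, zero_mul]) (by simp), mul_single_apply_same,
    mul_one, mul_eq_zero] at e3
  exact e3.elim h1 h2

theorem eqns : True := by
  have := @BT.eq_1.{0}; have := @Jm.eq_1.{0}
  trivial

end SPL

theorem spl {J : Subgroup X} (hJ : IsJ J) (g g' : GX n F)
    (h : J ≤ (J ⊓ J.map (au g 1 false)) ⊔ (J ⊓ J.map (au g' 1 false))) :
    J.map (au g 1 false) = J ∨ J.map (au g' 1 false) = J := by
  have hc := hJ.el
  obtain ⟨d, -, x, rfl⟩ := hJ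
  rw [SPL.Jm_cj, SPL.Jm_map, SPL.Jm_map] at *
  refine SPL.main _ _ _ fun y hy => ?_
  obtain ⟨a, ha, b, hb, e⟩ := (mem_sup_of_le_normalizer_right (le_normalizer_of_le_centralizer
    fun a ha => mem_centralizer_iff.2 fun b hb => hc.comm (mem_inf.1 hb).1 (mem_inf.1 ha).1)).1 (h hy)
  exact ⟨a, ha.2, b, hb.2, e⟩

end LMS
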